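import Mathlib
import Cfsg.Agent.H52.SnDefs

/-! S2942 team project (helper52), piece SN-IFK: the first three clauses of `IsJComponent T K`,
transported to `↥L` for `K ≤ L`. -/

set_option autoImplicit false
open Cfsg

namespace Cfsg.Agent.H71.Sn

open Cfsg.Agent.H52.Sn

universe u

theorem ifK : StIfK.{u} := by
  intro G _ _ T L K hTL hK hKL
  obtain ⟨hgen, hcomm, hidx, -, -, -⟩ := hK
  have hJL : thompsonSubgroupOf 2 T ≤ L := le_trans (Subgroup.map_subtype_le _) hTL
  have hOK : pCoreOf 2 K ≤ K := Subgroup.map_subtype_le _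
  refine ⟨?_, ?_, ?_, ?_, ?_⟩
  · apply Subgroup.map_injective L.subtype_injective
    rw [MonoidHom.map_closure, Subgroup.map_subgroupOf_eq_of_le hKL]
    conv_rhs => rw [← hgen]
    congr 1
    ext g
    constructor
    · rintro ⟨x, ⟨hx1, hx2⟩, rfl⟩
      refine ⟨Subgroup.mem_subgroupOf.mp hx1, ?_⟩
      rw [Subgroup.subtype_apply, Subgroup.orderOf_coe]
      exact hx2
    · rintro ⟨hg1, hg2⟩
      refine ⟨⟨g, hKL hg1⟩, ⟨Subgroup.mem_subgroupOf.mpr hg1, ?_⟩, rfl⟩
      rw [Subgroup.orderOf_mk]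
      exact hg2
  · apply Subgroup.map_injective L.subtype_injective
    rw [Subgroup.map_commutator, Subgroup.map_subgroupOf_eq_of_le hKL,
      Subgroup.map_subgroupOf_eq_of_le hJL, hcomm]
  · exact Subgroup.comap_mono hOK
  · have h1 : IsPGroup 2 (pCore 2 K) :=
      Sylow.sSup_of_normal _ (fun _ hH => hH.2) (fun _ hH => hH.1)
    have h2 : IsPGroup 2 (pCoreOf 2 K) := h1.map K.subtype
    exact h2.comap_subtype
  · rw [Subgroup.relIndex_subgroupOf hKL]
    exact hidx

example : Cfsg.Agent.H52.Sn.StIfK.{u} := ifK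

end Cfsg.Agent.H71.Sn
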