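import Mathlib
import Cfsg.Agent.H52.SnDefs
import Cfsg.Agent.H80.SolvPSolv

/-! S2942 team project (helper52), piece SN-IFS: a member `L` of the family of `T ≠ 1` is
2-solvable (it lies in the 2-local subgroup `N_G(O₂(L))`). -/

set_option autoImplicit false
open Cfsg

namespace Cfsg.Agent.H71.Sn

open Cfsg.Agent.H52.Sn

universe u

theorem ifS : StIfS.{u} := by
  intro G _ _ hloc T L hT hL
  obtain ⟨⟨hTL, hT2, hodd⟩, hJ, hC⟩ := hL
  have : Fact (Nat.Prime 2) := ⟨Nat.prime_two⟩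
  set Q : Subgroup G := pCoreOf 2 L with hQ
  have hQne : Q ≠ ⊥ := by
    intro h
    rw [h] at hC
    have htop : (⊤ : Subgroup G) ≤ ⊥ := by
      refine le_trans ?_ hC
      intro g _
      rw [Subgroup.mem_centralizer_iff]
      intro x hx
      have hx1 : x = 1 := by simpa using hx
      rw [hx1]; simp
    apply hT
    exact le_bot_iff.mp (le_trans le_top htop)
  have hQ2 : IsPGroup 2 Q := by
    have h1 : IsPGroup 2 (pCore 2 L) :=
      Sylow.sSup_of_normal _ (fun _ hH => hH.2) (fun _ hH => hH.1)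
    exact h1.map L.subtype
  have hLN : L ≤ Subgroup.normalizer (Q : Set G) := by
    have hn : (pCore 2 L).Normal := Subgroup.sSup_normal _ (fun _ hH => hH.1)
    intro g hg
    rw [Subgroup.mem_normalizer_iff]
    intro x
    constructor
    · rintro ⟨y, hy, rfl⟩
      exact ⟨⟨g, hg⟩ * y * ⟨g, hg⟩⁻¹, hn.conj_mem y hy ⟨g, hg⟩, rfl⟩
    · rintro ⟨y, hy, hyx⟩
      have h2 : (⟨g, hg⟩ : L)⁻¹ * y * (⟨g, hg⟩ : L)⁻¹⁻¹ ∈ pCore 2 L := hn.conj_mem y hy _
      refine ⟨_, h2, ?_⟩
      have h3 : (L.subtype y : G) = g * x * g⁻¹ := hyx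
      simp only [map_mul, map_inv, inv_inv, h3, Subgroup.subtype_apply]
      group
  have hsolN : Group.IsSolvable ↥(Subgroup.normalizer (Q : Set G)) :=
    hloc _ ⟨Q, hQ2, hQne, rfl⟩
  have hsolL : Group.IsSolvable ↥L :=
    Group.isSolvable_of_isSolvable_injective (Subgroup.inclusion_injective hLN)
  exact Cfsg.Agent.H80.isPSolvable_of_isSolvable 2 (Nat.card L) L rfl

example : Cfsg.Agent.H52.Sn.StIfS.{u} := ifS

end Cfsg.Agent.H71.Sn
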