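import Mathlib
import Cfsg.Prelude.Def_OddOrderLocal

/-!
# S1404-CS: conjugacy of the centralizer parts of Sylow subgroups of a normalizer

For a normal subgroup `K` of a finite group and Sylow `p`-subgroups `P₁`, `P₂`, the
intersections `Pᵢ ⊓ K` are Sylow `p`-subgroups of `K`, hence conjugate under `K`.  Applied to
`N_G(X)` and its normal subgroup `C_G(X)`.
-/

set_option autoImplicit false

namespace Cfsg.Agent.H71.BG10

open Cfsg Subgroup

universe u

/-- The intersection of a Sylow `p`-subgroup with a normal subgroup `K` is a maximal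
`p`-subgroup of `K`. -/
theorem sylow_inf_normal_maximal {Γ : Type*} [Group Γ] [Finite Γ] (p : ℕ) [Fact p.Prime]
    (K : Subgroup Γ) [hK : K.Normal] (P : Sylow p Γ) (T : Subgroup Γ) (hT : IsPGroup p T)
    (hTK : T ≤ K) (hle : (P : Subgroup Γ) ⊓ K ≤ T) : T = (P : Subgroup Γ) ⊓ K := by
  obtain ⟨P', hP'⟩ := hT.exists_le_sylow
  obtain ⟨g, hg⟩ := MulAction.exists_smul_eq Γ P P'
  have h1 : T ≤ ((P : Subgroup Γ) ⊓ K).map (MulAut.conj g).toMonoidHom := by
    intro x hx
    have hxP' : x ∈ (P' : Subgroup Γ) := hP' hx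
    rw [← hg, Sylow.coe_subgroup_smul, Subgroup.mem_pointwise_smul_iff_inv_smul_mem] at hxP'
    have hxP : g⁻¹ * x * g ∈ (P : Subgroup Γ) := by
      simpa [MulAut.smul_def] using hxP'
    have hxK : g⁻¹ * x * g ∈ K := by
      have := hK.conj_mem x (hTK hx) g⁻¹
      simpa using this
    refine ⟨g⁻¹ * x * g, ⟨hxP, hxK⟩, ?_⟩
    show g * (g⁻¹ * x * g) * g⁻¹ = x
    group
  have h2 : Nat.card T ≤ Nat.card ((P : Subgroup Γ) ⊓ K : Subgroup Γ) := by
    have := Subgroup.card_le_of_le h1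
    rwa [Subgroup.card_map_of_injective (MulAut.conj g).injective] at this
  exact (Subgroup.eq_of_le_of_card_ge hle h2).symm

/-- The intersections of two Sylow `p`-subgroups with a normal subgroup `K` are conjugate
under `K`. -/
theorem sylow_inf_normal_conj {Γ : Type*} [Group Γ] [Finite Γ] (p : ℕ) [Fact p.Prime]
    (K : Subgroup Γ) [hK : K.Normal] (P₁ P₂ : Sylow p Γ) :
    ∃ c ∈ K, (P₂ : Subgroup Γ) ⊓ K =
      ((P₁ : Subgroup Γ) ⊓ K).map (MulAut.conj c).toMonoidHom := by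
  have hS : ∀ P : Sylow p Γ, ∃ S : Sylow p K,
      (S : Subgroup K) = ((P : Subgroup Γ) ⊓ K).subgroupOf K := by
    intro P
    refine ⟨⟨((P : Subgroup Γ) ⊓ K).subgroupOf K, ?_, ?_⟩, rfl⟩
    · exact (P.isPGroup'.to_le inf_le_left).comap_subtype
    · intro T' hT' hle
      have hT : IsPGroup p (T'.map K.subtype) := hT'.map _
      have hTK : T'.map K.subtype ≤ K := by
        rintro _ ⟨y, -, rfl⟩
        exact y.2
      have hle' : (P : Subgroup Γ) ⊓ K ≤ T'.map K.subtype := by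
        intro x hx
        exact ⟨⟨x, hx.2⟩, hle (Subgroup.mem_subgroupOf.mpr hx), rfl⟩
      have h := sylow_inf_normal_maximal p K P _ hT hTK hle'
      apply le_antisymm _ hle
      intro y hy
      rw [Subgroup.mem_subgroupOf, ← h]
      exact ⟨y, hy, rfl⟩
  obtain ⟨S₁, hS₁⟩ := hS P₁
  obtain ⟨S₂, hS₂⟩ := hS P₂
  obtain ⟨k, hk⟩ := MulAction.exists_smul_eq K S₁ S₂
  refine ⟨k, k.2, ?_⟩
  ext x
  constructor
  · intro hx
    have h1 : (⟨x, hx.2⟩ : K) ∈ (S₂ : Subgroup K) := by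
      rw [hS₂]
      exact Subgroup.mem_subgroupOf.mpr hx
    rw [← hk, Sylow.coe_subgroup_smul, Subgroup.mem_pointwise_smul_iff_inv_smul_mem, hS₁,
      Subgroup.mem_subgroupOf] at h1
    refine ⟨_, h1, ?_⟩
    simp only [MulAut.smul_def, MulAut.conj_inv_apply, MulEquiv.coe_toMonoidHom, MulAut.conj_apply,
      Subgroup.coe_mul, Subgroup.coe_inv]
    group
  · rintro ⟨y, hy, rfl⟩
    have h1 : (⟨y, hy.2⟩ : K) ∈ (S₁ : Subgroup K) := by
      rw [hS₁]
      exact Subgroup.mem_subgroupOf.mpr hy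
    have h2 : k * ⟨y, hy.2⟩ * k⁻¹ ∈ (S₂ : Subgroup K) := by
      rw [← hk, Sylow.coe_subgroup_smul, Subgroup.mem_pointwise_smul_iff_inv_smul_mem]
      have e : (MulAut.conj k)⁻¹ • (k * ⟨y, hy.2⟩ * k⁻¹) = (⟨y, hy.2⟩ : K) := by
        simp only [MulAut.smul_def, MulAut.conj_inv_apply]
        group
      rw [e]
      exact h1
    rw [hS₂, Subgroup.mem_subgroupOf] at h2
    simpa using h2

/-- **S1404-CS**. -/
theorem cent_sylow_conj {G : Type u} [Group G] [Finite G] (p : ℕ) [Fact p.Prime] (X : Subgroup G)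
    (R₁ R₂ : Subgroup G) (hR₁ : IsPGroup p R₁) (hR₂ : IsPGroup p R₂)
    (h1 : R₁ ≤ normalizer (X : Set G)) (h2 : R₂ ≤ normalizer (X : Set G))
    (hm1 : ∀ Q : Subgroup G, IsPGroup p Q → Q ≤ normalizer (X : Set G) → R₁ ≤ Q → Q = R₁)
    (hm2 : ∀ Q : Subgroup G, IsPGroup p Q → Q ≤ normalizer (X : Set G) → R₂ ≤ Q → Q = R₂) :
    ∃ c ∈ centralizer (X : Set G),
      R₂ ⊓ centralizer (X : Set G) =
        (R₁ ⊓ centralizer (X : Set G)).map (MulAut.conj c).toMonoidHom := by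
  -- `C_G(X)` is normal in `N_G(X)`
  have hNC : ∀ n ∈ normalizer (X : Set G), ∀ c ∈ centralizer (X : Set G),
      n * c * n⁻¹ ∈ centralizer (X : Set G) := by
    intro n hn c hc
    rw [Subgroup.mem_centralizer_iff]
    intro x hx
    have hx' : n⁻¹ * x * n ∈ X := (Subgroup.mem_normalizer_iff''.mp hn x).mp hx
    have h3 := Subgroup.mem_centralizer_iff.mp hc _ hx'
    calc x * (n * c * n⁻¹) = n * ((n⁻¹ * x * n) * c) * n⁻¹ := by group
      _ = n * (c * (n⁻¹ * x * n)) * n⁻¹ := by rw [h3]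
      _ = n * c * n⁻¹ * x := by group
  have hKn : ((centralizer (X : Set G)).subgroupOf (normalizer (X : Set G))).Normal := by
    refine ⟨fun c hc n => ?_⟩
    rw [Subgroup.mem_subgroupOf] at hc ⊢
    exact hNC n n.2 c hc
  -- the Sylow subgroups of `N_G(X)` given by `R₁`, `R₂`
  have hS : ∀ R : Subgroup G, IsPGroup p R → R ≤ normalizer (X : Set G) →
      (∀ Q : Subgroup G, IsPGroup p Q → Q ≤ normalizer (X : Set G) → R ≤ Q → Q = R) →
      ∃ P : Sylow p ↥(normalizer (X : Set G)),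
        (P : Subgroup ↥(normalizer (X : Set G))) = R.subgroupOf (normalizer (X : Set G)) := by
    intro R hR hRN hm
    refine ⟨⟨R.subgroupOf (normalizer (X : Set G)), hR.comap_subtype, ?_⟩, rfl⟩
    intro T' hT' hle
    have hT : IsPGroup p (T'.map (normalizer (X : Set G)).subtype) := hT'.map _
    have hTN : T'.map (normalizer (X : Set G)).subtype ≤ normalizer (X : Set G) := by
      rintro _ ⟨y, -, rfl⟩
      exact y.2
    have hle' : R ≤ T'.map (normalizer (X : Set G)).subtype := by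
      intro x hx
      exact ⟨⟨x, hRN hx⟩, hle (Subgroup.mem_subgroupOf.mpr hx), rfl⟩
    have h := hm _ hT hTN hle'
    apply le_antisymm _ hle
    intro y hy
    rw [Subgroup.mem_subgroupOf, ← h]
    exact ⟨y, hy, rfl⟩
  obtain ⟨P₁, hP₁⟩ := hS R₁ hR₁ h1 hm1
  obtain ⟨P₂, hP₂⟩ := hS R₂ hR₂ h2 hm2
  obtain ⟨c, hc, hconj⟩ := sylow_inf_normal_conj p
    ((centralizer (X : Set G)).subgroupOf (normalizer (X : Set G))) P₁ P₂
  rw [hP₁, hP₂] at hconj
  refine ⟨c, Subgroup.mem_subgroupOf.mp hc, ?_⟩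
  ext x
  constructor
  · intro hx
    have hxN : x ∈ normalizer (X : Set G) := h2 hx.1
    have h3 : (⟨x, hxN⟩ : ↥(normalizer (X : Set G))) ∈
        R₂.subgroupOf (normalizer (X : Set G)) ⊓
          (centralizer (X : Set G)).subgroupOf (normalizer (X : Set G)) :=
      ⟨Subgroup.mem_subgroupOf.mpr hx.1, Subgroup.mem_subgroupOf.mpr hx.2⟩
    rw [hconj] at h3
    obtain ⟨y, hy, hyx⟩ := h3
    refine ⟨y, ⟨Subgroup.mem_subgroupOf.mp hy.1, Subgroup.mem_subgroupOf.mp hy.2⟩, ?_⟩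
    have := congrArg (fun t : ↥(normalizer (X : Set G)) => (t : G)) hyx
    simpa using this
  · rintro ⟨y, hy, rfl⟩
    have hyN : y ∈ normalizer (X : Set G) := h1 hy.1
    have h3 : (MulAut.conj c).toMonoidHom (⟨y, hyN⟩ : ↥(normalizer (X : Set G))) ∈
        R₂.subgroupOf (normalizer (X : Set G)) ⊓
          (centralizer (X : Set G)).subgroupOf (normalizer (X : Set G)) := by
      rw [hconj]
      exact ⟨_, ⟨Subgroup.mem_subgroupOf.mpr hy.1, Subgroup.mem_subgroupOf.mpr hy.2⟩, rfl⟩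
    have h4 := Subgroup.mem_subgroupOf.mp h3.1
    have h5 := Subgroup.mem_subgroupOf.mp h3.2
    exact ⟨by simpa using h4, by simpa using h5⟩

end Cfsg.Agent.H71.BG10
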