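import Mathlib
import Cfsg.Agent.H58.BG10Defs2

/-!
# BG10 piece I (helper58's team project): B&G 10.7 (c), (d), (e) from control of fusion

If `N_G(P)` controls strong fusion in the Sylow `p`-subgroup `P`, then
(c) `G`-conjugates inside `P` of a subgroup of `P` are `N_G(P)`-conjugates,
(d) `P ⊓ N_G(Q)` is a Sylow `p`-subgroup of `N_G(Q)` for `Q ≤ P`,
(e) if `N_G(P) ≤ N_G(Q)` and `Q ≤ P ⊓ R`, `R` a `p`-group, then `N_G(R) ≤ N_G(Q)`.
-/

set_option autoImplicit false

namespace Cfsg.Agent.H71.BG10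

open Cfsg Subgroup Cfsg.Agent.H58.BG10

universe u

variable {G : Type u} [Group G]

theorem mem_map_conj (Q : Subgroup G) (x z : G) :
    z ∈ Q.map (MulAut.conj x).toMonoidHom ↔ x⁻¹ * z * x ∈ Q := by
  constructor
  · rintro ⟨a, ha, rfl⟩
    have : x⁻¹ * (MulAut.conj x).toMonoidHom a * x = a := by
      show x⁻¹ * (x * a * x⁻¹) * x = a
      group
    rw [this]
    exact ha
  · intro h
    refine ⟨x⁻¹ * z * x, h, ?_⟩
    show x * (x⁻¹ * z * x) * x⁻¹ = z
    group

theorem map_conj_eq_self_iff (Q : Subgroup G) (x : G) :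
    Q.map (MulAut.conj x).toMonoidHom = Q ↔ x ∈ normalizer (Q : Set G) := by
  rw [Subgroup.mem_normalizer_iff'']
  constructor
  · intro h z
    rw [← mem_map_conj, h]
  · intro h
    ext z
    rw [mem_map_conj]
    exact (h z).symm

theorem map_conj_mul (Q : Subgroup G) (a b : G) :
    Q.map (MulAut.conj (a * b)).toMonoidHom =
      (Q.map (MulAut.conj b).toMonoidHom).map (MulAut.conj a).toMonoidHom := by
  ext z
  rw [mem_map_conj, mem_map_conj, mem_map_conj]
  have : (a * b)⁻¹ * z * (a * b) = b⁻¹ * (a⁻¹ * z * a) * b := by group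
  rw [this]

/-- A `p`-subgroup is contained in a conjugate of any Sylow `p`-subgroup. -/
theorem exists_conj_mem_sylow [Finite G] {p : ℕ} [Fact p.Prime] (P : Sylow p G)
    (R : Subgroup G) (hR : IsPGroup p R) : ∃ g : G, ∀ r ∈ R, g⁻¹ * r * g ∈ (P : Subgroup G) := by
  obtain ⟨P', hP'⟩ := hR.exists_le_sylow
  obtain ⟨g, hg⟩ := MulAction.exists_smul_eq G P P'
  refine ⟨g, fun r hr => ?_⟩
  have h := hP' hr
  rw [← hg, Sylow.coe_subgroup_smul, Subgroup.mem_pointwise_smul_iff_inv_smul_mem] at h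
  simpa [MulAut.smul_def] using h

/-- (c): conjugates of `Q ≤ P` inside `P` are conjugates under `N_G(P)`. -/
theorem fusion_c {p : ℕ} [Fact p.Prime] (hF : StFusion G) (P : Sylow p G) (Q : Subgroup G)
    (x : G) (hQ : Q ≤ (P : Subgroup G))
    (hx : Q.map (MulAut.conj x).toMonoidHom ≤ (P : Subgroup G)) :
    ∃ y ∈ normalizer ((P : Subgroup G) : Set G),
      Q.map (MulAut.conj x).toMonoidHom = Q.map (MulAut.conj y).toMonoidHom := by
  obtain ⟨y, hy, hyx⟩ := hF p P (Q : Set G) x hQ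
    (fun a ha => hx ⟨a, ha, rfl⟩)
  refine ⟨y, hy, ?_⟩
  ext z
  constructor
  · rintro ⟨a, ha, rfl⟩
    refine ⟨a, ha, ?_⟩
    show y * a * y⁻¹ = x * a * x⁻¹
    exact hyx a ha
  · rintro ⟨a, ha, rfl⟩
    refine ⟨a, ha, ?_⟩
    show x * a * x⁻¹ = y * a * y⁻¹
    exact (hyx a ha).symm

/-- If `N_G(P) ≤ N_G(Q)` then an element conjugating `Q ≤ P` into `P` normalizes `Q`. -/
theorem mem_normalizer_of_fusion {p : ℕ} [Fact p.Prime] (hF : StFusion G) (P : Sylow p G)
    (Q : Subgroup G) (x : G) (hQ : Q ≤ (P : Subgroup G))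
    (hN : normalizer ((P : Subgroup G) : Set G) ≤ normalizer (Q : Set G))
    (hx : ∀ a ∈ Q, x * a * x⁻¹ ∈ (P : Subgroup G)) : x ∈ normalizer (Q : Set G) := by
  have hx' : Q.map (MulAut.conj x).toMonoidHom ≤ (P : Subgroup G) := by
    rintro _ ⟨a, ha, rfl⟩
    exact hx a ha
  obtain ⟨y, hy, hxy⟩ := fusion_c hF P Q x hQ hx'
  rw [← map_conj_eq_self_iff, hxy, map_conj_eq_self_iff]
  exact hN hy

/-- A `p`-subgroup `T` of `N_G(Q)` containing `P ⊓ N_G(Q)` equals it. -/
theorem inf_normalizer_maximal [Finite G] {p : ℕ} [Fact p.Prime] (hF : StFusion G)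
    (P : Sylow p G) (Q : Subgroup G) (hQ : Q ≤ (P : Subgroup G)) (T : Subgroup G)
    (hT : IsPGroup p T) (hTN : T ≤ normalizer (Q : Set G))
    (hle : (P : Subgroup G) ⊓ normalizer (Q : Set G) ≤ T) :
    T = (P : Subgroup G) ⊓ normalizer (Q : Set G) := by
  obtain ⟨g, hg⟩ := exists_conj_mem_sylow P T hT
  have hQT : Q ≤ T := fun a ha => hle ⟨hQ ha, Subgroup.le_normalizer ha⟩
  have hx' : Q.map (MulAut.conj g⁻¹).toMonoidHom ≤ (P : Subgroup G) := by
    rintro _ ⟨a, ha, rfl⟩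
    have := hg a (hQT ha)
    show g⁻¹ * a * g⁻¹⁻¹ ∈ (P : Subgroup G)
    rwa [inv_inv]
  obtain ⟨y, hy, hxy⟩ := fusion_c hF P Q g⁻¹ hQ hx'
  -- `n := g * y` normalizes `Q`
  have hn : g * y ∈ normalizer (Q : Set G) := by
    rw [← map_conj_eq_self_iff, map_conj_mul, ← hxy, ← map_conj_mul, mul_inv_cancel]
    ext z
    rw [mem_map_conj]
    simp
  -- conjugation by `n⁻¹` maps `T` into `P ⊓ N_G(Q)`
  have hmap : T.map (MulAut.conj (g * y)⁻¹).toMonoidHom ≤
      (P : Subgroup G) ⊓ normalizer (Q : Set G) := by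
    rintro _ ⟨t, ht, rfl⟩
    constructor
    · have h1 : g⁻¹ * t * g ∈ (P : Subgroup G) := hg t ht
      have h2 := (Subgroup.mem_normalizer_iff''.mp hy (g⁻¹ * t * g)).mp h1
      have h3 : (MulAut.conj (g * y)⁻¹).toMonoidHom t = y⁻¹ * (g⁻¹ * t * g) * y := by
        show (g * y)⁻¹ * t * (g * y)⁻¹⁻¹ = y⁻¹ * (g⁻¹ * t * g) * y
        group
      rw [h3]
      exact h2
    · show (g * y)⁻¹ * t * (g * y)⁻¹⁻¹ ∈ normalizer (Q : Set G)
      exact mul_mem (mul_mem (inv_mem hn) (hTN ht)) (inv_mem (inv_mem hn))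
  have hcard : Nat.card T ≤ Nat.card ((P : Subgroup G) ⊓ normalizer (Q : Set G) : Subgroup G) := by
    have := Subgroup.card_le_of_le hmap
    rwa [Subgroup.card_map_of_injective (MulAut.conj (g * y)⁻¹).injective] at this
  exact (Subgroup.eq_of_le_of_card_ge hle hcard).symm

/-- **BG10 piece I**. -/
theorem bg107c [Finite G] (hG : IsMinSimpleOddOrder G) (hF : StFusion G) : St1413 G := by
  intro p _ P
  refine ⟨fun Q x hQ hx => fusion_c hF P Q x hQ hx, ?_, ?_⟩
  · -- (d)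
    intro Q hQ
    have hmax : ∀ T' : Subgroup ↥(normalizer (Q : Set G)), IsPGroup p T' →
        ((P : Subgroup G) ⊓ normalizer (Q : Set G)).subgroupOf (normalizer (Q : Set G)) ≤ T' →
        T' = ((P : Subgroup G) ⊓ normalizer (Q : Set G)).subgroupOf (normalizer (Q : Set G)) := by
      intro T' hT' hle
      have hT : IsPGroup p (T'.map (normalizer (Q : Set G)).subtype) := hT'.map _
      have hTN : T'.map (normalizer (Q : Set G)).subtype ≤ normalizer (Q : Set G) := by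
        rintro _ ⟨y, -, rfl⟩
        exact y.2
      have hle' : (P : Subgroup G) ⊓ normalizer (Q : Set G) ≤
          T'.map (normalizer (Q : Set G)).subtype := by
        intro x hx
        exact ⟨⟨x, hx.2⟩, hle (Subgroup.mem_subgroupOf.mpr hx), rfl⟩
      have h := inf_normalizer_maximal hF P Q hQ _ hT hTN hle'
      apply le_antisymm _ hle
      intro y hy
      rw [Subgroup.mem_subgroupOf, ← h]
      exact ⟨y, hy, rfl⟩
    let S : Sylow p ↥(normalizer (Q : Set G)) :=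
      ⟨((P : Subgroup G) ⊓ normalizer (Q : Set G)).subgroupOf (normalizer (Q : Set G)),
        (P.isPGroup'.to_le inf_le_left).comap_subtype, fun {T'} hT' hle => hmax T' hT' hle⟩
    exact S.not_dvd_index
  · -- (e)
    intro R Q hR hQ hN n hn
    have hQP : Q ≤ (P : Subgroup G) := hQ.trans inf_le_left
    have hQR : Q ≤ R := hQ.trans inf_le_right
    obtain ⟨g, hg⟩ := exists_conj_mem_sylow P R hR
    have hg1 : g⁻¹ ∈ normalizer (Q : Set G) := by
      apply mem_normalizer_of_fusion hF P Q g⁻¹ hQP hN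
      intro a ha
      have := hg a (hQR ha)
      rwa [inv_inv]
    have hx : g⁻¹ * n ∈ normalizer (Q : Set G) := by
      apply mem_normalizer_of_fusion hF P Q (g⁻¹ * n) hQP hN
      intro a ha
      have h1 : n * a * n⁻¹ ∈ R := (Subgroup.mem_normalizer_iff.mp hn a).mp (hQR ha)
      have h2 := hg _ h1
      have h3 : g⁻¹ * n * a * (g⁻¹ * n)⁻¹ = g⁻¹ * (n * a * n⁻¹) * g := by group
      rw [h3]
      exact h2
    have h4 : n = g⁻¹⁻¹ * (g⁻¹ * n) := by group
    rw [h4]
    exact mul_mem (inv_mem hg1) hx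

end Cfsg.Agent.H71.BG10
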