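import Mathlib
import Cfsg.Agent.H58.BG10Defs2
import Cfsg.Agent.S1448

/-!
# BG10 piece K (helper58's team project): Sylow subgroups of rank at most two

From `P = ⁅P, V⁆` for a complement `V` of the Sylow `p`-subgroup `P` in `N_G(P)` (S1411) and
S1448, the structure of the Sylow `p`-subgroups of rank at most `2` (S1412).  The only
difference with S1448 is the description of the central subgroup of order `p`: in a
non-commutative group of order `p ^ 3` the commutator subgroup is the centre.
-/

set_option autoImplicit false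
open scoped commutatorElement

namespace Cfsg.Agent.H71.BG10

open Cfsg Subgroup Cfsg.Agent.H58.BG10

universe u

/-- In a non-commutative group of order `p ^ 3` the commutator subgroup is the centre. -/
theorem commutator_eq_center_of_card_cube {H : Type*} [Group H] [Finite H] {p : ℕ}
    [hp : Fact p.Prime] (hcard : Nat.card H = p ^ 3) (hnc : ¬ ∀ a b : H, a * b = b * a) :
    commutator H = Subgroup.center H := by
  have hpg : IsPGroup p H := IsPGroup.of_card hcard
  have hnt : Nontrivial H := by
    rw [← Finite.one_lt_card_iff_nontrivial, hcard]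
    exact Nat.one_lt_pow (by norm_num) hp.out.one_lt
  have hcn : Nontrivial (Subgroup.center H) := hpg.center_nontrivial
  have hdvd : Nat.card (Subgroup.center H) ∣ p ^ 3 := hcard ▸ Subgroup.card_subgroup_dvd_card _
  obtain ⟨k, hk3, hk⟩ := (Nat.dvd_prime_pow hp.out).mp hdvd
  have hidx : (Subgroup.center H).index * p ^ k = p ^ 3 := by
    rw [← hk, ← hcard]
    exact Subgroup.index_mul_card _
  have hne_top : Subgroup.center H ≠ ⊤ := by
    intro h
    apply hnc
    intro a b
    have ha : a ∈ Subgroup.center H := by rw [h]; trivial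
    exact (Subgroup.mem_center_iff.mp ha b).symm
  have hk0 : k ≠ 0 := by
    rintro rfl
    have : Nat.card (Subgroup.center H) = 1 := by simpa using hk
    have := Finite.one_lt_card_iff_nontrivial.mpr hcn
    omega
  have hk3' : k ≠ 3 := by
    rintro rfl
    apply hne_top
    apply Subgroup.eq_top_of_card_eq
    rw [hk, hcard]
  have hk2 : k ≠ 2 := by
    rintro rfl
    have hi : (Subgroup.center H).index = p := by
      have h1 : (Subgroup.center H).index * p ^ 2 = p * p ^ 2 := by rw [hidx]; ring
      exact Nat.eq_of_mul_eq_mul_right (pow_pos hp.out.pos 2) h1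
    have hcyc : IsCyclic (H ⧸ Subgroup.center H) := by
      apply isCyclic_of_prime_card (p := p)
      rw [← Subgroup.index_eq_card]
      exact hi
    have hcomm := MonoidHom.isMulCommutative_of_isCyclic_of_ker_le_center
      (QuotientGroup.mk' (Subgroup.center H)) (by rw [QuotientGroup.ker_mk'])
    apply hnc
    intro a b
    exact hcomm.is_comm.comm a b
  have hk1 : k = 1 := by omega
  subst hk1
  have hi : (Subgroup.center H).index = p ^ 2 := by
    have h1 : (Subgroup.center H).index * p ^ 1 = p ^ 2 * p ^ 1 := by rw [hidx]; ring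
    exact Nat.eq_of_mul_eq_mul_right (pow_pos hp.out.pos 1) h1
  have hqc : IsMulCommutative (H ⧸ Subgroup.center H) := by
    apply IsPGroup.isMulCommutative_of_card_eq_prime_sq (p := p)
    rw [← Subgroup.index_eq_card]
    exact hi
  have hle : commutator H ≤ Subgroup.center H := by
    rw [commutator_def, Subgroup.commutator_le]
    intro g₁ _ g₂ _
    rw [← QuotientGroup.eq_one_iff]
    show (QuotientGroup.mk' (Subgroup.center H)) ⁅g₁, g₂⁆ = 1
    rw [map_commutatorElement, commutatorElement_eq_one_iff_commute]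
    exact hqc.is_comm.comm _ _
  have hne_bot : commutator H ≠ ⊥ := by
    intro h
    exact hne_top ((commutator_eq_bot_iff_center_eq_top H).mp h)
  have hcard_le : Nat.card (Subgroup.center H) ≤ Nat.card (commutator H) := by
    have h1 : Nat.card (commutator H) ∣ p := by
      have := Subgroup.card_dvd_of_le hle
      rwa [hk, pow_one] at this
    rcases (Nat.dvd_prime hp.out).mp h1 with h2 | h2
    · exact absurd (Subgroup.card_eq_one.mp h2) hne_bot
    · rw [hk, pow_one, h2]
  exact Subgroup.eq_of_le_of_card_ge hle hcard_le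

/-- Subgroup version: `⁅R, R⁆ = Z(R)` for a non-commutative subgroup `R` of order `p ^ 3`. -/
theorem commutator_eq_inf_centralizer_of_card_cube {G : Type*} [Group G] [Finite G] {p : ℕ}
    [Fact p.Prime] (R : Subgroup G) (hcard : Nat.card R = p ^ 3) (hnc : ¬ IsMulCommutative R) :
    ⁅R, R⁆ = R ⊓ centralizer (R : Set G) := by
  have hnc' : ¬ ∀ a b : R, a * b = b * a := fun h => hnc ⟨⟨h⟩⟩
  have h1 := commutator_eq_center_of_card_cube hcard hnc'
  rw [← Subgroup.map_subtype_commutator, h1]
  ext x
  rw [Subgroup.mem_map, Subgroup.mem_inf]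
  constructor
  · rintro ⟨r, hr, rfl⟩
    refine ⟨r.2, Subgroup.mem_centralizer_iff.mpr fun y hy => ?_⟩
    have := Subgroup.mem_center_iff.mp hr ⟨y, hy⟩
    exact congrArg Subtype.val this
  · rintro ⟨hxR, hxC⟩
    refine ⟨⟨x, hxR⟩, Subgroup.mem_center_iff.mpr fun y => ?_, rfl⟩
    apply Subtype.ext
    exact Subgroup.mem_centralizer_iff.mp hxC y y.2

/-- A Sylow `p`-subgroup has a complement of order prime to `p` in its normalizer
(Schur–Zassenhaus). -/
theorem exists_compl_sylow_normalizer {G : Type u} [Group G] [Finite G] {p : ℕ} [Fact p.Prime]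
    (P : Sylow p G) :
    ∃ V : Subgroup G, IsComplIn (P : Subgroup G) V (normalizer ((P : Subgroup G) : Set G)) ∧
      (Nat.card V).Coprime p := by
  classical
  have hPN : (P : Subgroup G) ≤ normalizer ((P : Subgroup G) : Set G) := Subgroup.le_normalizer
  have hnorm : ((P : Subgroup G).subgroupOf (normalizer ((P : Subgroup G) : Set G))).Normal :=
    Subgroup.normal_in_normalizer
  have hndvd : ¬ p ∣ ((P : Subgroup G).subgroupOf (normalizer ((P : Subgroup G) : Set G))).index := by
    intro h
    exact P.not_dvd_index (h.trans (Subgroup.relIndex_dvd_index_of_le hPN))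
  obtain ⟨n, hn⟩ : ∃ n, Nat.card ((P : Subgroup G).subgroupOf
      (normalizer ((P : Subgroup G) : Set G))) = p ^ n :=
    IsPGroup.iff_card.mp (P.isPGroup'.comap_subtype)
  have hcop : (Nat.card ((P : Subgroup G).subgroupOf
      (normalizer ((P : Subgroup G) : Set G)))).Coprime
      ((P : Subgroup G).subgroupOf (normalizer ((P : Subgroup G) : Set G))).index := by
    rw [hn]
    exact Nat.Coprime.pow_left n ((Nat.Prime.coprime_iff_not_dvd Fact.out).mpr hndvd)
  obtain ⟨K', hK'⟩ := Subgroup.exists_right_complement'_of_coprime hcop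
  refine ⟨K'.map (normalizer ((P : Subgroup G) : Set G)).subtype, ⟨hPN, ?_, ?_, ?_⟩, ?_⟩
  · rintro _ ⟨y, -, rfl⟩
    exact y.2
  · rw [eq_bot_iff]
    rintro x ⟨hxP, ⟨k, hk, rfl⟩⟩
    have h1 : k ∈ (P : Subgroup G).subgroupOf (normalizer ((P : Subgroup G) : Set G)) ⊓ K' :=
      ⟨Subgroup.mem_subgroupOf.mpr hxP, hk⟩
    rw [hK'.disjoint.eq_bot, Subgroup.mem_bot] at h1
    rw [Subgroup.mem_bot, h1]
    rfl
  · intro m hm
    obtain ⟨⟨z, k⟩, hx, -⟩ := Subgroup.isComplement_iff_existsUnique.mp hK' ⟨m, hm⟩
    simp only at hx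
    refine ⟨z.1.1, Subgroup.mem_subgroupOf.mp z.2, k.1.1, ⟨k.1, k.2, rfl⟩, ?_⟩
    have h1 := congrArg Subtype.val hx
    simpa using h1.symm
  · rw [Subgroup.card_map_of_injective
      (Subgroup.subtype_injective (normalizer ((P : Subgroup G) : Set G)))]
    have h1 : Nat.card K' =
        ((P : Subgroup G).subgroupOf (normalizer ((P : Subgroup G) : Set G))).index :=
      (Subgroup.IsComplement'.index_eq_card hK'.symm).symm
    rw [h1]
    exact ((Nat.Prime.coprime_iff_not_dvd Fact.out).mpr hndvd).symm

variable {G : Type u} [Group G]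

/-- **BG10 piece K**. -/
theorem bg107r [Finite G] (hG : IsMinSimpleOddOrder G) (h107b : St1411 G) : St1412 G := by
  intro p _ P hr
  by_cases hP1 : (P : Subgroup G) = ⊥
  · left
    rw [hP1]
    exact ⟨⟨fun a b => Subsingleton.elim _ _⟩⟩
  · obtain ⟨V, hV, hVp⟩ := exists_compl_sylow_normalizer P
    have hodd : Odd (Nat.card G) := hG.1
    have hp2 : p ≠ 2 := by
      rintro rfl
      have h2 : 2 ∣ Nat.card (P : Subgroup G) := by
        obtain ⟨n, hn⟩ := IsPGroup.iff_card.mp P.isPGroup'
        have hn0 : n ≠ 0 := by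
          rintro rfl
          exact hP1 (Subgroup.card_eq_one.mp (by simpa using hn))
        rw [hn]
        exact dvd_pow_self 2 hn0
      have h3 : 2 ∣ Nat.card G := h2.trans (Subgroup.card_subgroup_dvd_card _)
      exact (Nat.not_even_iff_odd.mpr hodd) (even_iff_two_dvd.mpr h3)
    have hVodd : Odd (Nat.card V) := Odd.of_dvd_nat hodd (Subgroup.card_subgroup_dvd_card V)
    have hRA : ⁅(P : Subgroup G), V⁆ = (P : Subgroup G) := ((h107b p P V hV).1).symm
    obtain ⟨-, h⟩ := Cfsg.Agent.S1448.result p hp2 (P : Subgroup G) V P.isPGroup' hP1 hr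
      hV.2.1 hVp hVodd hRA
    rcases h with h | ⟨R₁, R₂, h1, h2, h3, h4, h5, h6, h7⟩
    · exact Or.inl h
    · refine Or.inr ⟨R₁, R₂, h1, h2, h3, h4, h5, h6, ?_⟩
      rw [h7]
      exact commutator_eq_inf_centralizer_of_card_cube R₁ h4 h3

end Cfsg.Agent.H71.BG10
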