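import Mathlib
import Cfsg.Agent.H34.ThDefs

/-!
# Piece TH-HOLO (helper71, for helper34): the theta series is holomorphic on the upper half
plane
-/

set_option autoImplicit false

namespace Cfsg.Agent.H71.Th

open Real Cfsg.Agent.H34.Th

theorem term_re {ι : Type} (Q : ι → ℤ) (z : ℂ) (x : ι) :
    ((π : ℂ) * Complex.I * z * (Q x : ℂ)).re = -π * z.im * (Q x : ℝ) := by
  simp [Complex.mul_re, Complex.mul_im]

theorem holo : StHolo := by
  intro ι Q hQ hS z₀ hz₀
  have hz₀' : 0 < z₀.im := hz₀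
  obtain ⟨ε, hε⟩ : ∃ ε : ℝ, ε = z₀.im / 2 := ⟨_, rfl⟩
  have hε0 : 0 < ε := by rw [hε]; linarith
  have hopen : IsOpen {z : ℂ | ε < z.im} := isOpen_lt continuous_const Complex.continuous_im
  have hmem : z₀ ∈ {z : ℂ | ε < z.im} := by
    show ε < z₀.im
    rw [hε]; linarith
  have hd : DifferentiableOn ℂ
      (fun z : ℂ => ∑' x : ι, Complex.exp (π * Complex.I * z * (Q x : ℂ)))
      {z : ℂ | ε < z.im} := by
    refine Complex.differentiableOn_tsum_of_summable_norm (u := fun x => Real.exp (-π * ε * (Q x : ℝ)))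
      (hS ε hε0) (fun x => ?_) hopen (fun x w hw => ?_)
    · have : Differentiable ℂ (fun z : ℂ => Complex.exp (π * Complex.I * z * (Q x : ℂ))) := by
        fun_prop
      exact this.differentiableOn
    · have hw' : ε < w.im := hw
      rw [Complex.norm_exp, term_re, Real.exp_le_exp]
      have h1 : (0 : ℝ) ≤ (Q x : ℝ) := by exact_mod_cast hQ x
      have h2 : ε * (Q x : ℝ) ≤ w.im * (Q x : ℝ) := mul_le_mul_of_nonneg_right hw'.le h1
      have h3 := mul_le_mul_of_nonneg_left h2 Real.pi_pos.le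
      linarith
  have hat : DifferentiableAt ℂ (thetaC Q) z₀ :=
    (hd z₀ hmem).differentiableAt (hopen.mem_nhds hmem)
  exact hat.differentiableWithinAt

end Cfsg.Agent.H71.Th
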