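import Mathlib
import Cfsg.Agent.H34.ThDefs

/-!
# Piece TH-SINV (helper71, for helper34): the inversion formula `θ(-1/z) = z ^ 12 θ(z)` on the
upper half plane, from the formula on the imaginary axis, by the identity theorem
-/

set_option autoImplicit false

namespace Cfsg.Agent.H71.Th

open Real Cfsg.Agent.H34.Th Topology

/-- the theta series on the imaginary axis -/
theorem thetaC_I_mul {ι : Type} (Q : ι → ℤ) (t : ℝ) :
    thetaC Q (Complex.I * (t : ℂ)) = ((∑' x : ι, Real.exp (-π * t * (Q x : ℝ)) : ℝ) : ℂ) := by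
  rw [Complex.ofReal_tsum]
  unfold thetaC
  refine tsum_congr fun x => ?_
  rw [Complex.ofReal_exp]
  congr 1
  push_cast
  linear_combination ((π : ℂ) * t * (Q x : ℂ)) * Complex.I_mul_I

theorem sInv : StSInv := by
  intro ι Q _ _ hR hd z hz
  have hopen : IsOpen {z : ℂ | 0 < z.im} := isOpen_lt continuous_const Complex.continuous_im
  have hpre : IsPreconnected {z : ℂ | 0 < z.im} := (convex_halfSpace_im_gt 0).isPreconnected
  have hne : ∀ w ∈ {z : ℂ | 0 < z.im}, w ≠ 0 := by
    intro w hw h0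
    have hw' : 0 < w.im := hw
    rw [h0] at hw'
    simp at hw'
  have hmaps : Set.MapsTo (fun w : ℂ => -1 / w) {z : ℂ | 0 < z.im} {z : ℂ | 0 < z.im} := by
    intro w hw
    have hw' : 0 < w.im := hw
    show 0 < (-1 / w).im
    have h1 : (-1 / w).im = w.im / Complex.normSq w := by
      simp [Complex.div_im]
      ring
    rw [h1]
    exact div_pos hw' (Complex.normSq_pos.mpr (hne w hw))
  have hinv : DifferentiableOn ℂ (fun w : ℂ => -1 / w) {z : ℂ | 0 < z.im} :=
    DifferentiableOn.div (differentiableOn_const _) differentiableOn_id hne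
  have hf : AnalyticOnNhd ℂ (fun w : ℂ => thetaC Q (-1 / w)) {z : ℂ | 0 < z.im} :=
    (hd.comp hinv hmaps).analyticOnNhd hopen
  have hg : AnalyticOnNhd ℂ (fun w : ℂ => w ^ 12 * thetaC Q w) {z : ℂ | 0 < z.im} :=
    ((differentiableOn_id.pow 12).mul hd).analyticOnNhd hopen
  have hI12 : Complex.I ^ 12 = 1 := by
    rw [show (12 : ℕ) = 4 * 3 from rfl, pow_mul, Complex.I_pow_four, one_pow]
  -- equality on the imaginary axis
  have haxis : ∀ t : ℝ, 0 < t → thetaC Q (-1 / (Complex.I * (t : ℂ))) =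
      (Complex.I * (t : ℂ)) ^ 12 * thetaC Q (Complex.I * (t : ℂ)) := by
    intro t ht
    have htc : (t : ℂ) ≠ 0 := Complex.ofReal_ne_zero.mpr ht.ne'
    have h1 : -1 / (Complex.I * (t : ℂ)) = Complex.I * ((t⁻¹ : ℝ) : ℂ) := by
      rw [div_eq_iff (mul_ne_zero Complex.I_ne_zero htc)]
      push_cast
      field_simp
      linear_combination -Complex.I_mul_I
    rw [h1, thetaC_I_mul, thetaC_I_mul, mul_pow, hI12, one_mul]
    have h2 : (fun x : ι => Real.exp (-π * t⁻¹ * (Q x : ℝ))) =
        fun x : ι => Real.exp (-π * (Q x : ℝ) / t) := by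
      funext x
      congr 1
      field_simp
    rw [h2, hR t ht]
    push_cast
    ring
  have hfreq : ∃ᶠ w in 𝓝[≠] Complex.I, (fun w : ℂ => thetaC Q (-1 / w)) w =
      (fun w : ℂ => w ^ 12 * thetaC Q w) w := by
    rw [Filter.frequently_iff]
    intro U hU
    obtain ⟨ε, hε, hball⟩ := Metric.mem_nhdsWithin_iff.mp hU
    refine ⟨Complex.I * ((1 + ε / 2 : ℝ) : ℂ), hball ⟨?_, ?_⟩, ?_⟩
    · rw [Metric.mem_ball, Complex.dist_eq]
      have h1 : Complex.I * ((1 + ε / 2 : ℝ) : ℂ) - Complex.I = Complex.I * ((ε / 2 : ℝ) : ℂ) := by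
        push_cast
        ring
      rw [h1, norm_mul, Complex.norm_I, one_mul, Complex.norm_real, Real.norm_eq_abs,
        abs_of_pos (by linarith)]
      linarith
    · intro h
      have h1 : Complex.I * ((1 + ε / 2 : ℝ) : ℂ) = Complex.I * ((1 : ℝ) : ℂ) := by
        rw [h]
        simp
      have h2 := mul_left_cancel₀ Complex.I_ne_zero h1
      have h3 : (1 + ε / 2 : ℝ) = 1 := by exact_mod_cast h2
      linarith
    · exact haxis (1 + ε / 2) (by linarith)
  have hIm : Complex.I ∈ {z : ℂ | 0 < z.im} := by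
    show 0 < Complex.I.im
    simp
  exact hf.eqOn_of_preconnected_of_frequently_eq hg hpre hIm hfreq hz

end Cfsg.Agent.H71.Th
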