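import Mathlib
import Cfsg.Agent.H51.RsDefs

/-!
# RS-PAIRGEN (helper71, for helper51's S2113 project)

The trace / character-sum lemma: over a field `K` with `3^N` elements, every biadditive pairing
with commuting values that is invariant under `(x, y) ↦ (κ^a x, κ^b y)` vanishes, as soon as
`3^N - 1` divides none of the `a * 3^i + b * 3^j` (`i, j < N`).
-/

set_option autoImplicit false

namespace Cfsg.Agent.H71.Rs

open Cfsg.Agent.H96.Ro Cfsg.Agent.H51.Rs

universe u w

/-- the character sum: `∑_κ Tr(κ^a u) Tr(κ^b v) = 0` in `𝔽₃`. -/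
theorem pg_trace_sum (K : Type u) [Field K] [Fintype K] [DecidableEq K] [Algebra (ZMod 3) K]
    (N : ℕ)
    (hN : Fintype.card K = 3 ^ N) (a b : ℕ)
    (hab : ∀ i < N, ∀ j < N, ¬ (3 ^ N - 1) ∣ a * 3 ^ i + b * 3 ^ j) (u v : K) :
    ∑ κ : Kˣ, Algebra.trace (ZMod 3) K ((κ : K) ^ a * u) *
      Algebra.trace (ZMod 3) K ((κ : K) ^ b * v) = 0 := by
  have hfr : Module.finrank (ZMod 3) K = N := by
    have h1 := Module.card_eq_pow_finrank (K := ZMod 3) (V := K)
    rw [ZMod.card, hN] at h1
    exact (Nat.pow_right_injective (by norm_num : 2 ≤ 3) h1).symm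
  apply (algebraMap (ZMod 3) K).injective
  rw [map_sum, map_zero]
  have key : ∀ κ : Kˣ, algebraMap (ZMod 3) K (Algebra.trace (ZMod 3) K ((κ : K) ^ a * u) *
      Algebra.trace (ZMod 3) K ((κ : K) ^ b * v)) =
      ∑ i ∈ Finset.range N, ∑ j ∈ Finset.range N,
        (u ^ (3 ^ i) * v ^ (3 ^ j)) * (κ : K) ^ (a * 3 ^ i + b * 3 ^ j) := by
    intro κ
    rw [map_mul, FiniteField.algebraMap_trace_eq_sum_pow, FiniteField.algebraMap_trace_eq_sum_pow,
      hfr, Finset.sum_mul_sum]
    have h3 : Nat.card (ZMod 3) = 3 := by simp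
    rw [h3]
    refine Finset.sum_congr rfl fun i _ => Finset.sum_congr rfl fun j _ => ?_
    ring
  simp only [key]
  rw [Finset.sum_comm]
  refine Finset.sum_eq_zero fun i hi => ?_
  rw [Finset.sum_comm]
  refine Finset.sum_eq_zero fun j hj => ?_
  rw [← Finset.mul_sum, FiniteField.sum_pow_units, hN,
    if_neg (hab i (Finset.mem_range.mp hi) j (Finset.mem_range.mp hj)), mul_zero]

/-- additive version of the statement -/
theorem pg_core (K : Type u) [Field K] [Fintype K] (N : ℕ) (hN : Fintype.card K = 3 ^ N)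
    (a b : ℕ) (hab : ∀ i < N, ∀ j < N, ¬ (3 ^ N - 1) ∣ a * 3 ^ i + b * 3 ^ j)
    (V : Type w) [AddCommGroup V] (W : K → K → V)
    (hl : ∀ x x' y, W (x + x') y = W x y + W x' y)
    (hr : ∀ x y y', W x (y + y') = W x y + W x y')
    (hinv : ∀ κ : K, κ ≠ 0 → ∀ x y, W (κ ^ a * x) (κ ^ b * y) = W x y) :
    ∀ x y, W x y = 0 := by
  classical
  have hN0 : N ≠ 0 := by
    rintro rfl
    have : 1 < Fintype.card K := Fintype.one_lt_card
    rw [hN] at this
    simp at this
  have hchar : CharP K 3 := by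
    obtain ⟨p, hp⟩ := CharP.exists K
    have := hp
    have : Fact p.Prime := ⟨CharP.char_is_prime K p⟩
    have h1 : p ∣ Fintype.card K := by
      have := (CharP.cast_eq_zero_iff K p (Fintype.card K)).mp (by simp)
      exact this
    rw [hN] at h1
    have h2 : p ∣ 3 := (Fact.out : p.Prime).dvd_of_dvd_pow h1
    have h3 : p = 3 := (Nat.prime_dvd_prime_iff_eq Fact.out (by norm_num)).mp h2
    rw [← h3]; exact hp
  let _ : Algebra (ZMod 3) K := ZMod.algebra K 3
  -- additive maps
  let Wl : K → K →+ V := fun y =>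
    { toFun := fun x => W x y
      map_zero' := by
        have := hl 0 0 y
        rw [add_zero] at this
        exact (add_eq_left.mp this.symm)
      map_add' := fun x x' => hl x x' y }
  let Wr : K → K →+ V := fun x =>
    { toFun := fun y => W x y
      map_zero' := by
        have := hr x 0 0
        rw [add_zero] at this
        exact (add_eq_left.mp this.symm)
      map_add' := fun y y' => hr x y y' }
  have h3 : ∀ x y, 3 • W x y = 0 := by
    intro x y
    have h1 : (3 : ℕ) • x = 0 := by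
      rw [nsmul_eq_mul]
      have : ((3 : ℕ) : K) = 0 := CharP.cast_eq_zero K 3
      rw [this, zero_mul]
    have h2 : Wl y ((3 : ℕ) • x) = 3 • Wl y x := map_nsmul (Wl y) 3 x
    rw [h1, map_zero] at h2
    exact h2.symm
  -- the trace-dual basis
  let bs := Module.finBasis (ZMod 3) K
  let d := (Algebra.traceForm (ZMod 3) K).dualBasis (traceForm_nondegenerate (ZMod 3) K) bs
  let c : K → Fin (Module.finrank (ZMod 3) K) → ℕ :=
    fun x i => (Algebra.trace (ZMod 3) K (x * bs i)).val
  have hx : ∀ x : K, x = ∑ i, c x i • d i := by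
    intro x
    conv_lhs => rw [← d.sum_repr x]
    refine Finset.sum_congr rfl fun i _ => ?_
    have h1 : d.repr x i = Algebra.trace (ZMod 3) K (x * bs i) := by
      rw [LinearMap.BilinForm.dualBasis_repr_apply, Algebra.traceForm_apply]
    rw [h1]
    have h2 : (Algebra.trace (ZMod 3) K (x * bs i)) = ((c x i : ℕ) : ZMod 3) := by
      simp only [c]
      rw [ZMod.natCast_zmod_val]
    rw [h2, Nat.cast_smul_eq_nsmul]
  have hform : ∀ x y, W x y = ∑ i, ∑ j, (c x i * c y j) • W (d i) (d j) := by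
    intro x y
    have e1 : W x y = Wl y (∑ i, c x i • d i) := by
      rw [← hx x]; rfl
    rw [e1, map_sum]
    refine Finset.sum_congr rfl fun i _ => ?_
    rw [map_nsmul]
    have e2 : Wl y (d i) = Wr (d i) (∑ j, c y j • d j) := by
      rw [← hx y]; rfl
    rw [e2, map_sum, Finset.smul_sum]
    refine Finset.sum_congr rfl fun j _ => ?_
    rw [map_nsmul, mul_smul]
    rfl
  intro x y
  -- the sum over the units
  have hsum : ∑ κ : Kˣ, W ((κ : K) ^ a * x) ((κ : K) ^ b * y) = (3 ^ N - 1) • W x y := by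
    rw [Finset.sum_congr rfl (fun (κ : Kˣ) _ => hinv (κ : K) (Units.ne_zero κ) x y),
      Finset.sum_const,
      Finset.card_univ, Fintype.card_units, hN]
  have hzero : ∑ κ : Kˣ, W ((κ : K) ^ a * x) ((κ : K) ^ b * y) = 0 := by
    rw [Finset.sum_congr rfl (fun (κ : Kˣ) _ => hform ((κ : K) ^ a * x) ((κ : K) ^ b * y))]
    rw [Finset.sum_comm]
    refine Finset.sum_eq_zero fun i _ => ?_
    rw [Finset.sum_comm]
    refine Finset.sum_eq_zero fun j _ => ?_
    rw [← Finset.sum_smul]
    have hdvd : 3 ∣ ∑ κ : Kˣ, c ((κ : K) ^ a * x) i * c ((κ : K) ^ b * y) j := by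
      rw [← ZMod.natCast_eq_zero_iff]
      push_cast
      simp only [c, ZMod.natCast_zmod_val]
      have := pg_trace_sum K N hN a b hab (x * bs i) (y * bs j)
      simpa only [mul_assoc] using this
    obtain ⟨k, hk⟩ := hdvd
    rw [hk, mul_comm, mul_smul, h3, smul_zero]
  rw [hsum] at hzero
  -- `3 ^ N - 1` is prime to `3`
  have hcop : Nat.Coprime (3 ^ N - 1) 3 := by
    have h1 : 1 ≤ 3 ^ N := Nat.one_le_pow _ _ (by norm_num)
    have h2 : 3 ∣ 3 ^ N := dvd_pow_self 3 hN0
    rw [Nat.coprime_comm, Nat.Prime.coprime_iff_not_dvd (by norm_num)]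
    intro h
    have : 3 ∣ 1 := by
      have h4 : 3 ∣ 3 ^ N - (3 ^ N - 1) := Nat.dvd_sub h2 h
      have h5 : 3 ^ N - (3 ^ N - 1) = 1 := by omega
      rwa [h5] at h4
    omega
  have ho1 : addOrderOf (W x y) ∣ 3 ^ N - 1 := addOrderOf_dvd_of_nsmul_eq_zero hzero
  have ho2 : addOrderOf (W x y) ∣ 3 := addOrderOf_dvd_of_nsmul_eq_zero (h3 x y)
  have ho3 : addOrderOf (W x y) = 1 := Nat.eq_one_of_dvd_coprimes hcop ho1 ho2
  exact AddMonoid.addOrderOf_eq_one_iff.mp ho3

/-- **RS-PAIRGEN**. -/
theorem pairGen : StPairGen.{u, w} := by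
  intro K _ _ N hN a b hab Γ _ ω hcomm hl hr hinv x y
  classical
  let S : Set Γ := Set.range fun p : K × K => ω p.1 p.2
  have hS : ∀ g ∈ S, ∀ g' ∈ S, g * g' = g' * g := by
    rintro _ ⟨p, rfl⟩ _ ⟨p', rfl⟩
    exact hcomm _ _ _ _
  have hmc : IsMulCommutative (Subgroup.closure S) := Subgroup.isMulCommutative_closure hS
  let _ : CommGroup (Subgroup.closure S) :=
    { (inferInstance : Group (Subgroup.closure S)) with
      mul_comm := fun g g' => hmc.is_comm.comm g g' }
  let W : K → K → Additive (Subgroup.closure S) := fun x y =>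
    Additive.ofMul ⟨ω x y, Subgroup.subset_closure ⟨(x, y), rfl⟩⟩
  have hW := pg_core K N hN a b hab (Additive (Subgroup.closure S)) W
    (fun x x' y => by
      simp only [W]
      rw [← ofMul_mul]
      congr 1
      exact Subtype.ext (hl x x' y))
    (fun x y y' => by
      simp only [W]
      rw [← ofMul_mul]
      congr 1
      exact Subtype.ext (hr x y y'))
    (fun κ hκ x y => by
      simp only [W]
      congr 1
      exact Subtype.ext (hinv κ hκ x y))
    x y
  have h1 : (⟨ω x y, Subgroup.subset_closure ⟨(x, y), rfl⟩⟩ : Subgroup.closure S) = 1 := by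
    have : Additive.toMul (W x y) = 1 := by rw [hW]; rfl
    exact this
  exact congrArg Subtype.val h1

example : Cfsg.Agent.H51.Rs.StPairGen.{u, w} := pairGen

end Cfsg.Agent.H71.Rs
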