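import Mathlib
import Cfsg.Agent.H63.OrdFour

/-!
# S4302-PROD: an independent family of normalised copies of `SL(2,2)` generates a power of `S₃`
-/

set_option autoImplicit false

namespace Cfsg.Agent.H71.Fz

theorem sl2_two_card : Nat.card (Matrix.SpecialLinearGroup (Fin 2) (ZMod 2)) = 6 := by
  rw [Nat.card_eq_fintype_card]
  decide

theorem sl2_two_noncomm :
    ¬ ∀ x y : Matrix.SpecialLinearGroup (Fin 2) (ZMod 2), x * y = y * x := by
  intro h
  have := h ⟨!![1,1;0,1], by decide⟩ ⟨!![1,0;1,1], by decide⟩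
  revert this
  decide

/-- `SL(2,2)` is the symmetric group of degree three. -/
theorem sl2_two_equiv_perm :
    Nonempty (Matrix.SpecialLinearGroup (Fin 2) (ZMod 2) ≃* Equiv.Perm (Fin 3)) :=
  Cfsg.Agent.H63.OrdFour.equiv_perm_six sl2_two_card sl2_two_noncomm

/-- Subgroups of an independent family, each normalised by their join, commute elementwise. -/
theorem commute_of_indep_of_normalizer {G : Type*} [Group G] {ι : Type*}
    (H : Subgroup G) (E : ι → Subgroup G)
    (hind : iSupIndep E) (hsup : ⨆ i, E i = H)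
    (hnorm : ∀ i, H ≤ Subgroup.normalizer (E i : Set G)) :
    Pairwise fun i j : ι => ∀ x y : G, x ∈ E i → y ∈ E j → Commute x y := by
  have hle : ∀ i, E i ≤ H := fun i => hsup ▸ le_iSup E i
  intro i j hij x y hx hy
  have hdisj : Disjoint (E i) (E j) := hind.pairwiseDisjoint hij
  have h1 : x * y * x⁻¹ * y⁻¹ ∈ E i := by
    have hyN := hnorm i (hle j hy)
    have h : y * x⁻¹ * y⁻¹ ∈ E i := (Subgroup.mem_normalizer_iff.mp hyN x⁻¹).mp (inv_mem hx)
    have h' := mul_mem hx h
    simpa [mul_assoc] using h'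
  have h2 : x * y * x⁻¹ * y⁻¹ ∈ E j := by
    have hxN := hnorm j (hle i hx)
    have h : x * y * x⁻¹ ∈ E j := (Subgroup.mem_normalizer_iff.mp hxN y).mp hy
    exact mul_mem h (inv_mem hy)
  have h3 : x * y * x⁻¹ * y⁻¹ = 1 := Subgroup.disjoint_def.mp hdisj h1 h2
  show x * y = y * x
  calc x * y = (x * y * x⁻¹ * y⁻¹) * (y * x) := by group
    _ = y * x := by rw [h3, one_mul]

/-- The join of a finite independent family of subgroups, each normalised by the join, is
the direct product of the family. -/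
theorem nonempty_pi_equiv_of_indep {G : Type*} [Group G] {ι : Type*} [Finite ι]
    (H : Subgroup G) (E : ι → Subgroup G)
    (hind : iSupIndep E) (hsup : ⨆ i, E i = H)
    (hnorm : ∀ i, H ≤ Subgroup.normalizer (E i : Set G)) :
    Nonempty ((∀ i, ↥(E i)) ≃* ↥H) := by
  classical
  have : Fintype ι := Fintype.ofFinite ι
  have hcomm := commute_of_indep_of_normalizer H E hind hsup hnorm
  have hinj : Function.Injective (Subgroup.noncommPiCoprod hcomm) :=
    Subgroup.injective_noncommPiCoprod_of_iSupIndep hind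
  have hrange : (Subgroup.noncommPiCoprod hcomm).range = H := by
    rw [Subgroup.noncommPiCoprod_range, hsup]
  exact ⟨(MonoidHom.ofInjective hinj).trans (MulEquiv.subgroupCongr hrange)⟩

theorem prod_s3 {G : Type*} [Group G] [Finite G] {ι : Type*} [Finite ι] [Nonempty ι]
    (H : Subgroup G) (E : ι → Subgroup G)
    (hind : iSupIndep E) (hsup : ⨆ i, E i = H)
    (hnorm : ∀ i, H ≤ Subgroup.normalizer (E i : Set G))
    (hiso : ∀ i, Nonempty (↥(E i) ≃* Matrix.SpecialLinearGroup (Fin 2) (ZMod 2))) :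
    ∃ n : ℕ, 1 ≤ n ∧ Nonempty (↥H ≃* (Fin n → Equiv.Perm (Fin 3))) := by
  classical
  have : Fintype ι := Fintype.ofFinite ι
  obtain ⟨σ⟩ := sl2_two_equiv_perm
  obtain ⟨e⟩ := nonempty_pi_equiv_of_indep H E hind hsup hnorm
  let e3 : (∀ i, E i) ≃* (ι → Equiv.Perm (Fin 3)) :=
    MulEquiv.piCongrRight (fun i => (Classical.choice (hiso i)).trans σ)
  let e4 : (ι → Equiv.Perm (Fin 3)) ≃* (Fin (Fintype.card ι) → Equiv.Perm (Fin 3)) :=
    MulEquiv.arrowCongr (Fintype.equivFin ι) (MulEquiv.refl _)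
  exact ⟨Fintype.card ι, Fintype.card_pos, ⟨e.symm.trans (e3.trans e4)⟩⟩

end Cfsg.Agent.H71.Fz
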