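import Mathlib
import Cfsg.Agent.H84.DihDefs

/-!
# S4482-CENT, part FUS (helper84's team project): centralizers of powers of `σ` and fusion

`P = ⟨σ, τ⟩` dihedral Sylow `2`-subgroup, `J = σ ^ (2 ^ (n - 2))` its central involution,
`X` a normal `2`-complement of `C(J)`.
* `cent_le`: `C(σ ^ l) ≤ C(J)` for `0 < l < 2 ^ (n - 1)`;
* `fusion`: `σ ^ l` and `σ ^ l'` are conjugate only if `l' = l` or `l' + l = 2 ^ (n - 1)`.
-/

set_option autoImplicit false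

namespace Cfsg.Agent.H71.DihC

open Cfsg.Agent.H84.Dih

universe u

variable {G : Type u} [Group G] [Finite G] {n : ℕ} {P : Sylow 2 G} {σ τ : G} {X : Subgroup G}

omit [Finite G] in
/-- `J ^ 2 = 1`. -/
theorem J_sq (h : Hyp n P σ τ) : (σ ^ (2 ^ (n - 2))) ^ 2 = 1 := by
  have hn := h.hn
  rw [← pow_mul, ← pow_succ]
  have : n - 2 + 1 = n - 1 := by omega
  rw [this, ← h.hσo]
  exact pow_orderOf_eq_one σ

omit [Finite G] in
/-- `J` is a power of `σ ^ (2 ^ a * b)` for `b` odd and `a ≤ n - 2`. -/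
theorem pow_eq_J (h : Hyp n P σ τ) (a b : ℕ) (hb : Odd b) (ha : a ≤ n - 2) :
    (σ ^ (2 ^ a * b)) ^ (2 ^ (n - 2 - a)) = σ ^ (2 ^ (n - 2)) := by
  obtain ⟨c, rfl⟩ := hb
  have e : 2 ^ a * (2 * c + 1) * 2 ^ (n - 2 - a) = 2 ^ (n - 2) * 2 * c + 2 ^ (n - 2) := by
    have : 2 ^ a * 2 ^ (n - 2 - a) = 2 ^ (n - 2) := by
      rw [← pow_add]
      congr 1
      omega
    calc 2 ^ a * (2 * c + 1) * 2 ^ (n - 2 - a)
        = (2 ^ a * 2 ^ (n - 2 - a)) * (2 * c + 1) := by ring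
      _ = 2 ^ (n - 2) * (2 * c + 1) := by rw [this]
      _ = 2 ^ (n - 2) * 2 * c + 2 ^ (n - 2) := by ring
  rw [← pow_mul, e, pow_add, pow_mul, pow_mul, J_sq h, one_pow, one_mul]

omit [Finite G] in
/-- Decomposition of an exponent `0 < l < 2 ^ (n - 1)`. -/
theorem exists_decomp (l : ℕ) (hl : 0 < l) (hlm : l < 2 ^ (n - 1)) :
    ∃ a b : ℕ, Odd b ∧ a ≤ n - 2 ∧ 1 ≤ n - 1 ∧ l = 2 ^ a * b := by
  obtain ⟨a, b, hb, rfl⟩ := Nat.exists_eq_two_pow_mul_odd (Nat.pos_iff_ne_zero.mp hl)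
  have hbpos : 0 < b := hb.pos
  have h1 : 2 ^ a < 2 ^ (n - 1) := lt_of_le_of_lt (Nat.le_mul_of_pos_right _ hbpos) hlm
  have h2 : a < n - 1 := (Nat.pow_lt_pow_iff_right (by norm_num)).mp h1
  exact ⟨a, b, hb, by omega, by omega, rfl⟩

/-- **S4482-CENT** (`cent_le`). -/
theorem cent_le (h : Hyp n P σ τ) (l : ℕ) (hl : 0 < l) (hlm : l < 2 ^ (n - 1)) :
    Subgroup.centralizer ({σ ^ l} : Set G) ≤ Subgroup.centralizer ({σ ^ (2 ^ (n - 2))} : Set G) := by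
  obtain ⟨a, b, hb, ha, -, rfl⟩ := exists_decomp l hl hlm
  intro c hc
  rw [Subgroup.mem_centralizer_iff] at hc ⊢
  intro x hx
  rw [Set.mem_singleton_iff] at hx
  subst hx
  have h1 : Commute (σ ^ (2 ^ a * b)) c := hc _ rfl
  rw [← pow_eq_J h a b hb ha]
  exact (h1.pow_left _).eq

omit [Finite G] in
/-- `P ≤ C(J)`. -/
theorem P_le' (h : Hyp n P σ τ) :
    (P : Subgroup G) ≤ Subgroup.centralizer ({σ ^ (2 ^ (n - 2))} : Set G) := by
  rw [← h.hgen, Subgroup.closure_le]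
  intro g hg
  rw [SetLike.mem_coe, Subgroup.mem_centralizer_iff]
  intro x hx
  rw [Set.mem_singleton_iff] at hx
  subst hx
  rcases hg with rfl | hg
  · exact ((Commute.refl g).pow_left _).eq
  · rw [Set.mem_singleton_iff] at hg
    subst hg
    -- `g J g⁻¹ = J⁻¹ = J`
    have h1 : g * σ ^ (2 ^ (n - 2)) * g⁻¹ = (σ ^ (2 ^ (n - 2)))⁻¹ := by
      rw [← conj_pow, h.hrel, inv_pow]
    have h2 : (σ ^ (2 ^ (n - 2)))⁻¹ = σ ^ (2 ^ (n - 2)) := by
      rw [inv_eq_iff_mul_eq_one, ← pow_two]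
      exact J_sq h
    rw [h2] at h1
    calc σ ^ (2 ^ (n - 2)) * g = (g * σ ^ (2 ^ (n - 2)) * g⁻¹) * g := by rw [h1]
      _ = g * σ ^ (2 ^ (n - 2)) := by group

omit [Finite G] in
/-- Every element of `P` centralizes or inverts `σ`. -/
theorem conj_σ (h : Hyp n P σ τ) (p : G) (hp : p ∈ (P : Subgroup G)) :
    p * σ * p⁻¹ = σ ∨ p * σ * p⁻¹ = σ⁻¹ := by
  rw [← h.hgen] at hp
  induction hp using Subgroup.closure_induction with
  | mem x hx =>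
    rcases hx with rfl | hx
    · left; group
    · rw [Set.mem_singleton_iff] at hx
      subst hx
      exact Or.inr h.hrel
  | one => left; group
  | mul x y _ _ ihx ihy =>
    have e : x * y * σ * (x * y)⁻¹ = x * (y * σ * y⁻¹) * x⁻¹ := by group
    rw [e]
    rcases ihy with hy | hy <;> rcases ihx with hx | hx
    · left; rw [hy, hx]
    · right; rw [hy, hx]
    · right
      rw [hy]
      have : x * σ⁻¹ * x⁻¹ = (x * σ * x⁻¹)⁻¹ := by group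
      rw [this, hx]
    · left
      rw [hy]
      have : x * σ⁻¹ * x⁻¹ = (x * σ * x⁻¹)⁻¹ := by group
      rw [this, hx, inv_inv]
  | inv x _ ihx =>
    rcases ihx with hx | hx
    · left
      calc x⁻¹ * σ * x⁻¹⁻¹ = x⁻¹ * (x * σ * x⁻¹) * x := by rw [hx, inv_inv]
        _ = σ := by group
    · right
      have h1 : x * σ⁻¹ * x⁻¹ = σ := by
        have : x * σ⁻¹ * x⁻¹ = (x * σ * x⁻¹)⁻¹ := by group
        rw [this, hx, inv_inv]
      calc x⁻¹ * σ * x⁻¹⁻¹ = x⁻¹ * (x * σ⁻¹ * x⁻¹) * x := by rw [h1, inv_inv]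
        _ = σ⁻¹ := by group

/-- `X ⊓ P = ⊥`. -/
theorem X_inf_P (hX : Core n P σ X) (x : G) (hxX : x ∈ X) (hxP : x ∈ (P : Subgroup G)) :
    x = 1 := by
  obtain ⟨k, hk⟩ := P.isPGroup' ⟨x, hxP⟩
  have hk' : x ^ 2 ^ k = 1 := by
    have := congrArg Subtype.val hk
    simpa using this
  have h1 : orderOf x ∣ 2 ^ k := orderOf_dvd_of_pow_eq_one hk'
  have h2 : orderOf x ∣ Nat.card X := by
    have := orderOf_dvd_natCard (⟨x, hxX⟩ : X)
    rwa [Subgroup.orderOf_mk] at this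
  have h3 : Odd (orderOf x) := Odd.of_dvd_nat hX.odd h2
  have h4 : (orderOf x).Coprime (2 ^ k) := Nat.Coprime.pow_right k h3.coprime_two_right
  have h5 : orderOf x = 1 := Nat.Coprime.eq_one_of_dvd h4 h1
  exact orderOf_eq_one_iff.mp h5

/-- **S4482-CENT** (`fusion`). -/
theorem fusion (h : Hyp n P σ τ) (hX : Core n P σ X) (l l' : ℕ) (hl : 0 < l)
    (hlm : l < 2 ^ (n - 1)) (hl' : 0 < l') (hlm' : l' < 2 ^ (n - 1))
    (hc : IsConj (σ ^ l) (σ ^ l')) : l' = l ∨ l' + l = 2 ^ (n - 1) := by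
  obtain ⟨c, hc⟩ := isConj_iff.mp hc
  have hcinv : c⁻¹ * σ ^ l' * c⁻¹⁻¹ = σ ^ l := by
    rw [← hc]; group
  -- the `2`-adic valuations of `l` and `l'` agree
  have hval : ∀ (l l' : ℕ) (c : G), c * σ ^ l * c⁻¹ = σ ^ l' → ∀ a b a' b' : ℕ, Odd b → Odd b' →
      a ≤ n - 2 → a' ≤ n - 2 → l = 2 ^ a * b → l' = 2 ^ a' * b' → a ≤ a' := by
    intro l l' c hc a b a' b' hb hb' ha ha' hlab hlab'
    have hn := h.hn
    have h1 : (σ ^ l) ^ (2 ^ (n - 1 - a)) = 1 := by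
      rw [hlab, ← pow_mul]
      have e : 2 ^ a * b * 2 ^ (n - 1 - a) = 2 ^ (n - 1) * b := by
        have : 2 ^ a * 2 ^ (n - 1 - a) = 2 ^ (n - 1) := by
          rw [← pow_add]
          congr 1
          omega
        calc 2 ^ a * b * 2 ^ (n - 1 - a) = (2 ^ a * 2 ^ (n - 1 - a)) * b := by ring
          _ = 2 ^ (n - 1) * b := by rw [this]
      rw [e, pow_mul, ← h.hσo, pow_orderOf_eq_one, one_pow]
    have h2 : (σ ^ l') ^ (2 ^ (n - 1 - a)) = 1 := by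
      rw [← hc, conj_pow, h1]; group
    rw [← pow_mul] at h2
    have h3 : 2 ^ (n - 1) ∣ l' * 2 ^ (n - 1 - a) := by
      rw [← h.hσo]
      exact orderOf_dvd_of_pow_eq_one h2
    rw [hlab'] at h3
    have e2 : 2 ^ a' * b' * 2 ^ (n - 1 - a) = 2 ^ (a' + (n - 1 - a)) * b' := by
      rw [pow_add]; ring
    rw [e2] at h3
    have hcop : (2 ^ (n - 1)).Coprime b' := Nat.Coprime.pow_left _ hb'.coprime_two_left
    have h4 : 2 ^ (n - 1) ∣ 2 ^ (a' + (n - 1 - a)) := hcop.dvd_of_dvd_mul_right h3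
    have h5 : n - 1 ≤ a' + (n - 1 - a) := (Nat.pow_dvd_pow_iff_le_right (by norm_num)).mp h4
    omega
  obtain ⟨a, b, hb, ha, -, hlab⟩ := exists_decomp l hl hlm
  obtain ⟨a', b', hb', ha', -, hlab'⟩ := exists_decomp l' hl' hlm'
  have haa : a = a' :=
    le_antisymm (hval l l' c hc a b a' b' hb hb' ha ha' hlab hlab')
      (hval l' l c⁻¹ hcinv a' b' a b hb' hb ha' ha hlab' hlab)
  -- `c` centralizes `J`
  have hcJ : c * σ ^ (2 ^ (n - 2)) * c⁻¹ = σ ^ (2 ^ (n - 2)) := by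
    have h1 := pow_eq_J h a b hb ha
    have h2 := pow_eq_J h a' b' hb' ha'
    rw [← hlab] at h1
    rw [← hlab', ← haa] at h2
    calc c * σ ^ (2 ^ (n - 2)) * c⁻¹ = c * (σ ^ l) ^ (2 ^ (n - 2 - a)) * c⁻¹ := by rw [h1]
      _ = (c * σ ^ l * c⁻¹) ^ (2 ^ (n - 2 - a)) := (conj_pow).symm
      _ = σ ^ (2 ^ (n - 2)) := by rw [hc, h2]
  have hcmem : c ∈ Subgroup.centralizer ({σ ^ (2 ^ (n - 2))} : Set G) := by
    rw [Subgroup.mem_centralizer_iff]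
    intro x hx
    rw [Set.mem_singleton_iff] at hx
    subst hx
    calc σ ^ (2 ^ (n - 2)) * c = (c * σ ^ (2 ^ (n - 2)) * c⁻¹) * c := by rw [hcJ]
      _ = c * σ ^ (2 ^ (n - 2)) := by group
  obtain ⟨x, hx, p, hp, rfl⟩ := hX.mul c hcmem
  -- `q := p σ^l p⁻¹` and `q' := σ^l'` are elements of `P` conjugate under `x ∈ X`
  have hqP : p * σ ^ l * p⁻¹ ∈ (P : Subgroup G) :=
    mul_mem (mul_mem hp (pow_mem h.hσ l)) (inv_mem hp)
  have hq'P : σ ^ l' ∈ (P : Subgroup G) := pow_mem h.hσ l'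
  have hxq : x * (p * σ ^ l * p⁻¹) * x⁻¹ = σ ^ l' := by
    rw [← hc]; group
  have hmemX : σ ^ l' * (p * σ ^ l * p⁻¹)⁻¹ ∈ X := by
    have h1 : (p * σ ^ l * p⁻¹) * x⁻¹ * (p * σ ^ l * p⁻¹)⁻¹ ∈ X :=
      hX.norm _ (P_le' h hqP) _ (inv_mem hx)
    have h2 : σ ^ l' * (p * σ ^ l * p⁻¹)⁻¹ =
        x * ((p * σ ^ l * p⁻¹) * x⁻¹ * (p * σ ^ l * p⁻¹)⁻¹) := by
      rw [← hxq]; group
    rw [h2]
    exact mul_mem hx h1
  have hmemP : σ ^ l' * (p * σ ^ l * p⁻¹)⁻¹ ∈ (P : Subgroup G) := mul_mem hq'P (inv_mem hqP)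
  have heq : σ ^ l' = p * σ ^ l * p⁻¹ := by
    have := X_inf_P hX _ hmemX hmemP
    exact mul_inv_eq_one.mp this
  have hconj : p * σ ^ l * p⁻¹ = (p * σ * p⁻¹) ^ l := (conj_pow).symm
  rw [hconj] at heq
  rcases conj_σ h p hp with h1 | h1
  · left
    rw [h1] at heq
    have hinj := pow_injOn_Iio_orderOf (x := σ)
    rw [h.hσo] at hinj
    exact hinj (Set.mem_Iio.mpr hlm') (Set.mem_Iio.mpr hlm) heq
  · right
    rw [h1, inv_pow] at heq
    have h2 : σ ^ (l' + l) = 1 := by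
      rw [pow_add, heq, inv_mul_cancel]
    have h3 : 2 ^ (n - 1) ∣ l' + l := by
      rw [← h.hσo]
      exact orderOf_dvd_of_pow_eq_one h2
    exact Nat.eq_of_dvd_of_lt_two_mul (by omega) h3 (by omega)

end Cfsg.Agent.H71.DihC
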