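import Mathlib
import Cfsg.Agent.H84.DihDefs
import Cfsg.Agent.H71.DihFUS

/-!
# S4482-QIOTA (helper84's team project): involutions in cosets of `X`

`P = ⟨σ, τ⟩` dihedral Sylow `2`-subgroup, `J = σ ^ (2 ^ (n - 2))`, `H = C(J) = X P` with `X` a
normal `2`-complement of `H`.
* `iota0`: for an involution `w ∈ H`, the involutions of the coset `w X` are the `X`-conjugates of
  `w`; there are `|X| / |X ⊓ C(w)|` of them;
* `iota_J_τ`, `iota_J_στ`, `iota_σ_τ`, `iota_σ_στ`: the four counts of the project.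
-/

set_option autoImplicit false

namespace Cfsg.Agent.H71.DihC

open Cfsg.Agent.H84.Dih

universe u

variable {G : Type u} [Group G] [Finite G] {n : ℕ} {P : Sylow 2 G} {σ τ : G} {X : Subgroup G}

omit [Finite G] in
/-- Conjugation preserves the order. -/
theorem orderOf_conj_eq (a x : G) : orderOf (a * x * a⁻¹) = orderOf x :=
  (SemiconjBy.orderOf_eq a (x := x) (y := a * x * a⁻¹) (by unfold SemiconjBy; group)).symm

omit [Finite G] in
/-- An element inverting `σ` whose square is trivial is an involution. -/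
theorem orderOf_eq_two_of_inverts (h : Hyp n P σ τ) (u : G) (hu : u * σ * u⁻¹ = σ⁻¹)
    (hu2 : u * u = 1) : orderOf u = 2 := by
  have : Fact (Nat.Prime 2) := ⟨Nat.prime_two⟩
  refine orderOf_eq_prime (by rw [pow_two]; exact hu2) ?_
  rintro rfl
  have h1 : σ = σ⁻¹ := by simpa using hu
  have h2 : σ ^ 2 = 1 := by
    rw [pow_two]
    nth_rewrite 2 [h1]
    exact mul_inv_cancel σ
  have h3 : orderOf σ ∣ 2 := orderOf_dvd_of_pow_eq_one h2
  rw [h.hσo] at h3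
  have h4 : 2 ^ (n - 1) ≤ 2 := Nat.le_of_dvd (by norm_num) h3
  have hn := h.hn
  have h5 : 2 ^ 2 ≤ 2 ^ (n - 1) := Nat.pow_le_pow_right (by norm_num) (by omega)
  omega

omit [Finite G] in
/-- `τ * τ = 1`. -/
theorem τ_mul_self (h : Hyp n P σ τ) : τ * τ = 1 := by
  rw [← pow_two, ← h.hτo]
  exact pow_orderOf_eq_one τ

omit [Finite G] in
/-- `τ⁻¹ = τ`. -/
theorem τ_inv (h : Hyp n P σ τ) : τ⁻¹ = τ := inv_eq_of_mul_eq_one_left (τ_mul_self h)

omit [Finite G] in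
/-- `τ * σ⁻¹ = σ * τ`. -/
theorem τ_mul_σ_inv (h : Hyp n P σ τ) : τ * σ⁻¹ = σ * τ := by
  have h1 : τ * σ⁻¹ * τ⁻¹ = σ := by
    have : τ * σ⁻¹ * τ⁻¹ = (τ * σ * τ⁻¹)⁻¹ := by group
    rw [this, h.hrel, inv_inv]
  calc τ * σ⁻¹ = (τ * σ⁻¹ * τ⁻¹) * τ := by group
    _ = σ * τ := by rw [h1]

omit [Finite G] in
/-- The pair `(σ, σ * τ)` satisfies the same hypotheses as `(σ, τ)`. -/
theorem hyp_mul (h : Hyp n P σ τ) : Hyp n P σ (σ * τ) := by
  have hrel' : σ * τ * σ * (σ * τ)⁻¹ = σ⁻¹ := by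
    have : σ * τ * σ * (σ * τ)⁻¹ = σ * (τ * σ * τ⁻¹) * σ⁻¹ := by group
    rw [this, h.hrel]
    group
  have hsq : σ * τ * (σ * τ) = 1 := by
    have : σ * τ * (σ * τ) = σ * (τ * σ * τ⁻¹) * (τ * τ) := by group
    rw [this, h.hrel, τ_mul_self h]
    group
  refine ⟨h.hn, h.hσ, mul_mem h.hσ h.hτ, h.hσo, orderOf_eq_two_of_inverts h _ hrel' hsq, hrel', ?_⟩
  rw [← h.hgen]
  apply le_antisymm
  · rw [Subgroup.closure_le]
    intro g hg
    rcases hg with rfl | hg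
    · exact Subgroup.subset_closure (Set.mem_insert _ _)
    · rw [Set.mem_singleton_iff] at hg
      subst hg
      exact mul_mem (Subgroup.subset_closure (Set.mem_insert _ _))
        (Subgroup.subset_closure (Set.mem_insert_of_mem _ rfl))
  · rw [Subgroup.closure_le]
    intro g hg
    rcases hg with rfl | hg
    · exact Subgroup.subset_closure (Set.mem_insert _ _)
    · rw [Set.mem_singleton_iff] at hg
      subst hg
      have hmem : σ⁻¹ * (σ * g) ∈ Subgroup.closure ({σ, σ * g} : Set G) :=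
        mul_mem (inv_mem (Subgroup.subset_closure (Set.mem_insert _ _)))
          (Subgroup.subset_closure (Set.mem_insert_of_mem _ rfl))
      have e : σ⁻¹ * (σ * g) = g := by group
      rwa [e] at hmem

omit [Finite G] in
/-- **IOTA0**: for an involution `w ∈ C(J)`, the involutions of the coset `w X` are the
`X`-conjugates of `w`. -/
theorem iota0 (hX : Core n P σ X) (w : G)
    (hw : w ∈ Subgroup.centralizer ({σ ^ (2 ^ (n - 2))} : Set G)) (hwo : orderOf w = 2) :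
    Nat.card {v : G // orderOf v = 2 ∧ ∃ ρ ∈ X, v = w * ρ} *
      Nat.card ↥(X ⊓ Subgroup.centralizer ({w} : Set G)) = Nat.card X := by
  have hw2 : w * w = 1 := by
    rw [← pow_two, ← hwo]
    exact pow_orderOf_eq_one w
  have hwinv : w⁻¹ = w := inv_eq_of_mul_eq_one_left hw2
  -- the conjugation map
  let f : ↥X → {v : G // orderOf v = 2 ∧ ∃ ρ ∈ X, v = w * ρ} := fun y =>
    ⟨(y : G) * w * (y : G)⁻¹, by rw [orderOf_conj_eq]; exact hwo,
      w⁻¹ * (y : G) * w⁻¹⁻¹ * (y : G)⁻¹,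
      mul_mem (hX.norm _ (inv_mem hw) _ y.2) (inv_mem y.2), by group⟩
  have hfval : ∀ y : ↥X, ((f y : {v : G // orderOf v = 2 ∧ ∃ ρ ∈ X, v = w * ρ}) : G) =
      (y : G) * w * (y : G)⁻¹ := fun y => rfl
  -- surjectivity
  have hsurj : Function.Surjective f := by
    rintro ⟨v, hv, ρ, hρ, rfl⟩
    have hv2 : w * ρ * (w * ρ) = 1 := by
      rw [← pow_two, ← hv]
      exact pow_orderOf_eq_one _
    have hinv : w * ρ * w⁻¹ = ρ⁻¹ := by
      rw [hwinv]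
      have : w * ρ * w = (w * ρ * (w * ρ)) * ρ⁻¹ := by group
      rw [this, hv2, one_mul]
    have hodd : Odd (orderOf ρ) := by
      have h2 : orderOf ρ ∣ Nat.card X := by
        have := orderOf_dvd_natCard (⟨ρ, hρ⟩ : X)
        rwa [Subgroup.orderOf_mk] at this
      exact Odd.of_dvd_nat hX.odd h2
    obtain ⟨k, hk⟩ := hodd
    have hzz : ρ ^ (k + 1) * ρ ^ (k + 1) = ρ := by
      rw [← pow_add]
      have : k + 1 + (k + 1) = orderOf ρ + 1 := by omega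
      rw [this, pow_succ, pow_orderOf_eq_one, one_mul]
    have hz : w * ρ ^ (k + 1) * w⁻¹ = (ρ ^ (k + 1))⁻¹ := by
      rw [← conj_pow, hinv, inv_pow]
    have h1 : (ρ ^ (k + 1))⁻¹ * w = w * ρ ^ (k + 1) := by
      rw [← hz]; group
    refine ⟨⟨(ρ ^ (k + 1))⁻¹, inv_mem (pow_mem hρ _)⟩, ?_⟩
    apply Subtype.ext
    rw [hfval]
    show (ρ ^ (k + 1))⁻¹ * w * (ρ ^ (k + 1))⁻¹⁻¹ = w * ρ
    rw [inv_inv, h1, mul_assoc, hzz]
  -- fibres
  have hfib1 : ∀ (y : ↥X) (c : G) (hc : c ∈ X), c ∈ Subgroup.centralizer ({w} : Set G) →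
      f ⟨(y : G) * c, mul_mem y.2 hc⟩ = f y := by
    intro y c hc hcw
    apply Subtype.ext
    rw [hfval, hfval]
    show (y : G) * c * w * ((y : G) * c)⁻¹ = (y : G) * w * (y : G)⁻¹
    have h1 : w * c = c * w := Subgroup.mem_centralizer_iff.mp hcw w rfl
    have h2 : c * w * c⁻¹ = w := by rw [← h1]; group
    calc (y : G) * c * w * ((y : G) * c)⁻¹ = (y : G) * (c * w * c⁻¹) * (y : G)⁻¹ := by group
      _ = (y : G) * w * (y : G)⁻¹ := by rw [h2]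
  have hfib2 : ∀ y y' : ↥X, f y = f y' →
      (y' : G)⁻¹ * (y : G) ∈ Subgroup.centralizer ({w} : Set G) := by
    intro y y' hyy
    have h1 : (y : G) * w * (y : G)⁻¹ = (y' : G) * w * (y' : G)⁻¹ := by
      rw [← hfval, ← hfval, hyy]
    rw [Subgroup.mem_centralizer_iff]
    intro x hx
    rw [Set.mem_singleton_iff] at hx
    subst hx
    calc x * ((y' : G)⁻¹ * (y : G)) = (y' : G)⁻¹ * ((y' : G) * x * (y' : G)⁻¹) * (y : G) := by group
      _ = (y' : G)⁻¹ * ((y : G) * x * (y : G)⁻¹) * (y : G) := by rw [h1]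
      _ = (y' : G)⁻¹ * (y : G) * x := by group
  -- the bijection `T × (X ⊓ C(w)) → X`
  let s : {v : G // orderOf v = 2 ∧ ∃ ρ ∈ X, v = w * ρ} → ↥X := Function.surjInv hsurj
  have hs : ∀ b, f (s b) = b := Function.surjInv_eq hsurj
  let F : {v : G // orderOf v = 2 ∧ ∃ ρ ∈ X, v = w * ρ} ×
      ↥(X ⊓ Subgroup.centralizer ({w} : Set G)) → ↥X := fun q =>
    ⟨(s q.1 : G) * (q.2 : G), mul_mem (s q.1).2 (Subgroup.mem_inf.mp q.2.2).1⟩
  have hF : ∀ q, f (F q) = q.1 := by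
    intro q
    have := hfib1 (s q.1) (q.2 : G) (Subgroup.mem_inf.mp q.2.2).1 (Subgroup.mem_inf.mp q.2.2).2
    rw [hs] at this
    exact this
  have hFbij : Function.Bijective F := by
    constructor
    · rintro ⟨b, c⟩ ⟨b', c'⟩ hq
      have hb : b = b' := by
        have h1 := hF (b, c)
        have h2 := hF (b', c')
        rw [hq] at h1
        exact h1.symm.trans h2
      subst hb
      have h3 : (s b : G) * (c : G) = (s b : G) * (c' : G) := congrArg Subtype.val hq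
      have h4 : (c : G) = (c' : G) := mul_left_cancel h3
      rw [Prod.mk.injEq]
      exact ⟨rfl, Subtype.ext h4⟩
    · intro y
      have hmem : ((s (f y) : ↥X) : G)⁻¹ * (y : G) ∈ X ⊓ Subgroup.centralizer ({w} : Set G) :=
        Subgroup.mem_inf.mpr ⟨mul_mem (inv_mem (s (f y)).2) y.2, hfib2 y (s (f y)) (hs (f y)).symm⟩
      refine ⟨(f y, ⟨_, hmem⟩), ?_⟩
      apply Subtype.ext
      show ((s (f y) : ↥X) : G) * (((s (f y) : ↥X) : G)⁻¹ * (y : G)) = (y : G)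
      group
  rw [← Nat.card_prod]
  exact Nat.card_congr (Equiv.ofBijective F hFbij)

omit [Finite G] in
/-- Transport of the count along conjugation by `g`. -/
theorem iota_transport (hX : Core n P σ X) (g a π w : G)
    (hg : g ∈ Subgroup.centralizer ({σ ^ (2 ^ (n - 2))} : Set G))
    (hw : ∃ ρ₀ ∈ X, a⁻¹ * (g⁻¹ * π * g) = w * ρ₀) :
    Nat.card {v : G // orderOf v = 2 ∧ ∃ ρ ∈ X, g * a * g⁻¹ * v = π * ρ} =
      Nat.card {v : G // orderOf v = 2 ∧ ∃ ρ ∈ X, v = w * ρ} := by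
  obtain ⟨ρ₀, hρ₀, h₀⟩ := hw
  refine Nat.card_congr (Equiv.subtypeEquiv (MulAut.conj g⁻¹).toEquiv ?_)
  intro v
  have hconj : (MulAut.conj g⁻¹).toEquiv v = g⁻¹ * v * g := by
    simp
  rw [hconj]
  have hord : orderOf (g⁻¹ * v * g) = orderOf v := by
    have := orderOf_conj_eq g⁻¹ v
    rwa [inv_inv] at this
  rw [hord]
  refine and_congr_right fun _ => ?_
  constructor
  · rintro ⟨ρ, hρ, e⟩
    refine ⟨ρ₀ * (g⁻¹ * ρ * g⁻¹⁻¹), mul_mem hρ₀ (hX.norm _ (inv_mem hg) _ hρ), ?_⟩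
    symm
    calc w * (ρ₀ * (g⁻¹ * ρ * g⁻¹⁻¹)) = (w * ρ₀) * (g⁻¹ * ρ * g) := by group
      _ = a⁻¹ * (g⁻¹ * π * g) * (g⁻¹ * ρ * g) := by rw [h₀]
      _ = a⁻¹ * g⁻¹ * (π * ρ) * g := by group
      _ = a⁻¹ * g⁻¹ * (g * a * g⁻¹ * v) * g := by rw [e]
      _ = g⁻¹ * v * g := by group
  · rintro ⟨ρ', hρ', e'⟩
    refine ⟨g * (ρ₀⁻¹ * ρ') * g⁻¹, hX.norm _ hg _ (mul_mem (inv_mem hρ₀) hρ'), ?_⟩
    have hv : v = g * (w * ρ') * g⁻¹ := by rw [← e']; group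
    have hw' : w = a⁻¹ * (g⁻¹ * π * g) * ρ₀⁻¹ := by rw [h₀]; group
    calc g * a * g⁻¹ * v = g * a * g⁻¹ * (g * (w * ρ') * g⁻¹) := by rw [← hv]
      _ = g * a * w * ρ' * g⁻¹ := by group
      _ = g * a * (a⁻¹ * (g⁻¹ * π * g) * ρ₀⁻¹) * ρ' * g⁻¹ := by rw [← hw']
      _ = π * (g * (ρ₀⁻¹ * ρ') * g⁻¹) := by group

omit [Finite G] in
/-- Conjugate elements (under `C(J)`) have centralizers in `X` of the same size. -/
theorem card_inf_cent_conj (hX : Core n P σ X) (s u : G)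
    (hs : s ∈ Subgroup.centralizer ({σ ^ (2 ^ (n - 2))} : Set G)) :
    Nat.card ↥(X ⊓ Subgroup.centralizer ({s * u * s⁻¹} : Set G)) =
      Nat.card ↥(X ⊓ Subgroup.centralizer ({u} : Set G)) := by
  have key : ∀ (s u : G), s ∈ Subgroup.centralizer ({σ ^ (2 ^ (n - 2))} : Set G) →
      ∀ x ∈ X ⊓ Subgroup.centralizer ({u} : Set G),
        s * x * s⁻¹ ∈ X ⊓ Subgroup.centralizer ({s * u * s⁻¹} : Set G) := by
    intro s u hs x hx
    obtain ⟨hx1, hx2⟩ := Subgroup.mem_inf.mp hx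
    refine Subgroup.mem_inf.mpr ⟨hX.norm _ hs _ hx1, ?_⟩
    rw [Subgroup.mem_centralizer_iff]
    intro y hy
    rw [Set.mem_singleton_iff] at hy
    subst hy
    have h1 : u * x = x * u := Subgroup.mem_centralizer_iff.mp hx2 u rfl
    calc s * u * s⁻¹ * (s * x * s⁻¹) = s * (u * x) * s⁻¹ := by group
      _ = s * (x * u) * s⁻¹ := by rw [h1]
      _ = s * x * s⁻¹ * (s * u * s⁻¹) := by group
  symm
  refine Nat.card_congr
    { toFun := fun x => ⟨s * (x : G) * s⁻¹, key s u hs _ x.2⟩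
      invFun := fun y => ⟨s⁻¹ * (y : G) * s, ?_⟩
      left_inv := fun x => Subtype.ext (by show s⁻¹ * (s * (x : G) * s⁻¹) * s = (x : G); group)
      right_inv := fun y => Subtype.ext (by show s * (s⁻¹ * (y : G) * s) * s⁻¹ = (y : G); group) }
  have h1 := key s⁻¹ (s * u * s⁻¹) (inv_mem hs) _ y.2
  have h2 : s⁻¹ * (s * u * s⁻¹) * s⁻¹⁻¹ = u := by group
  rw [h2, inv_inv] at h1
  exact h1

omit [Finite G] in
/-- A conjugate of `σ` under `C(J)` lies in `σ X` or `σ⁻¹ X`. -/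
theorem conj_σ_mod (h : Hyp n P σ τ) (hX : Core n P σ X) (g : G)
    (hg : g ∈ Subgroup.centralizer ({σ ^ (2 ^ (n - 2))} : Set G)) :
    (∃ ρ₀ ∈ X, g⁻¹ * σ * g = σ * ρ₀) ∨ (∃ ρ₀ ∈ X, g⁻¹ * σ * g = σ⁻¹ * ρ₀) := by
  obtain ⟨x, hx, p, hp, rfl⟩ := hX.mul g hg
  have hσH : σ ∈ Subgroup.centralizer ({σ ^ (2 ^ (n - 2))} : Set G) := P_le' h h.hσ
  have hpH : p ∈ Subgroup.centralizer ({σ ^ (2 ^ (n - 2))} : Set G) := P_le' h hp
  have hρ : p⁻¹ * ((σ⁻¹ * x⁻¹ * σ⁻¹⁻¹) * x) * p⁻¹⁻¹ ∈ X :=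
    hX.norm _ (inv_mem hpH) _ (mul_mem (hX.norm _ (inv_mem hσH) _ (inv_mem hx)) hx)
  have e : (x * p)⁻¹ * σ * (x * p) =
      (p⁻¹ * σ * p⁻¹⁻¹) * (p⁻¹ * ((σ⁻¹ * x⁻¹ * σ⁻¹⁻¹) * x) * p⁻¹⁻¹) := by group
  rcases conj_σ h p⁻¹ (inv_mem hp) with h1 | h1
  · left
    exact ⟨_, hρ, by rw [e, h1]⟩
  · right
    exact ⟨_, hρ, by rw [e, h1]⟩

omit [Finite G] in
/-- `g⁻¹ J g = J` for `g ∈ C(J)`. -/
theorem conj_J (g : G) (hg : g ∈ Subgroup.centralizer ({σ ^ (2 ^ (n - 2))} : Set G)) :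
    g⁻¹ * σ ^ (2 ^ (n - 2)) * g = σ ^ (2 ^ (n - 2)) := by
  have h1 : σ ^ (2 ^ (n - 2)) * g = g * σ ^ (2 ^ (n - 2)) :=
    Subgroup.mem_centralizer_iff.mp hg _ rfl
  rw [mul_assoc, h1]
  group

/-- **S4482-QIOTA** (`iota_J_τ`). -/
theorem iota_J_τ (h : Hyp n P σ τ) (hX : Core n P σ X) (g : G)
    (hg : g ∈ Subgroup.centralizer ({σ ^ (2 ^ (n - 2))} : Set G)) :
    Nat.card {v : G // orderOf v = 2 ∧ ∃ ρ ∈ X, g * τ * g⁻¹ * v = σ ^ (2 ^ (n - 2)) * ρ} *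
      Nat.card ↥(X ⊓ Subgroup.centralizer ({τ} : Set G)) = Nat.card X := by
  have hτH : τ ∈ Subgroup.centralizer ({σ ^ (2 ^ (n - 2))} : Set G) := P_le' h h.hτ
  have hJH : σ ^ (2 ^ (n - 2)) ∈ Subgroup.centralizer ({σ ^ (2 ^ (n - 2))} : Set G) :=
    P_le' h (pow_mem h.hσ _)
  have hJτ : σ ^ (2 ^ (n - 2)) * τ = τ * σ ^ (2 ^ (n - 2)) :=
    Subgroup.mem_centralizer_iff.mp hτH _ rfl
  have hJJ : σ ^ (2 ^ (n - 2)) * σ ^ (2 ^ (n - 2)) = 1 := by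
    rw [← pow_two]
    exact J_sq h
  -- `w = τ * J` is an involution of `C(J)`
  have hwH : τ * σ ^ (2 ^ (n - 2)) ∈ Subgroup.centralizer ({σ ^ (2 ^ (n - 2))} : Set G) :=
    mul_mem hτH hJH
  have hwo : orderOf (τ * σ ^ (2 ^ (n - 2))) = 2 := by
    apply orderOf_eq_two_of_inverts h
    · have hc : σ ^ (2 ^ (n - 2)) * σ * (σ ^ (2 ^ (n - 2)))⁻¹ = σ := by
        have : σ ^ (2 ^ (n - 2)) * σ = σ * σ ^ (2 ^ (n - 2)) :=
          ((Commute.refl σ).pow_left _).eq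
        rw [this]
        group
      calc τ * σ ^ (2 ^ (n - 2)) * σ * (τ * σ ^ (2 ^ (n - 2)))⁻¹
          = τ * (σ ^ (2 ^ (n - 2)) * σ * (σ ^ (2 ^ (n - 2)))⁻¹) * τ⁻¹ := by group
        _ = σ⁻¹ := by rw [hc, h.hrel]
    · calc τ * σ ^ (2 ^ (n - 2)) * (τ * σ ^ (2 ^ (n - 2)))
          = τ * (σ ^ (2 ^ (n - 2)) * τ) * σ ^ (2 ^ (n - 2)) := by group
        _ = τ * (τ * σ ^ (2 ^ (n - 2))) * σ ^ (2 ^ (n - 2)) := by rw [hJτ]
        _ = (τ * τ) * (σ ^ (2 ^ (n - 2)) * σ ^ (2 ^ (n - 2))) := by group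
        _ = 1 := by rw [τ_mul_self h, hJJ, one_mul]
  have htr := iota_transport hX g τ (σ ^ (2 ^ (n - 2))) (τ * σ ^ (2 ^ (n - 2))) hg
    ⟨1, one_mem _, by rw [conj_J g hg, τ_inv h, mul_one]⟩
  have h0 := iota0 hX (τ * σ ^ (2 ^ (n - 2))) hwH hwo
  -- `X ⊓ C(τ J) = X ⊓ C(τ)`
  have hcent : X ⊓ Subgroup.centralizer ({τ * σ ^ (2 ^ (n - 2))} : Set G) =
      X ⊓ Subgroup.centralizer ({τ} : Set G) := by
    ext x
    rw [Subgroup.mem_inf, Subgroup.mem_inf]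
    refine and_congr_right fun hx => ?_
    have hxJ : σ ^ (2 ^ (n - 2)) * x = x * σ ^ (2 ^ (n - 2)) :=
      Subgroup.mem_centralizer_iff.mp (hX.le hx) _ rfl
    rw [Subgroup.mem_centralizer_iff, Subgroup.mem_centralizer_iff]
    constructor
    · intro hc y hy
      rw [Set.mem_singleton_iff] at hy
      rw [hy]
      have h1 : τ * σ ^ (2 ^ (n - 2)) * x = x * (τ * σ ^ (2 ^ (n - 2))) := hc _ rfl
      have h2 : τ * x * σ ^ (2 ^ (n - 2)) = x * τ * σ ^ (2 ^ (n - 2)) := by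
        calc τ * x * σ ^ (2 ^ (n - 2)) = τ * (x * σ ^ (2 ^ (n - 2))) := by group
          _ = τ * (σ ^ (2 ^ (n - 2)) * x) := by rw [hxJ]
          _ = τ * σ ^ (2 ^ (n - 2)) * x := by group
          _ = x * (τ * σ ^ (2 ^ (n - 2))) := h1
          _ = x * τ * σ ^ (2 ^ (n - 2)) := by group
      exact mul_right_cancel h2
    · intro hc y hy
      rw [Set.mem_singleton_iff] at hy
      rw [hy]
      have h1 : τ * x = x * τ := hc _ rfl
      calc τ * σ ^ (2 ^ (n - 2)) * x = τ * (σ ^ (2 ^ (n - 2)) * x) := by group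
        _ = τ * (x * σ ^ (2 ^ (n - 2))) := by rw [hxJ]
        _ = (τ * x) * σ ^ (2 ^ (n - 2)) := by group
        _ = (x * τ) * σ ^ (2 ^ (n - 2)) := by rw [h1]
        _ = x * (τ * σ ^ (2 ^ (n - 2))) := by group
  rw [htr, ← hcent]
  exact h0

/-- **S4482-QIOTA** (`iota_J_στ`). -/
theorem iota_J_στ (h : Hyp n P σ τ) (hX : Core n P σ X) (g : G)
    (hg : g ∈ Subgroup.centralizer ({σ ^ (2 ^ (n - 2))} : Set G)) :
    Nat.card {v : G // orderOf v = 2 ∧ ∃ ρ ∈ X, g * (σ * τ) * g⁻¹ * v = σ ^ (2 ^ (n - 2)) * ρ} *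
      Nat.card ↥(X ⊓ Subgroup.centralizer ({σ * τ} : Set G)) = Nat.card X :=
  iota_J_τ (hyp_mul h) hX g hg

/-- **S4482-QIOTA** (`iota_σ_τ`). -/
theorem iota_σ_τ (h : Hyp n P σ τ) (hX : Core n P σ X) (g : G)
    (hg : g ∈ Subgroup.centralizer ({σ ^ (2 ^ (n - 2))} : Set G)) :
    Nat.card {v : G // orderOf v = 2 ∧ ∃ ρ ∈ X, g * τ * g⁻¹ * v = σ * ρ} *
      Nat.card ↥(X ⊓ Subgroup.centralizer ({σ * τ} : Set G)) = Nat.card X := by
  have hτH : τ ∈ Subgroup.centralizer ({σ ^ (2 ^ (n - 2))} : Set G) := P_le' h h.hτ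
  have hσH : σ ∈ Subgroup.centralizer ({σ ^ (2 ^ (n - 2))} : Set G) := P_le' h h.hσ
  rcases conj_σ_mod h hX g hg with ⟨ρ₀, hρ₀, e⟩ | ⟨ρ₀, hρ₀, e⟩
  · -- `w = τ * σ`
    have hwo : orderOf (τ * σ) = 2 := by
      apply orderOf_eq_two_of_inverts h
      · calc τ * σ * σ * (τ * σ)⁻¹ = τ * σ * τ⁻¹ := by group
          _ = σ⁻¹ := h.hrel
      · calc τ * σ * (τ * σ) = (τ * σ * τ⁻¹) * (τ * τ) * σ := by group
          _ = 1 := by rw [h.hrel, τ_mul_self h]; group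
    have htr := iota_transport hX g τ σ (τ * σ) hg
      ⟨ρ₀, hρ₀, by rw [e, τ_inv h]; group⟩
    have h0 := iota0 hX (τ * σ) (mul_mem hτH hσH) hwo
    have hc := card_inf_cent_conj hX σ⁻¹ (σ * τ) (inv_mem hσH)
    have e2 : σ⁻¹ * (σ * τ) * σ⁻¹⁻¹ = τ * σ := by group
    rw [e2] at hc
    rw [htr, ← hc]
    exact h0
  · -- `w = σ * τ`
    have htr := iota_transport hX g τ σ (σ * τ) hg
      ⟨ρ₀, hρ₀, by rw [e, τ_inv h, ← τ_mul_σ_inv h]; group⟩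
    have h0 := iota0 hX (σ * τ) (mul_mem hσH hτH) (hyp_mul h).hτo
    rw [htr]
    exact h0

/-- **S4482-QIOTA** (`iota_σ_στ`). -/
theorem iota_σ_στ (h : Hyp n P σ τ) (hX : Core n P σ X) (g : G)
    (hg : g ∈ Subgroup.centralizer ({σ ^ (2 ^ (n - 2))} : Set G)) :
    Nat.card {v : G // orderOf v = 2 ∧ ∃ ρ ∈ X, g * (σ * τ) * g⁻¹ * v = σ * ρ} *
      Nat.card ↥(X ⊓ Subgroup.centralizer ({τ} : Set G)) = Nat.card X := by
  have hσH : σ ∈ Subgroup.centralizer ({σ ^ (2 ^ (n - 2))} : Set G) := P_le' h h.hσ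
  have h1 := iota_σ_τ (hyp_mul h) hX g hg
  have hc := card_inf_cent_conj hX σ τ hσH
  have e2 : σ * τ * σ⁻¹ = σ * (σ * τ) := by
    rw [mul_assoc, τ_mul_σ_inv h]
  rw [e2] at hc
  rw [← hc]
  exact h1

end Cfsg.Agent.H71.DihC
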