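import Mathlib
import Cfsg.Agent.H88.AltFDefs

/-!
# Piece S5165-ALTGEN (helper71, for helper88): for an odd prime `p ≤ |I|`, every even
permutation of `I` is a product of elements of order `p`

The closure `N` of the elements of order `p` is normal in `Perm I`.  If `c` has order `p` and
`c a ≠ a`, then `c * (τ c τ⁻¹)⁻¹ = swap (c a) (c (c a)) * swap (c a) a` with `τ = swap a (c a)`
is a `3`-cycle in `N`; all `3`-cycles are conjugate and generate the alternating group.
-/

set_option autoImplicit false

namespace Cfsg.Agent.H71.AltF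

open Equiv Cfsg.Agent.H88.AltF

theorem conj_mem_closure_order {I : Type} [Fintype I] [DecidableEq I] (p : ℕ) (g x : Perm I)
    (hx : x ∈ Subgroup.closure {c : Perm I | orderOf c = p}) :
    g * x * g⁻¹ ∈ Subgroup.closure {c : Perm I | orderOf c = p} := by
  induction hx using Subgroup.closure_induction with
  | mem c hc =>
    apply Subgroup.subset_closure
    have h1 : SemiconjBy g c (g * c * g⁻¹) := by
      unfold SemiconjBy
      group
    have h2 : orderOf (g * c * g⁻¹) = p := by
      rw [← h1.orderOf_eq]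
      exact hc
    exact h2
  | one =>
    have h1 : g * 1 * g⁻¹ = 1 := by group
    rw [h1]
    exact Subgroup.one_mem _
  | mul x y _ _ hx hy =>
    have h1 : g * (x * y) * g⁻¹ = (g * x * g⁻¹) * (g * y * g⁻¹) := by group
    rw [h1]
    exact Subgroup.mul_mem _ hx hy
  | inv x _ hx =>
    have h1 : g * x⁻¹ * g⁻¹ = (g * x * g⁻¹)⁻¹ := by group
    rw [h1]
    exact Subgroup.inv_mem _ hx

/-- **S5165-ALTGEN** -/
theorem altGen : StmtAltGen := by
  intro I _ _ p _ hp2 hpI σ hσ
  have hp : p.Prime := Fact.out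
  have hdvd : p ∣ Fintype.card (Perm I) := by
    rw [Fintype.card_perm]
    exact Nat.dvd_factorial hp.pos hpI
  obtain ⟨c, hc⟩ := exists_prime_orderOf_dvd_card p hdvd
  have hc1 : c ≠ 1 := by
    rintro rfl
    rw [orderOf_one] at hc
    exact hp.one_lt.ne hc
  obtain ⟨a, ha⟩ : ∃ a, c a ≠ a := by
    by_contra hall
    push Not at hall
    exact hc1 (Equiv.ext hall)
  have hcp : c ^ p = 1 := by
    rw [← hc]
    exact pow_orderOf_eq_one c
  have ha2 : c (c a) ≠ a := by
    intro h2
    obtain ⟨k, hk⟩ := hp.odd_of_ne_two hp2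
    have h3 : (c ^ 2) a = a := by
      rw [pow_two, Perm.mul_apply]
      exact h2
    have h4 : ((c ^ 2) ^ k) a = a := Equiv.Perm.pow_apply_eq_self_of_apply_eq_self h3 k
    have h5 : (c ^ p) a = c a := by
      rw [hk, pow_succ', pow_mul, Perm.mul_apply, h4]
    rw [hcp, Perm.one_apply] at h5
    exact ha h5.symm
  have ha3 : c (c a) ≠ c a := fun h => ha (c.injective h)
  have hconjord : orderOf (swap a (c a) * c * (swap a (c a))⁻¹) = p := by
    have h1 : SemiconjBy (swap a (c a)) c (swap a (c a) * c * (swap a (c a))⁻¹) := by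
      unfold SemiconjBy
      group
    rw [← h1.orderOf_eq]
    exact hc
  have ht : c * (swap a (c a) * c * (swap a (c a))⁻¹)⁻¹ ∈
      Subgroup.closure {c : Perm I | orderOf c = p} :=
    Subgroup.mul_mem _ (Subgroup.subset_closure hc)
      (Subgroup.inv_mem _ (Subgroup.subset_closure hconjord))
  have hteq : c * (swap a (c a) * c * (swap a (c a))⁻¹)⁻¹ =
      swap (c a) (c (c a)) * swap (c a) a := by
    have h1 : swap (c a) (c (c a)) = c * swap a (c a) * c⁻¹ := Equiv.swap_apply_apply c a (c a)
    have h2 : (swap a (c a))⁻¹ = swap a (c a) := Equiv.swap_inv a (c a)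
    have h3 : c * (swap a (c a) * c * (swap a (c a))⁻¹)⁻¹ =
        (c * swap a (c a) * c⁻¹) * (swap a (c a))⁻¹ := by group
    rw [h3, h2, ← h1, Equiv.swap_comm a (c a)]
  have h3c : Perm.IsThreeCycle (swap (c a) (c (c a)) * swap (c a) a) :=
    Equiv.Perm.isThreeCycle_swap_mul_swap_same (Ne.symm ha3) ha ha2
  have h3 : ∀ s : Perm I, s.IsThreeCycle →
      s ∈ Subgroup.closure {c : Perm I | orderOf c = p} := by
    intro s hs
    have hconj : IsConj (swap (c a) (c (c a)) * swap (c a) a) s := by
      rw [Equiv.Perm.isConj_iff_cycleType_eq]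
      exact h3c.trans hs.symm
    obtain ⟨g, hg⟩ := isConj_iff.mp hconj
    rw [← hg, ← hteq]
    exact conj_mem_closure_order p g _ ht
  have halt : σ ∈ alternatingGroup I := Equiv.Perm.mem_alternatingGroup.mpr hσ
  rw [← Equiv.Perm.closure_three_cycles_eq_alternating] at halt
  exact (Subgroup.closure_le _).mpr (fun s hs => h3 s hs) halt

end Cfsg.Agent.H71.AltF
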