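import Mathlib
import Cfsg.Agent.H88.AltFDefs

/-!
# Piece S5165-DIAGK (helper71, for helper88): the diagonal elements of determinant one lie in
the subgroup generated by the even `p`-elements normalizing the base group
-/

set_option autoImplicit false
set_option linter.unusedSectionVars false

namespace Cfsg.Agent.H71.AltF

open Equiv Cfsg.Agent.H88.AltF

section

variable {I E : Type} [Fintype I] [DecidableEq I] [Fintype E] [DecidableEq E]
  {p : ℕ} [Fact p.Prime]

theorem baseP_conj_fibP (σ : Perm I) (f : I → ZMod p) :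
    baseP E p σ * fibP E f * (baseP E p σ)⁻¹ = fibP E (fun i => f (σ⁻¹ i)) := by
  rw [mul_inv_eq_iff_eq_mul]
  ext (⟨i, x⟩ | e)
  · simp
  · simp

theorem diagP_conj_fibP (a : I → (ZMod p)ˣ) (f : I → ZMod p) :
    diagP E a * fibP E f * (diagP E a)⁻¹ = fibP E (fun i => (a i : ZMod p) * f i) := by
  rw [mul_inv_eq_iff_eq_mul]
  ext (⟨i, x⟩ | e)
  · simp [mul_add]
  · simp

theorem baseP_conj_diagP (σ : Perm I) (a : I → (ZMod p)ˣ) :
    baseP E p σ * diagP E a * (baseP E p σ)⁻¹ = diagP E (fun i => a (σ⁻¹ i)) := by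
  rw [mul_inv_eq_iff_eq_mul]
  ext (⟨i, x⟩ | e)
  · simp
  · simp

theorem diagP_inv (a : I → (ZMod p)ˣ) : diagP E a⁻¹ = (diagP E a)⁻¹ := by
  rw [eq_inv_iff_mul_eq_one, ← diagP_mul, inv_mul_cancel, diagP_one]

theorem mem_normalizer_baseB {g : Perm (Pt I E p)}
    (h1 : ∀ f : I → ZMod p, g * fibP E f * g⁻¹ ∈ baseB I E p)
    (h2 : ∀ f : I → ZMod p, g⁻¹ * fibP E f * g ∈ baseB I E p) :
    g ∈ Subgroup.normalizer ((baseB I E p : Subgroup (Perm (Pt I E p))) :
      Set (Perm (Pt I E p))) := by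
  rw [Subgroup.mem_normalizer_iff]
  intro h
  constructor
  · rintro ⟨f, rfl⟩
    exact h1 f
  · rintro ⟨f, hf⟩
    have h3 := h2 f
    rw [hf] at h3
    have h4 : g⁻¹ * (g * h * g⁻¹) * g = h := by group
    rw [h4] at h3
    exact h3

theorem baseP_mem_normalizer (σ : Perm I) :
    baseP E p σ ∈ Subgroup.normalizer ((baseB I E p : Subgroup (Perm (Pt I E p))) :
      Set (Perm (Pt I E p))) := by
  apply mem_normalizer_baseB
  · intro f
    rw [baseP_conj_fibP]
    exact fibP_mem_baseB E _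
  · intro f
    have h1 := baseP_conj_fibP (E := E) σ⁻¹ f
    rw [baseP_inv, inv_inv] at h1
    rw [h1]
    exact fibP_mem_baseB E _

theorem diagP_mem_normalizer (a : I → (ZMod p)ˣ) :
    diagP E a ∈ Subgroup.normalizer ((baseB I E p : Subgroup (Perm (Pt I E p))) :
      Set (Perm (Pt I E p))) := by
  apply mem_normalizer_baseB
  · intro f
    rw [diagP_conj_fibP]
    exact fibP_mem_baseB E _
  · intro f
    have h1 := diagP_conj_fibP (E := E) a⁻¹ f
    rw [diagP_inv, inv_inv] at h1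
    rw [h1]
    exact fibP_mem_baseB E _

/-- `pGen p B` is normalized by the normalizer of `B` -/
theorem conj_mem_pGen {x y : Perm (Pt I E p)}
    (hx : x ∈ Subgroup.normalizer ((baseB I E p : Subgroup (Perm (Pt I E p))) :
      Set (Perm (Pt I E p))))
    (hy : y ∈ pGen p (baseB I E p)) : x * y * x⁻¹ ∈ pGen p (baseB I E p) := by
  unfold pGen at hy ⊢
  induction hy using Subgroup.closure_induction with
  | mem c hc =>
    apply Subgroup.subset_closure
    obtain ⟨hs, hn, k, hk⟩ := hc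
    refine ⟨?_, Subgroup.mul_mem _ (Subgroup.mul_mem _ hx hn) (Subgroup.inv_mem _ hx), k, ?_⟩
    · rw [Perm.sign_mul, Perm.sign_mul, Perm.sign_inv, hs, mul_one, Int.units_mul_self]
    · have h1 : SemiconjBy x c (x * c * x⁻¹) := by
        unfold SemiconjBy
        group
      rw [← h1.orderOf_eq]
      exact hk
  | one =>
    have h1 : x * 1 * x⁻¹ = 1 := by group
    rw [h1]
    exact Subgroup.one_mem _
  | mul a b _ _ ha hb =>
    have h1 : x * (a * b) * x⁻¹ = (x * a * x⁻¹) * (x * b * x⁻¹) := by group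
    rw [h1]
    exact Subgroup.mul_mem _ ha hb
  | inv a _ ha =>
    have h1 : x * a⁻¹ * x⁻¹ = (x * a * x⁻¹)⁻¹ := by group
    rw [h1]
    exact Subgroup.inv_mem _ ha

variable (E p) in
/-- `baseP` as a monoid homomorphism -/
def baseHom : Perm I →* Perm (Pt I E p) := MonoidHom.mk' (baseP E p) (baseP_mul E)

variable (E) in
/-- `diagP` as a monoid homomorphism -/
def diagHom : (I → (ZMod p)ˣ) →* Perm (Pt I E p) where
  toFun := diagP E
  map_one' := diagP_one E
  map_mul' := diagP_mul E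

theorem baseHom_injective : Function.Injective (baseHom (I := I) E p) := by
  intro σ τ h
  ext i
  have h1 := congrArg (fun g : Perm (Pt I E p) => g (Sum.inl (i, 0))) h
  have h2 : (Sum.inl (σ i, (0 : ZMod p)) : Pt I E p) = Sum.inl (τ i, 0) := h1
  simp only [Sum.inl.injEq, Prod.mk.injEq, and_true] at h2
  rw [h2]

/-- `baseP c` lies in `pGen p B` when `c` has order `p` (`p` odd) -/
theorem baseP_mem_pGen_of_order (hp2 : p ≠ 2) {c : Perm I} (hc : orderOf c = p) :
    baseP E p c ∈ pGen p (baseB I E p) := by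
  have hp : p.Prime := Fact.out
  have hord : orderOf (baseP E p c) = p := by
    have h1 := orderOf_injective (baseHom (I := I) E p) baseHom_injective c
    rw [hc] at h1
    exact h1
  apply Subgroup.subset_closure
  refine ⟨?_, baseP_mem_normalizer c, 1, by rw [pow_one, hord]⟩
  have h1 : (baseP E p c) ^ p = 1 := by
    have h0 := pow_orderOf_eq_one (baseP E p c)
    rw [hord] at h0
    exact h0
  have h2 : Perm.sign (baseP E p c) ^ p = 1 := by
    rw [← map_pow, h1, map_one]
  rcases Int.units_eq_one_or (Perm.sign (baseP E p c)) with h | h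
  · exact h
  · rw [h, Odd.neg_one_pow (α := ℤˣ) (hp.odd_of_ne_two hp2)] at h2
    exact absurd h2 (by decide)

/-- `baseP σ` lies in `pGen p B` for even `σ` -/
theorem baseP_mem_pGen (hA : StmtAltGen) (hp2 : p ≠ 2) (hpI : p ≤ Fintype.card I)
    {σ : Perm I} (hσ : Perm.sign σ = 1) : baseP E p σ ∈ pGen p (baseB I E p) := by
  have h1 := hA I p hp2 hpI σ hσ
  have h2 : Subgroup.closure {c : Perm I | orderOf c = p} ≤
      (pGen p (baseB I E p)).comap (baseHom E p) := by
    rw [Subgroup.closure_le]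
    intro c hc
    exact baseP_mem_pGen_of_order hp2 hc
  exact h2 h1

/-- the basic diagonal elements `t` at `i₁`, `t⁻¹` at `i₂` -/
theorem diagP_pair_mem (hA : StmtAltGen) (hp2 : p ≠ 2) (hpI : p ≤ Fintype.card I)
    {i₁ i₂ : I} (h12 : i₁ ≠ i₂) (t : (ZMod p)ˣ) :
    diagP E (Pi.mulSingle i₁ t * Pi.mulSingle i₂ t⁻¹) ∈ pGen p (baseB I E p) := by
  have hp : p.Prime := Fact.out
  have hp3 : 3 ≤ p := by
    have := hp.two_le
    omega
  obtain ⟨i₃, h31, h32⟩ : ∃ i₃ : I, i₃ ≠ i₁ ∧ i₃ ≠ i₂ := by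
    by_contra hcon
    push Not at hcon
    have h1 : (Finset.univ : Finset I) ⊆ {i₁, i₂} := by
      intro i _
      by_cases h : i = i₁
      · simp [h]
      · simp [hcon i h]
    have h2 := Finset.card_le_card h1
    have h3 : ({i₁, i₂} : Finset I).card ≤ 2 := Finset.card_le_two
    rw [Finset.card_univ] at h2
    omega
  have hσsign : Perm.sign (swap i₁ i₂ * swap i₂ i₃) = 1 := by
    rw [Perm.sign_mul, Perm.sign_swap h12, Perm.sign_swap (Ne.symm h32)]
    decide
  have hσ1 : (swap i₁ i₂ * swap i₂ i₃) i₁ = i₂ := by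
    rw [Perm.mul_apply, swap_apply_of_ne_of_ne h12 (Ne.symm h31), swap_apply_left]
  have hy := baseP_mem_pGen (E := E) hA hp2 hpI hσsign
  have hx := diagP_mem_normalizer (E := E) (Pi.mulSingle i₁ t : I → (ZMod p)ˣ)
  have hmem := Subgroup.mul_mem _ (conj_mem_pGen hx hy) (Subgroup.inv_mem _ hy)
  have heq : diagP E (Pi.mulSingle i₁ t : I → (ZMod p)ˣ) * baseP E p (swap i₁ i₂ * swap i₂ i₃) *
      (diagP E (Pi.mulSingle i₁ t : I → (ZMod p)ˣ))⁻¹ * (baseP E p (swap i₁ i₂ * swap i₂ i₃))⁻¹ =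
      diagP E (Pi.mulSingle i₁ t * Pi.mulSingle i₂ t⁻¹) := by
    have h1 : diagP E (Pi.mulSingle i₁ t : I → (ZMod p)ˣ) *
        baseP E p (swap i₁ i₂ * swap i₂ i₃) *
        (diagP E (Pi.mulSingle i₁ t : I → (ZMod p)ˣ))⁻¹ *
        (baseP E p (swap i₁ i₂ * swap i₂ i₃))⁻¹ =
        diagP E (Pi.mulSingle i₁ t : I → (ZMod p)ˣ) *
        (baseP E p (swap i₁ i₂ * swap i₂ i₃) *
          diagP E (Pi.mulSingle i₁ t : I → (ZMod p)ˣ)⁻¹ *
          (baseP E p (swap i₁ i₂ * swap i₂ i₃))⁻¹) := by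
      rw [diagP_inv]
      group
    rw [h1, baseP_conj_diagP, ← diagP_mul]
    congr 1
    funext i
    rw [Pi.mul_apply, Pi.mul_apply]
    congr 1
    rw [Pi.inv_apply, Pi.mulSingle_apply, Pi.mulSingle_apply]
    by_cases h : i = i₂
    · have h2 : (swap i₁ i₂ * swap i₂ i₃)⁻¹ i = i₁ := by
        rw [Perm.inv_eq_iff_eq, hσ1, h]
      rw [if_pos h2, if_pos h]
    · have h2 : ¬ (swap i₁ i₂ * swap i₂ i₃)⁻¹ i = i₁ := by
        intro h3
        rw [Perm.inv_eq_iff_eq, hσ1] at h3
        exact h h3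
      rw [if_neg h2, if_neg h, inv_one]
  rw [← heq]
  exact hmem

end

/-- **S5165-DIAGK** -/
theorem diagK (hA : StmtAltGen) : StmtDiagK := by
  intro I E _ _ _ _ _ p _ hp2 hpI a ha
  have hp : p.Prime := Fact.out
  have hne : Nonempty I := by
    rw [← Fintype.card_pos_iff]
    have := hp.two_le
    omega
  obtain ⟨i₀⟩ := hne
  have hdecomp : a = ∏ i ∈ Finset.univ.erase i₀,
      (Pi.mulSingle i (a i) * Pi.mulSingle i₀ (a i)⁻¹ : I → (ZMod p)ˣ) := by
    funext k
    rw [Finset.prod_apply]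
    simp only [Pi.mul_apply, Pi.mulSingle_apply]
    rw [Finset.prod_mul_distrib, Finset.prod_ite_eq]
    by_cases hk : k = i₀
    · subst hk
      have h1 : k ∉ Finset.univ.erase k := Finset.notMem_erase k _
      rw [if_neg h1, one_mul]
      simp only [if_true]
      rw [Finset.prod_inv_distrib]
      have h2 : a k * ∏ i ∈ Finset.univ.erase k, a i = 1 := by
        rw [Finset.mul_prod_erase _ _ (Finset.mem_univ k)]
        exact ha
      exact eq_inv_of_mul_eq_one_left h2
    · have h1 : k ∈ Finset.univ.erase i₀ := Finset.mem_erase.mpr ⟨hk, Finset.mem_univ k⟩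
      rw [if_pos h1]
      simp only [if_neg hk]
      rw [Finset.prod_const_one, mul_one]
  have hD : ∀ i ∈ Finset.univ.erase i₀,
      (Pi.mulSingle i (a i) * Pi.mulSingle i₀ (a i)⁻¹ : I → (ZMod p)ˣ) ∈
        (pGen p (baseB I E p)).comap (diagHom E) := by
    intro i hi
    exact diagP_pair_mem hA hp2 hpI (Finset.mem_erase.mp hi).1 (a i)
  have h3 := Subgroup.prod_mem _ hD
  rw [← hdecomp] at h3
  exact h3

end Cfsg.Agent.H71.AltF
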