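import Mathlib
import Cfsg.Agent.H47.BG139Defs
import Cfsg.Agent.H58.BG10Defs2
import Cfsg.Agent.H13.Coprime

/-!
# Piece BG139-DER (helper71, for helper47): `N_G(Q) ∩ M'` centralizes `Q`
-/

set_option autoImplicit false

namespace Cfsg.Agent.H71.BG139

open Cfsg Subgroup Cfsg.Agent.H47.BG139 Cfsg.Agent.H58.BG10

universe u

variable {G : Type u} [Group G]

/-- splitting an element into its `q`-part and `q'`-part -/
theorem exists_q_split [Finite G] (q : ℕ) (hq : q.Prime) (w : G) :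
    ∃ w₁ w₂ : G, w₁ ∈ zpowers w ∧ w₂ ∈ zpowers w ∧ w = w₂ * w₁ ∧
      (∃ j : ℕ, orderOf w₁ = q ^ j) ∧ (orderOf w₂).Coprime q := by
  have hn : orderOf w ≠ 0 := (orderOf_pos w).ne'
  obtain ⟨k, m, hm, hkm⟩ := Nat.exists_eq_pow_mul_and_not_dvd hn q hq.ne_one
  have hcop : Nat.Coprime (q ^ k) m :=
    Nat.Coprime.pow_left k ((Nat.Prime.coprime_iff_not_dvd hq).mpr hm)
  have hbez : ((q ^ k : ℕ) : ℤ) * Nat.gcdA (q ^ k) m + (m : ℤ) * Nat.gcdB (q ^ k) m = 1 := by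
    have := Nat.gcd_eq_gcd_ab (q ^ k) m
    rw [hcop.gcd_eq_one] at this
    exact_mod_cast this.symm
  refine ⟨(w ^ m) ^ Nat.gcdB (q ^ k) m, (w ^ (q ^ k)) ^ Nat.gcdA (q ^ k) m, ?_, ?_, ?_, ?_, ?_⟩
  · exact zpow_mem (pow_mem (mem_zpowers w) _) _
  · exact zpow_mem (pow_mem (mem_zpowers w) _) _
  · rw [← zpow_natCast w m, ← zpow_natCast w (q ^ k), ← zpow_mul, ← zpow_mul, ← zpow_add, hbez,
      zpow_one]
  · have h1 : ((w ^ m) ^ Nat.gcdB (q ^ k) m) ^ (q ^ k) = 1 := by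
      rw [← zpow_natCast, ← zpow_mul, mul_comm, zpow_mul, zpow_natCast, ← pow_mul, mul_comm, ← hkm,
        pow_orderOf_eq_one, one_zpow]
    exact (Nat.dvd_prime_pow hq).mp (orderOf_dvd_of_pow_eq_one h1) |>.imp fun j hj => hj.2
  · have h1 : ((w ^ (q ^ k)) ^ Nat.gcdA (q ^ k) m) ^ m = 1 := by
      rw [← zpow_natCast, ← zpow_mul, mul_comm, zpow_mul, zpow_natCast, ← pow_mul, ← hkm,
        pow_orderOf_eq_one, one_zpow]
    exact Nat.Coprime.coprime_dvd_left (orderOf_dvd_of_pow_eq_one h1)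
      ((Nat.Prime.coprime_iff_not_dvd hq).mpr hm).symm

theorem der [Finite G] (hAbel : StAbel G) (hAlpha : StAlpha G)
    (h1405 : St1405 G) (hSC : StSigComm G) : StDer G := by
  intro M N Q q hcfg w hwD hwM z hz
  obtain ⟨-, hQab⟩ := hAbel M N Q q hcfg
  obtain ⟨hqα, -, -⟩ := hAlpha M N Q q hcfg
  obtain ⟨hHallOf, -, -, -, hnil⟩ := h1405 M hcfg.hM
  have hq : q.Prime := hcfg.hq
  have : Fact q.Prime := ⟨hq⟩
  have hQM : Q ≤ M := le_trans le_normalizer hcfg.hNM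
  obtain ⟨QS, hQS⟩ : ∃ QS : Sylow q G, (QS : Subgroup G) = Q :=
    ⟨hcfg.hQq.toSylow hcfg.hQi, rfl⟩
  have hQcomm : Q.subgroupOf M ≤ commutator M := by
    have h1 := hSC M hcfg.hM q hcfg.hqM (QS.subtype (hQS ▸ hQM))
    rw [Sylow.coe_subtype, hQS] at h1
    exact h1
  -- the order of `z`
  obtain ⟨jz, hjz⟩ : ∃ j : ℕ, orderOf z = q ^ j := by
    obtain ⟨k, hk⟩ := hcfg.hQq ⟨z, hz⟩
    have h1 : z ^ q ^ k = 1 := by
      have := congrArg Subtype.val hk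
      simpa using this
    exact (Nat.dvd_prime_pow hq).mp (orderOf_dvd_of_pow_eq_one h1) |>.imp fun j hj => hj.2
  -- split `w`
  obtain ⟨w₁, w₂, hw₁, hw₂, hw, ⟨j₁, hj₁⟩, hcop⟩ := exists_q_split q hq w
  have hzpD : zpowers w ≤ normalizer (Q : Set G) := (zpowers_le).mpr hwD
  have hzpM : zpowers w ≤ ⁅M, M⁆ := (zpowers_le).mpr hwM
  -- the `q`-part lies in `Q`
  have hw₁Q : w₁ ∈ Q := by
    have hP : IsPGroup q (zpowers w₁) := by
      refine IsPGroup.of_card (n := j₁) ?_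
      rw [Nat.card_zpowers, hj₁]
    have h1 := hP.inf_normalizer_sylow QS
    have h3 : w₁ ∈ normalizer ((QS : Subgroup G) : Set G) := by
      rw [hQS]
      exact hzpD hw₁
    have h2 : w₁ ∈ zpowers w₁ ⊓ (QS : Subgroup G) := by
      rw [← h1]
      exact Subgroup.mem_inf.mpr ⟨mem_zpowers w₁, h3⟩
    rw [hQS] at h2
    exact (Subgroup.mem_inf.mp h2).2
  have hc₁ : w₁ * z = z * w₁ := hQab w₁ hw₁Q z hz
  -- the `q'`-part commutes with `z` modulo `M_α`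
  have hw₂D : w₂ ∈ normalizer (Q : Set G) := hzpD hw₂
  have hw₂M : w₂ ∈ M := hcfg.hNM hw₂D
  have hw₂c : (⟨w₂, hw₂M⟩ : M) ∈ commutator M := by
    have h1 : w₂ ∈ (commutator M).map M.subtype := by
      rw [Subgroup.map_subtype_commutator]
      exact hzpM hw₂
    obtain ⟨x, hx, hxw⟩ := Subgroup.mem_map.mp h1
    have : x = ⟨w₂, hw₂M⟩ := Subtype.ext hxw
    rw [← this]
    exact hx
  have hzc : (⟨z, hQM hz⟩ : M) ∈ commutator M := hQcomm (Subgroup.mem_subgroupOf.mpr hz)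
  have hcopz : (orderOf w₂).Coprime (orderOf z) := by
    rw [hjz]
    exact Nat.Coprime.pow_right _ hcop
  have hcomm := Cfsg.Agent.H13.coprime_commute_of_mem
    ((commutator ↥M).map (QuotientGroup.mk' (piCore (alpha M) ↥M))) hnil
    (x := QuotientGroup.mk' (piCore (alpha M) ↥M) ⟨w₂, hw₂M⟩)
    (z := QuotientGroup.mk' (piCore (alpha M) ↥M) ⟨z, hQM hz⟩)
    (Subgroup.mem_map_of_mem _ hw₂c) (Subgroup.mem_map_of_mem _ hzc)
    (Nat.Coprime.coprime_dvd_left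
      ((orderOf_map_dvd _ _).trans (by rw [← Subgroup.orderOf_coe]))
      (Nat.Coprime.coprime_dvd_right
        ((orderOf_map_dvd _ _).trans (by rw [← Subgroup.orderOf_coe])) hcopz))
  have hcmem : (⟨w₂, hw₂M⟩ * ⟨z, hQM hz⟩ * (⟨w₂, hw₂M⟩ : M)⁻¹ * (⟨z, hQM hz⟩ : M)⁻¹ : M) ∈
      piCore (alpha M) ↥M := by
    rw [← QuotientGroup.eq_one_iff]
    have h1 : ((⟨w₂, hw₂M⟩ * ⟨z, hQM hz⟩ * (⟨w₂, hw₂M⟩ : M)⁻¹ * (⟨z, hQM hz⟩ : M)⁻¹ : M) :
        ↥M ⧸ piCore (alpha M) ↥M) =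
        QuotientGroup.mk' (piCore (alpha M) ↥M) ⟨w₂, hw₂M⟩ *
          QuotientGroup.mk' (piCore (alpha M) ↥M) ⟨z, hQM hz⟩ *
          (QuotientGroup.mk' (piCore (alpha M) ↥M) ⟨w₂, hw₂M⟩)⁻¹ *
          (QuotientGroup.mk' (piCore (alpha M) ↥M) ⟨z, hQM hz⟩)⁻¹ := rfl
    rw [h1, hcomm]
    group
  have hcα : w₂ * z * w₂⁻¹ * z⁻¹ ∈ alphaCore M := by
    have h1 := Subgroup.mem_map_of_mem M.subtype hcmem
    exact h1
  have hcQ : w₂ * z * w₂⁻¹ * z⁻¹ ∈ Q :=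
    Q.mul_mem ((mem_normalizer_iff.mp hw₂D z).mp hz) (Q.inv_mem hz)
  have hc1 : w₂ * z * w₂⁻¹ * z⁻¹ = 1 := by
    by_contra hne
    obtain ⟨k, hk⟩ := hcfg.hQq ⟨_, hcQ⟩
    have h1 : (w₂ * z * w₂⁻¹ * z⁻¹) ^ q ^ k = 1 := by
      have := congrArg Subtype.val hk
      simpa using this
    obtain ⟨j, -, hj⟩ := (Nat.dvd_prime_pow hq).mp (orderOf_dvd_of_pow_eq_one h1)
    have hj0 : j ≠ 0 := by
      intro h0
      rw [h0, pow_zero, orderOf_eq_one_iff] at hj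
      exact hne hj
    have h2 : q ∣ orderOf (w₂ * z * w₂⁻¹ * z⁻¹) := by
      rw [hj]
      exact dvd_pow_self q hj0
    have h3 : orderOf (w₂ * z * w₂⁻¹ * z⁻¹) ∣ Nat.card (alphaCore M) := by
      have := orderOf_dvd_natCard (⟨_, hcα⟩ : alphaCore M)
      rwa [Subgroup.orderOf_mk] at this
    exact hqα (hHallOf.2.1 q hq (h2.trans h3))
  have hc₂ : w₂ * z = z * w₂ := by
    calc w₂ * z = (w₂ * z * w₂⁻¹ * z⁻¹) * z * w₂ := by group
      _ = z * w₂ := by rw [hc1, one_mul]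
  rw [hw]
  calc w₂ * w₁ * z = w₂ * (w₁ * z) := by group
    _ = w₂ * (z * w₁) := by rw [hc₁]
    _ = (w₂ * z) * w₁ := by group
    _ = z * w₂ * w₁ := by rw [hc₂]
    _ = z * (w₂ * w₁) := by group

end Cfsg.Agent.H71.BG139
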