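import Mathlib
import Cfsg.Agent.H47.BG139Defs
import Cfsg.Agent.H31.BG8a

/-!
# Piece BG139-FIRST (helper71, for helper47): every prime divisor of `|G|` lies in `σ(M)` for
some maximal subgroup `M`
-/

set_option autoImplicit false

namespace Cfsg.Agent.H71.BG139

open Cfsg Subgroup Cfsg.Agent.H47.BG139

universe u

variable {G : Type u} [Group G]

theorem first [Finite G] (hG : IsMinSimpleOddOrder G) : St1378a G := by
  intro p hp hdvd
  have : Fact p.Prime := ⟨hp⟩
  obtain ⟨P⟩ : Nonempty (Sylow p G) := inferInstance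
  have hP0 : (P : Subgroup G) ≠ ⊥ := P.ne_bot_of_dvd_card hdvd
  have hPtop : (P : Subgroup G) ≠ ⊤ := Cfsg.Agent.H31.BG8.not_isPGroup_top hG P.2
  have hN := Cfsg.Agent.Lib.Helper30.minSimple_normalizer_ne_top hG hP0 hPtop
  obtain ⟨M, hM, hNM⟩ :=
    (eq_top_or_exists_le_coatom (normalizer ((P : Subgroup G) : Set G))).resolve_left hN
  have hPM : (P : Subgroup G) ≤ M := le_trans le_normalizer hNM
  refine ⟨M, hM, hp, ?_, P.subtype hPM, ?_⟩
  · have h1 : p ∣ Nat.card (P : Subgroup G) := by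
      obtain ⟨n, hn⟩ := IsPGroup.iff_card.mp P.2
      rw [hn]
      have hn0 : n ≠ 0 := by
        intro h0
        rw [h0, pow_zero] at hn
        exact hP0 ((Subgroup.card_eq_one).mp hn)
      exact dvd_pow_self p hn0
    exact h1.trans (Subgroup.card_dvd_of_le hPM)
  · rw [Sylow.coe_subtype, Subgroup.map_subgroupOf_eq_of_le hPM]
    exact hNM

end Cfsg.Agent.H71.BG139
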