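import Mathlib
import Cfsg.Agent.Helper55.BG151Defs

/-!
# Piece S1360-EXPINF (helper71, for helper55)

If `E₀ ≤ E` has the exponent of `E` and `U ≤ E` contains every element of `E` of prime power
order `r ^ k` with `r ∣ #U`, then `E₀ ⊓ U` has the exponent of `U`.
-/

set_option autoImplicit false

namespace Cfsg.Agent.H71.BG151

open Cfsg.Agent.Helper55.BG151

universe u

variable {G : Type u} [Group G]

theorem exponent_dvd_of_subgroup_le {A B : Subgroup G} (h : A ≤ B) :
    Monoid.exponent A ∣ Monoid.exponent B := by
  refine Monoid.exponent_dvd_of_forall_pow_eq_one fun x => ?_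
  have h1 : (⟨(x : G), h x.2⟩ : B) ^ Monoid.exponent B = 1 := Monoid.pow_exponent_eq_one _
  have h2 := congrArg (Subtype.val) h1
  apply Subtype.ext
  simpa using h2

theorem expInf [Finite G] : StExpInf G := by
  intro E E₀ U hE₀E hUE hexp hprim
  apply Nat.dvd_antisymm
  · exact exponent_dvd_of_subgroup_le inf_le_right
  · have hneU : Monoid.exponent U ≠ 0 := Monoid.exponent_ne_zero_of_finite
    have hneI : Monoid.exponent (E₀ ⊓ U : Subgroup G) ≠ 0 := Monoid.exponent_ne_zero_of_finite
    have hneE₀ : Monoid.exponent E₀ ≠ 0 := Monoid.exponent_ne_zero_of_finite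
    rw [← Nat.factorization_le_iff_dvd hneU hneI]
    intro r
    by_cases hr : r.Prime
    · by_cases hrU : r ∣ Monoid.exponent U
      · have hrcard : r ∣ Nat.card U := hrU.trans (Group.exponent_dvd_nat_card)
        have hUE₀ : Monoid.exponent U ∣ Monoid.exponent E₀ := by
          rw [hexp]
          exact exponent_dvd_of_subgroup_le hUE
        have hle : (Monoid.exponent U).factorization r ≤ (Monoid.exponent E₀).factorization r :=
          (Nat.factorization_le_iff_dvd hneU hneE₀).mpr hUE₀ r
        obtain ⟨y, hy⟩ := hr.exists_orderOf_eq_pow_factorization_exponent E₀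
        have hyo : orderOf (y : G) = r ^ (Monoid.exponent E₀).factorization r := by
          rw [Subgroup.orderOf_coe, hy]
        have hyU : (y : G) ∈ U := hprim (y : G) (hE₀E y.2) r hr hrcard ⟨_, hyo⟩
        have hyI : (y : G) ∈ (E₀ ⊓ U : Subgroup G) := ⟨y.2, hyU⟩
        have hord : orderOf (⟨(y : G), hyI⟩ : (E₀ ⊓ U : Subgroup G)) =
            r ^ (Monoid.exponent E₀).factorization r := by
          rw [← hyo, ← Subgroup.orderOf_coe]
        have hdvd : r ^ (Monoid.exponent E₀).factorization r ∣
            Monoid.exponent (E₀ ⊓ U : Subgroup G) := by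
          rw [← hord]
          exact Monoid.order_dvd_exponent _
        exact hle.trans ((hr.pow_dvd_iff_le_factorization hneI).mp hdvd)
      · rw [Nat.factorization_eq_zero_of_not_dvd hrU]
        exact Nat.zero_le _
    · rw [Nat.factorization_eq_zero_of_not_prime _ hr]
      exact Nat.zero_le _

end Cfsg.Agent.H71.BG151
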