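import Mathlib

set_option autoImplicit false
set_option linter.unusedSectionVars false

namespace Cfsg.Agent.H71

/-- The "norm" of `v` under a cyclic group of automorphisms is fixed by the generator. -/
theorem prod_pow_fixed {V : Type*} [CommGroup V] (γ : MulAut V) {m : ℕ} (hγ : γ ^ m = 1)
    (v : V) :
    γ (∏ i ∈ Finset.range m, (γ ^ i) v) = ∏ i ∈ Finset.range m, (γ ^ i) v := by
  rw [map_prod]
  have h1 : ∀ i, γ ((γ ^ i) v) = (γ ^ (i + 1)) v := fun i => by
    rw [pow_succ', MulAut.mul_apply]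
  simp only [h1]
  cases m with
  | zero => simp
  | succ m =>
    rw [Finset.prod_range_succ (fun i => (γ ^ (i + 1)) v) m,
      Finset.prod_range_succ' (fun i => (γ ^ i) v) m, hγ, pow_zero]

theorem prod_pow_eq_one_of_fpf {V : Type*} [CommGroup V] (γ : MulAut V) {m : ℕ}
    (hγ : γ ^ m = 1) (hfpf : ∀ v, γ v = v → v = 1) (v : V) :
    ∏ i ∈ Finset.range m, (γ ^ i) v = 1 :=
  hfpf _ (prod_pow_fixed γ hγ v)

/-- An elementary abelian group of rank two cannot act fixed-point-freely. -/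
theorem fpf_rank_one {V : Type*} [CommGroup V] {q : ℕ} (α β : MulAut V) (hαβ : Commute α β)
    (hα : α ^ q = 1) (hβ : β ^ q = 1)
    (hfpf1 : ∀ j, j < q → ∀ v, (α * β ^ j) v = v → v = 1)
    (hfpf2 : ∀ i, 0 < i → i < q → ∀ v, (β ^ i) v = v → v = 1) (v : V) : v ^ q = 1 := by
  have h1 : ∏ j ∈ Finset.range q, ∏ i ∈ Finset.range q, ((α * β ^ j) ^ i) v = 1 := by
    apply Finset.prod_eq_one
    intro j hj
    apply prod_pow_eq_one_of_fpf _ _ (hfpf1 j (Finset.mem_range.1 hj))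
    rw [(hαβ.pow_right j).mul_pow, hα, ← pow_mul, mul_comm, pow_mul, hβ, one_pow, one_mul]
  rw [Finset.prod_comm] at h1
  have h2 : ∀ i j, ((α * β ^ j) ^ i) v = (α ^ i) (((β ^ i) ^ j) v) := by
    intro i j
    rw [(hαβ.pow_right j).mul_pow, ← pow_mul, mul_comm j i, pow_mul, MulAut.mul_apply]
  simp only [h2] at h1
  simp only [← map_prod] at h1
  cases q with
  | zero => simp
  | succ q' =>
    rw [Finset.prod_range_succ'] at h1
    have h3 : ∀ i ∈ Finset.range q',
        (α ^ (i + 1)) (∏ j ∈ Finset.range (q' + 1), ((β ^ (i + 1)) ^ j) v) = 1 := by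
      intro i hi
      have h4 : ∏ j ∈ Finset.range (q' + 1), ((β ^ (i + 1)) ^ j) v = 1 := by
        apply prod_pow_eq_one_of_fpf _ _
          (hfpf2 (i + 1) (Nat.succ_pos i) (by have := Finset.mem_range.1 hi; omega))
        rw [← pow_mul, mul_comm, pow_mul, hβ, one_pow]
      rw [h4, map_one]
    rw [Finset.prod_eq_one h3, one_mul] at h1
    simpa using h1

/-- A non-abelian group of order `q * s` cannot act fixed-point-freely (abstract form). -/
theorem fpf_nonabelian {V : Type*} [CommGroup V] {q s : ℕ} (hs : 0 < s) (α β : MulAut V)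
    (hβ : β ^ s = 1)
    (δ : ℕ → MulAut V) (hδ : ∀ j i, α ^ i * β ^ j * (α ^ i)⁻¹ = δ j ^ i * β ^ j)
    (hδq : ∀ j, δ j ^ q = 1)
    (hfpfδ : ∀ j, 0 < j → j < s → ∀ v, δ j v = v → v = 1)
    (hfpfγ : ∀ i, i < q → ∀ v, (α ^ i * β * (α ^ i)⁻¹) v = v → v = 1) (v : V) : v ^ q = 1 := by
  have h1 : ∏ i ∈ Finset.range q, ∏ j ∈ Finset.range s, ((α ^ i * β * (α ^ i)⁻¹) ^ j) v = 1 := by
    apply Finset.prod_eq_one
    intro i hi
    apply prod_pow_eq_one_of_fpf _ _ (hfpfγ i (Finset.mem_range.1 hi))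
    rw [conj_pow, hβ, mul_one, mul_inv_cancel]
  rw [Finset.prod_comm] at h1
  have h2 : ∀ j i, ((α ^ i * β * (α ^ i)⁻¹) ^ j) v = ((δ j) ^ i) ((β ^ j) v) := by
    intro j i
    rw [conj_pow, hδ j i, MulAut.mul_apply]
  simp only [h2] at h1
  obtain ⟨s', rfl⟩ := Nat.exists_eq_succ_of_ne_zero hs.ne'
  rw [Finset.prod_range_succ'] at h1
  have h3 : ∀ j ∈ Finset.range s',
      ∏ i ∈ Finset.range q, ((δ (j + 1)) ^ i) ((β ^ (j + 1)) v) = 1 := by
    intro j hj
    exact prod_pow_eq_one_of_fpf _ (hδq (j + 1))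
      (hfpfδ (j + 1) (Nat.succ_pos j) (by have := Finset.mem_range.1 hj; omega)) _
  rw [Finset.prod_eq_one h3, one_mul] at h1
  have h4 : ∀ i, δ 0 ^ i = 1 := by
    intro i
    have h5 := hδ 0 i
    rw [pow_zero, mul_one, mul_one, mul_inv_cancel] at h5
    exact h5.symm
  simp only [h4, pow_zero, MulAut.one_apply, Finset.prod_const, Finset.card_range] at h1
  exact h1

end Cfsg.Agent.H71
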