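import Mathlib
import Cfsg.Agent.H71.CPA
import Cfsg.Agent.H71.SylowMisc

set_option autoImplicit false
set_option linter.unusedSectionVars false

namespace Cfsg.Agent.H71

/-- Every nonidentity element has prime power order. -/
def IsCP (X : Type*) [Group X] : Prop := ∀ g : X, g ≠ 1 → IsPrimePow (orderOf g)

/-- In a CP-group, commuting elements of coprime orders: one of them is trivial. -/
theorem cp_comm {X : Type*} [Group X] (hCP : IsCP X) {a b : X} (hab : a * b = b * a)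
    (hcop : (orderOf a).Coprime (orderOf b)) : a = 1 ∨ b = 1 := by
  by_contra hcon
  push Not at hcon
  obtain ⟨ha, hb⟩ := hcon
  have hord : orderOf (a * b) = orderOf a * orderOf b :=
    (show Commute a b from hab).orderOf_mul_eq_mul_orderOf_of_coprime hcop
  have hab1 : a * b ≠ 1 := by
    intro h
    rw [h, orderOf_one] at hord
    have h1 : orderOf a = 1 := Nat.eq_one_of_mul_eq_one_right hord.symm
    exact ha (orderOf_eq_one_iff.1 h1)
  have hpp := hCP (a * b) hab1
  rw [hord] at hpp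
  have h2 := (hcop.isPrimePow_dvd_mul hpp).1 dvd_rfl
  have hoa : orderOf a ≠ 1 := fun h => ha (orderOf_eq_one_iff.1 h)
  have hob : orderOf b ≠ 1 := fun h => hb (orderOf_eq_one_iff.1 h)
  have hoa0 : 0 < orderOf a := Nat.pos_of_ne_zero (fun h => by
    rw [h, zero_mul] at hpp; exact not_isPrimePow_zero hpp)
  have hob0 : 0 < orderOf b := Nat.pos_of_ne_zero (fun h => by
    rw [h, mul_zero] at hpp; exact not_isPrimePow_zero hpp)
  rcases h2 with h3 | h3
  · have h4 := Nat.le_of_dvd hoa0 h3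
    have h5 : 2 ≤ orderOf b := by omega
    nlinarith
  · have h4 := Nat.le_of_dvd hob0 h3
    have h5 : 2 ≤ orderOf a := by omega
    nlinarith

/-- In a CP-group, a nonidentity `p'`-element has no nontrivial fixed points on a `p`-group. -/
theorem cp_fpf {X : Type*} [Group X] (hCP : IsCP X) {p : ℕ} [Fact p.Prime] {N : Subgroup X}
    (hN : IsPGroup p N) {x n : X} (hx1 : x ≠ 1) (hx : (orderOf x).Coprime p) (hn : n ∈ N)
    (hc : x * n = n * x) : n = 1 := by
  obtain ⟨k, hk⟩ := (IsPGroup.iff_orderOf.1 hN) ⟨n, hn⟩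
  rw [Subgroup.orderOf_mk] at hk
  have hcop : (orderOf x).Coprime (orderOf n) := by
    rw [hk]; exact Nat.Coprime.pow_right k hx
  rcases cp_comm hCP hc hcop with h | h
  · exact absurd h hx1
  · exact h

/-- The centralizer of an element of prime order `q` in a CP-group consists of `q`-elements. -/
theorem cp_centralizer {X : Type*} [Group X] [Finite X] (hCP : IsCP X) {q : ℕ} (hq : q.Prime)
    {a c : X} (ha : orderOf a = q) (hc : c * a = a * c) : ∃ k : ℕ, orderOf c = q ^ k := by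
  by_cases hc1 : c = 1
  · exact ⟨0, by rw [hc1, orderOf_one, pow_zero]⟩
  · obtain ⟨r, k, hr, hk, hrk⟩ := hCP c hc1
    have hr' : r.Prime := Nat.prime_iff.2 hr
    by_cases hrq : r = q
    · exact ⟨k, by rw [← hrk, hrq]⟩
    · exfalso
      have hcop : (orderOf c).Coprime (orderOf a) := by
        rw [← hrk, ha]
        exact Nat.Coprime.pow_left k ((Nat.coprime_primes hr' hq).2 hrq)
      rcases cp_comm hCP hc hcop with h | h
      · exact hc1 h
      · rw [h, orderOf_one] at ha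
        exact hq.one_lt.ne ha

section
variable {X : Type*} [Group X] [Finite X] {p : ℕ} [Fact p.Prime]

/-- Elements of a normal abelian `p`-subgroup killed by `q ≠ p` are trivial, hence if all are
killed the subgroup is trivial. -/
theorem eq_bot_of_forall_pow_eq_one {N : Subgroup X} (hN : IsPGroup p N) {q : ℕ} (hq : q.Prime)
    (hqp : q ≠ p) (h : ∀ v : N, v ^ q = 1) : N = ⊥ := by
  rw [Subgroup.eq_bot_iff_forall]
  intro x hx
  obtain ⟨k, hk⟩ := hN ⟨x, hx⟩
  have h1 := h ⟨x, hx⟩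
  have h2 : orderOf (⟨x, hx⟩ : N) ∣ Nat.gcd q (p ^ k) :=
    Nat.dvd_gcd (orderOf_dvd_of_pow_eq_one h1) (orderOf_dvd_of_pow_eq_one hk)
  have h3 : Nat.gcd q (p ^ k) = 1 :=
    Nat.Coprime.pow_right k ((Nat.coprime_primes hq Fact.out).2 hqp)
  rw [h3] at h2
  have h4 : (⟨x, hx⟩ : N) = 1 := orderOf_eq_one_iff.1 (Nat.eq_one_of_dvd_one h2)
  exact congrArg Subtype.val h4

/-- Group form of `fpf_rank_one`. -/
theorem cp_rank_one (hCP : IsCP X) (N : Subgroup X) [hNn : N.Normal] (hNbot : N ≠ ⊥)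
    (hNab : ∀ a ∈ N, ∀ b ∈ N, a * b = b * a) (hNp : IsPGroup p N) {q : ℕ} (hq : q.Prime)
    (hqp : q ≠ p) {a b : X} (hab : a * b = b * a) (haq : a ^ q = 1) (hbq : b ^ q = 1)
    (ha1 : a ≠ 1) : b ∈ Subgroup.zpowers a := by
  by_contra hb
  have hqf : Fact q.Prime := ⟨hq⟩
  have hb1 : b ≠ 1 := by
    rintro rfl; exact hb (Subgroup.one_mem _)
  have hob : orderOf b = q := orderOf_eq_prime hbq hb1
  have hcopq : ∀ x : X, x ^ q = 1 → (orderOf x).Coprime p := by
    intro x hx
    exact Nat.Coprime.coprime_dvd_left (orderOf_dvd_of_pow_eq_one hx)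
      ((Nat.coprime_primes hq Fact.out).2 hqp)
  set ρ : X →* MulAut N := MulAut.conjNormal with hρ
  have hρapp : ∀ (g : X) (v : N), ((ρ g) v : X) = g * v * g⁻¹ :=
    fun g v => MulAut.conjNormal_apply g v
  have hfix : ∀ (g : X) (v : N), (ρ g) v = v → g * (v : X) = v * g := by
    intro g v h
    have h1 := hρapp g v
    rw [h] at h1
    calc g * (v : X) = g * v * g⁻¹ * g := by group
      _ = v * g := by rw [← h1]
  have key : ∀ v : N, v ^ q = 1 := by
    let _ : CommGroup N :=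
      { (inferInstance : Group N) with
        mul_comm := fun x y => Subtype.ext (hNab x x.2 y y.2) }
    refine fpf_rank_one (V := N) (ρ a) (ρ b) ?_ ?_ ?_ ?_ ?_
    · show ρ a * ρ b = ρ b * ρ a
      rw [← map_mul, ← map_mul, hab]
    · rw [← map_pow, haq, map_one]
    · rw [← map_pow, hbq, map_one]
    · intro j hj v hv
      rw [← map_pow, ← map_mul] at hv
      have h1 := hfix _ v hv
      have hx1 : a * b ^ j ≠ 1 := by
        intro h2
        apply hb
        have h3 : b ^ j = a⁻¹ := eq_inv_of_mul_eq_one_right h2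
        have hj0 : j ≠ 0 := by
          rintro rfl
          rw [pow_zero] at h3
          exact ha1 (inv_eq_one.1 h3.symm)
        have hcop : Nat.Coprime j (orderOf b) := by
          rw [hob]
          exact ((Nat.Prime.coprime_iff_not_dvd hq).2
            (Nat.not_dvd_of_pos_of_lt (Nat.pos_of_ne_zero hj0) hj)).symm
        obtain ⟨m, hm⟩ := exists_pow_eq_self_of_coprime hcop
        rw [← hm, h3]
        exact Subgroup.pow_mem _ (Subgroup.inv_mem _ (Subgroup.mem_zpowers a)) m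
      have hxq : (a * b ^ j) ^ q = 1 := by
        have hc : Commute a (b ^ j) := (show Commute a b from hab).pow_right j
        rw [hc.mul_pow, haq, ← pow_mul, mul_comm, pow_mul, hbq, one_pow, one_mul]
      exact Subtype.ext (cp_fpf hCP hNp hx1 (hcopq _ hxq) v.2 h1)
    · intro i hi0 hiq v hv
      rw [← map_pow] at hv
      have h1 := hfix _ v hv
      have hx1 : b ^ i ≠ 1 := pow_ne_one_of_lt_orderOf hi0.ne' (by rw [hob]; exact hiq)
      have hxq : (b ^ i) ^ q = 1 := by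
        rw [← pow_mul, mul_comm, pow_mul, hbq, one_pow]
      exact Subtype.ext (cp_fpf hCP hNp hx1 (hcopq _ hxq) v.2 h1)
  exact hNbot (eq_bot_of_forall_pow_eq_one hNp hq hqp key)

/-- Group form of `fpf_nonabelian`. -/
theorem cp_nonabelian (hCP : IsCP X) (N : Subgroup X) [hNn : N.Normal] (hNbot : N ≠ ⊥)
    (hNab : ∀ a ∈ N, ∀ b ∈ N, a * b = b * a) (hNp : IsPGroup p N) {q s : ℕ} (hq : q.Prime)
    (hqp : q ≠ p) (hs : s.Prime) (hsp : s ≠ p) {a y : X} (haq : a ^ q = 1)
    (hys : y ^ s = 1) (hnorm : y * a * y⁻¹ ∈ Subgroup.zpowers a) (hnc : y * a ≠ a * y) :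
    False := by
  have hy1 : y ≠ 1 := by
    rintro rfl; exact hnc (by rw [one_mul, mul_one])
  have hsf : Fact s.Prime := ⟨hs⟩
  have hoy : orderOf y = s := orderOf_eq_prime hys hy1
  have hcopq : ∀ x : X, x ^ q = 1 → (orderOf x).Coprime p := by
    intro x hx
    exact Nat.Coprime.coprime_dvd_left (orderOf_dvd_of_pow_eq_one hx)
      ((Nat.coprime_primes hq Fact.out).2 hqp)
  have hcops : ∀ x : X, x ^ s = 1 → (orderOf x).Coprime p := by
    intro x hx
    exact Nat.Coprime.coprime_dvd_left (orderOf_dvd_of_pow_eq_one hx)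
      ((Nat.coprime_primes hs Fact.out).2 hsp)
  have hnormj : ∀ j : ℕ, ∀ z ∈ Subgroup.zpowers a,
      y ^ j * z * (y ^ j)⁻¹ ∈ Subgroup.zpowers a := by
    intro j
    induction j with
    | zero => intro z hz; simpa using hz
    | succ j ih =>
      intro z hz
      have h1 := ih z hz
      obtain ⟨k, hk⟩ := Subgroup.mem_zpowers_iff.1 h1
      have h2 : y ^ (j + 1) * z * (y ^ (j + 1))⁻¹ = y * (y ^ j * z * (y ^ j)⁻¹) * y⁻¹ := by
        rw [pow_succ']; group
      rw [h2, ← hk, ← conj_zpow]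
      exact Subgroup.zpow_mem _ hnorm k
  have hw : ∀ j : ℕ, Commute a (y ^ j * a⁻¹ * (y ^ j)⁻¹) := by
    intro j
    obtain ⟨k, hk⟩ := Subgroup.mem_zpowers_iff.1
      (hnormj j a⁻¹ (Subgroup.inv_mem _ (Subgroup.mem_zpowers a)))
    rw [← hk]
    exact Commute.zpow_right (Commute.refl a) k
  have hid : ∀ j i : ℕ,
      a ^ i * y ^ j * (a ^ i)⁻¹ = (a * y ^ j * a⁻¹ * (y ^ j)⁻¹) ^ i * y ^ j := by
    intro j i
    have h1 : a * y ^ j * a⁻¹ * (y ^ j)⁻¹ = a * (y ^ j * a⁻¹ * (y ^ j)⁻¹) := by group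
    rw [h1, (hw j).mul_pow, conj_pow, inv_pow]
    group
  have hδq : ∀ j : ℕ, (a * y ^ j * a⁻¹ * (y ^ j)⁻¹) ^ q = 1 := by
    intro j
    have h1 : a * y ^ j * a⁻¹ * (y ^ j)⁻¹ = a * (y ^ j * a⁻¹ * (y ^ j)⁻¹) := by group
    rw [h1, (hw j).mul_pow, conj_pow, inv_pow, haq, inv_one, mul_one, mul_inv_cancel, one_mul]
  have hδ1 : ∀ j : ℕ, 0 < j → j < s → a * y ^ j * a⁻¹ * (y ^ j)⁻¹ ≠ 1 := by
    intro j hj0 hjs h
    apply hnc
    have h1 : a * y ^ j = y ^ j * a := by
      calc a * y ^ j = a * y ^ j * a⁻¹ * (y ^ j)⁻¹ * (y ^ j * a) := by group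
        _ = y ^ j * a := by rw [h, one_mul]
    have hcop : Nat.Coprime j (orderOf y) := by
      rw [hoy]
      exact ((Nat.Prime.coprime_iff_not_dvd hs).2 (Nat.not_dvd_of_pos_of_lt hj0 hjs)).symm
    obtain ⟨m, hm⟩ := exists_pow_eq_self_of_coprime hcop
    have h2 : Commute a ((y ^ j) ^ m) := (show Commute a (y ^ j) from h1).pow_right m
    rw [hm] at h2
    exact h2.eq.symm
  set ρ : X →* MulAut N := MulAut.conjNormal with hρ
  have hρapp : ∀ (g : X) (v : N), ((ρ g) v : X) = g * v * g⁻¹ :=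
    fun g v => MulAut.conjNormal_apply g v
  have hfix : ∀ (g : X) (v : N), (ρ g) v = v → g * (v : X) = v * g := by
    intro g v h
    have h1 := hρapp g v
    rw [h] at h1
    calc g * (v : X) = g * v * g⁻¹ * g := by group
      _ = v * g := by rw [← h1]
  have key : ∀ v : N, v ^ q = 1 := by
    let _ : CommGroup N :=
      { (inferInstance : Group N) with
        mul_comm := fun x y => Subtype.ext (hNab x x.2 y y.2) }
    refine fpf_nonabelian (V := N) (q := q) (s := s) hs.pos (ρ a) (ρ y) ?_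
      (fun j => ρ (a * y ^ j * a⁻¹ * (y ^ j)⁻¹)) ?_ ?_ ?_ ?_
    · rw [← map_pow, hys, map_one]
    · intro j i
      show ρ a ^ i * ρ y ^ j * (ρ a ^ i)⁻¹ = ρ (a * y ^ j * a⁻¹ * (y ^ j)⁻¹) ^ i * ρ y ^ j
      rw [← map_pow, ← map_pow, ← map_inv, ← map_mul, ← map_mul, ← map_pow, ← map_mul, hid j i]
    · intro j
      show ρ (a * y ^ j * a⁻¹ * (y ^ j)⁻¹) ^ q = 1
      rw [← map_pow, hδq j, map_one]
    · intro j hj0 hjs v hv
      have hv' : (ρ (a * y ^ j * a⁻¹ * (y ^ j)⁻¹)) v = v := hv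
      have h1 := hfix _ v hv'
      exact Subtype.ext (cp_fpf hCP hNp (hδ1 j hj0 hjs) (hcopq _ (hδq j)) v.2 h1)
    · intro i hi v hv
      rw [← map_pow, ← map_inv, ← map_mul, ← map_mul] at hv
      have h1 := hfix _ v hv
      have hg1 : a ^ i * y * (a ^ i)⁻¹ ≠ 1 := by
        intro h
        apply hy1
        have h2 : y = (a ^ i)⁻¹ * (a ^ i * y * (a ^ i)⁻¹) * a ^ i := by group
        rw [h2, h]; group
      have hgs : (a ^ i * y * (a ^ i)⁻¹) ^ s = 1 := by
        rw [conj_pow, hys, mul_one, mul_inv_cancel]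
      exact Subtype.ext (cp_fpf hCP hNp hg1 (hcops _ hgs) v.2 h1)
  exact hNbot (eq_bot_of_forall_pow_eq_one hNp hq hqp key)

/-- In a CP-group with a nontrivial normal abelian `p`-subgroup, the normalizer of a subgroup of
prime order `q ≠ p` consists of `p`-elements and `q`-elements. -/
theorem cp_normalizer_orders (hCP : IsCP X) (N : Subgroup X) [hNn : N.Normal] (hNbot : N ≠ ⊥)
    (hNab : ∀ a ∈ N, ∀ b ∈ N, a * b = b * a) (hNp : IsPGroup p N) {q : ℕ} (hq : q.Prime)
    (hqp : q ≠ p) {a : X} (ha : orderOf a = q) {u : X}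
    (hu : u ∈ Subgroup.normalizer (Subgroup.zpowers a : Set X)) :
    ∃ k : ℕ, orderOf u = p ^ k ∨ orderOf u = q ^ k := by
  classical
  by_cases hu1 : u = 1
  · exact ⟨0, Or.inl (by rw [hu1, orderOf_one, pow_zero])⟩
  obtain ⟨r, k, hr, hk, hrk⟩ := hCP u hu1
  have hr' : r.Prime := Nat.prime_iff.2 hr
  by_cases hrp : r = p
  · exact ⟨k, Or.inl (by rw [← hrk, hrp])⟩
  by_cases hrq : r = q
  · exact ⟨k, Or.inr (by rw [← hrk, hrq])⟩
  exfalso
  have ha1 : a ≠ 1 := by
    rintro rfl; rw [orderOf_one] at ha; exact hq.one_lt.ne ha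
  have haq : a ^ q = 1 := by rw [← ha]; exact pow_orderOf_eq_one a
  have hnormi : ∀ i : ℕ, u ^ i * a * (u ^ i)⁻¹ ∈ Subgroup.zpowers a := by
    intro i
    have h1 : u ^ i ∈ Subgroup.normalizer (Subgroup.zpowers a : Set X) :=
      Subgroup.pow_mem _ hu i
    exact (Subgroup.mem_set_normalizer_iff.1 h1 a).1 (Subgroup.mem_zpowers a)
  have hex : ∃ i : ℕ, u ^ (r ^ i) * a = a * u ^ (r ^ i) :=
    ⟨k, by rw [hrk, pow_orderOf_eq_one, one_mul, mul_one]⟩
  have hi₀spec := Nat.find_spec hex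
  have hcoprq : ∀ z : X, z ^ (r ^ k) = 1 → (orderOf z).Coprime (orderOf a) := by
    intro z hz
    rw [ha]
    exact Nat.Coprime.coprime_dvd_left (orderOf_dvd_of_pow_eq_one hz)
      (Nat.Coprime.pow_left k ((Nat.coprime_primes hr' hq).2 hrq))
  have hupow : ∀ i : ℕ, (u ^ i) ^ (r ^ k) = 1 := by
    intro i
    rw [← pow_mul, mul_comm, pow_mul, hrk, pow_orderOf_eq_one, one_pow]
  have hi₀0 : Nat.find hex ≠ 0 := by
    intro h0
    rw [h0, pow_zero, pow_one] at hi₀spec
    rcases cp_comm hCP hi₀spec (hcoprq u (by rw [hrk]; exact pow_orderOf_eq_one u)) with h | h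
    · exact hu1 h
    · exact ha1 h
  obtain ⟨i₁, hi₁⟩ := Nat.exists_eq_succ_of_ne_zero hi₀0
  have hync : u ^ (r ^ i₁) * a ≠ a * u ^ (r ^ i₁) :=
    Nat.find_min hex (by omega : i₁ < Nat.find hex)
  have hyr : (u ^ (r ^ i₁)) ^ r = 1 := by
    have h1 : (u ^ (r ^ i₁)) ^ r = u ^ (r ^ Nat.find hex) := by
      rw [← pow_mul, hi₁, pow_succ]
    rw [h1]
    rcases cp_comm hCP hi₀spec (hcoprq _ (hupow _)) with h | h
    · exact h
    · exact absurd h ha1
  exact cp_nonabelian hCP N hNbot hNab hNp hq hqp hr' hrp haq hyr (hnormi _) hync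

end

end Cfsg.Agent.H71
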