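import Mathlib
import Cfsg.Agent.H71.CPB
import Cfsg.Agent.H71.RealInv
import Cfsg.Agent.H14.Cores

set_option autoImplicit false
set_option linter.unusedSectionVars false

namespace Cfsg.Agent.H71

open scoped commutatorElement

/-- A nontrivial solvable normal subgroup contains a nontrivial abelian subgroup of prime
exponent that is normal in the whole group. -/
theorem exists_normal_elem_ab_in {G : Type*} [Group G] [Finite G] (K : Subgroup G) [K.Normal]
    (hK : K ≠ ⊥) (hs : Group.IsSolvable K) :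
    ∃ (r : ℕ) (D : Subgroup G), r.Prime ∧ D.Normal ∧ D ≠ ⊥ ∧ D ≤ K ∧
      (∀ x ∈ D, ∀ y ∈ D, x * y = y * x) ∧ ∀ x ∈ D, x ^ r = 1 := by
  classical
  obtain ⟨n, hn⟩ := hs.solvable
  have hex : ∃ n, derivedSeries K n = ⊥ := ⟨n, hn⟩
  have hm : derivedSeries K (Nat.find hex) = ⊥ := Nat.find_spec hex
  have hm0 : Nat.find hex ≠ 0 := by
    intro h0
    rw [h0, derivedSeries_zero] at hm
    apply hK
    rw [Subgroup.eq_bot_iff_forall]
    intro x hx
    have h1 : (⟨x, hx⟩ : K) ∈ (⊤ : Subgroup K) := Subgroup.mem_top _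
    rw [hm, Subgroup.mem_bot] at h1
    exact congrArg Subtype.val h1
  obtain ⟨k, hk⟩ := Nat.exists_eq_succ_of_ne_zero hm0
  have hk1 : derivedSeries K k ≠ ⊥ := Nat.find_min hex (by omega : k < Nat.find hex)
  have hk2 : ⁅derivedSeries K k, derivedSeries K k⁆ = ⊥ := by
    rw [← derivedSeries_succ, ← Nat.succ_eq_add_one, ← hk]; exact hm
  set A : Subgroup G := (derivedSeries K k).map K.subtype with hA
  have hAn : A.Normal := inferInstance
  have hAbot : A ≠ ⊥ := by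
    rw [hA, Ne, Subgroup.map_eq_bot_iff_of_injective _ K.subtype_injective]; exact hk1
  have hAK : A ≤ K := Subgroup.map_subtype_le _
  have hAab : ∀ x ∈ A, ∀ y ∈ A, x * y = y * x := by
    rintro _ ⟨x, hx, rfl⟩ _ ⟨y, hy, rfl⟩
    have h1 : ⁅x, y⁆ ∈ ⁅derivedSeries K k, derivedSeries K k⁆ :=
      Subgroup.commutator_mem_commutator hx hy
    rw [hk2, Subgroup.mem_bot, commutatorElement_eq_one_iff_mul_comm] at h1
    have h2 := congrArg Subtype.val h1
    simpa using h2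
  have hcard : 1 < Nat.card A := (Subgroup.one_lt_card_iff_ne_bot A).2 hAbot
  obtain ⟨r, hr, hrdvd⟩ := Nat.exists_prime_and_dvd (ne_of_gt hcard)
  have hrf : Fact r.Prime := ⟨hr⟩
  obtain ⟨x, hx⟩ := exists_prime_orderOf_dvd_card' r hrdvd
  let D : Subgroup G :=
    { carrier := {y | y ∈ A ∧ y ^ r = 1}
      mul_mem' := by
        rintro a b ⟨ha, har⟩ ⟨hb, hbr⟩
        refine ⟨A.mul_mem ha hb, ?_⟩
        have hc : Commute a b := hAab a ha b hb
        rw [hc.mul_pow, har, hbr, one_mul]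
      one_mem' := ⟨A.one_mem, one_pow r⟩
      inv_mem' := by
        rintro a ⟨ha, har⟩
        exact ⟨A.inv_mem ha, by rw [inv_pow, har, inv_one]⟩ }
  refine ⟨r, D, hr, ⟨?_⟩, ?_, ?_, ?_, ?_⟩
  · rintro y ⟨hy, hyr⟩ g
    refine ⟨hAn.conj_mem y hy g, ?_⟩
    rw [conj_pow, hyr, mul_one, mul_inv_cancel]
  · intro hbot
    have hxr : (x : G) ^ r = 1 := by
      rw [← Subgroup.coe_pow, ← hx, pow_orderOf_eq_one]; rfl
    have hxD : (x : G) ∈ D := ⟨x.2, hxr⟩
    rw [hbot, Subgroup.mem_bot] at hxD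
    have hx1 : x = 1 := Subtype.ext hxD
    rw [hx1, orderOf_one] at hx
    exact hr.one_lt.ne hx
  · rintro a ⟨ha, -⟩; exact hAK ha
  · rintro a ⟨ha, -⟩ b ⟨hb, -⟩; exact hAab a ha b hb
  · rintro a ⟨-, har⟩; exact har

/-- A group with a solvable normal subgroup modulo which it is commutative is solvable. -/
theorem solvable_of_normal_comm {K : Type*} [Group K] (L : Subgroup K) [L.Normal]
    (hL : Group.IsSolvable L) (h : ∀ u v : K, (u * v)⁻¹ * (v * u) ∈ L) : Group.IsSolvable K := by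
  have hq : Group.IsSolvable (K ⧸ L) := by
    apply Group.isSolvable_of_comm
    intro a b
    obtain ⟨u, rfl⟩ := QuotientGroup.mk_surjective a
    obtain ⟨v, rfl⟩ := QuotientGroup.mk_surjective b
    rw [← QuotientGroup.mk_mul, ← QuotientGroup.mk_mul, QuotientGroup.eq]
    exact h u v
  exact Group.isSolvable_of_ker_le_range L.subtype (QuotientGroup.mk' L) (by
    rw [QuotientGroup.ker_mk', Subgroup.range_subtype])

/-- A product of a solvable subgroup and a solvable normal subgroup is solvable. -/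
theorem solvable_of_sup_eq_top {G : Type*} [Group G] (M K : Subgroup G) [M.Normal]
    (hM : Group.IsSolvable M) (hK : Group.IsSolvable K) (h : K ⊔ M = ⊤) :
    Group.IsSolvable G := by
  have hsurj : Function.Surjective ((QuotientGroup.mk' M).comp K.subtype) := by
    intro x
    obtain ⟨g, rfl⟩ := QuotientGroup.mk_surjective x
    have hg : g ∈ K ⊔ M := by rw [h]; exact Subgroup.mem_top g
    obtain ⟨k, hk, m, hm, rfl⟩ := Subgroup.mem_sup_of_normal_right.1 hg
    refine ⟨⟨k, hk⟩, ?_⟩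
    show ((k : G) : G ⧸ M) = ((k * m : G) : G ⧸ M)
    rw [QuotientGroup.eq, inv_mul_cancel_left]
    exact hm
  have hq : Group.IsSolvable (G ⧸ M) := Group.isSolvable_of_surjective hsurj
  exact Group.isSolvable_of_ker_le_range M.subtype (QuotientGroup.mk' M) (by
    rw [QuotientGroup.ker_mk', Subgroup.range_subtype])

section
variable {X : Type*} [Group X] [Finite X] {p : ℕ} [Fact p.Prime]

/-- The Higman configuration. -/
theorem cp_config (hCP : IsCP X)
    (N : Subgroup X) [hNn : N.Normal] (hNbot : N ≠ ⊥)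
    (hNab : ∀ a ∈ N, ∀ b ∈ N, a * b = b * a) (hNp : IsPGroup p N)
    (P : Subgroup X) [hPn : P.Normal] (hPp : IsPGroup p P)
    {q : ℕ} (hq : q.Prime) (hqp : q ≠ p)
    (D : Subgroup (X ⧸ P)) [hDn : D.Normal] (hDbot : D ≠ ⊥)
    (hDab : ∀ x ∈ D, ∀ y ∈ D, x * y = y * x) (hDq : ∀ x ∈ D, x ^ q = 1) :
    ∃ a : X, orderOf a = q ∧
      Subgroup.normalizer (Subgroup.zpowers a : Set X) ⊔ D.comap (QuotientGroup.mk' P) = ⊤ := by
  have hqf : Fact q.Prime := ⟨hq⟩
  set M := D.comap (QuotientGroup.mk' P) with hM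
  have hMn : M.Normal := hDn.comap _
  obtain ⟨⟨d, hd⟩, hd1⟩ := Subgroup.ne_bot_iff_exists_ne_one.1 hDbot
  have hd1' : d ≠ 1 := fun h => hd1 (Subtype.ext h)
  obtain ⟨g, rfl⟩ := QuotientGroup.mk_surjective d
  have hgM : g ∈ M := hd
  have hqM : q ∣ Nat.card M := by
    have h1 : orderOf (g : X ⧸ P) = q := orderOf_eq_prime (hDq _ hd) hd1'
    have h2 : orderOf (g : X ⧸ P) ∣ orderOf g := orderOf_map_dvd (QuotientGroup.mk' P) g
    rw [h1] at h2
    exact h2.trans (Subgroup.orderOf_dvd_natCard M hgM)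
  obtain ⟨Q⟩ : Nonempty (Sylow q M) := inferInstance
  have hQbot : (Q : Subgroup M) ≠ ⊥ := Q.ne_bot_of_dvd_card hqM
  have hfrat := Sylow.normalizer_sup_eq_top Q
  set Q' := (Q : Subgroup M).map M.subtype with hQ'
  have hQ'M : Q' ≤ M := Subgroup.map_subtype_le _
  have hQ'p : IsPGroup q Q' := Q.isPGroup'.map _
  have hPQ : ∀ z ∈ P, z ∈ Q' → z = 1 := by
    intro z hzP hzQ
    obtain ⟨i, hi⟩ := hPp ⟨z, hzP⟩
    obtain ⟨j, hj⟩ := hQ'p ⟨z, hzQ⟩
    have hi' : z ^ p ^ i = 1 := congrArg Subtype.val hi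
    have hj' : z ^ q ^ j = 1 := congrArg Subtype.val hj
    have h1 : orderOf z ∣ Nat.gcd (p ^ i) (q ^ j) :=
      Nat.dvd_gcd (orderOf_dvd_of_pow_eq_one hi') (orderOf_dvd_of_pow_eq_one hj')
    have h2 : Nat.gcd (p ^ i) (q ^ j) = 1 :=
      Nat.Coprime.pow _ _ ((Nat.coprime_primes Fact.out hq).2 (Ne.symm hqp))
    rw [h2] at h1
    exact orderOf_eq_one_iff.1 (Nat.eq_one_of_dvd_one h1)
  have hQ'q : ∀ u ∈ Q', u ^ q = 1 := by
    intro u hu
    apply hPQ _ _ (Q'.pow_mem hu q)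
    have h1 : ((u : X) : X ⧸ P) ^ q = 1 := hDq _ (hQ'M hu)
    rw [← QuotientGroup.mk_pow] at h1
    exact (QuotientGroup.eq_one_iff _).1 h1
  have hQ'ab : ∀ u ∈ Q', ∀ v ∈ Q', u * v = v * u := by
    intro u hu v hv
    have h1 : u * v * (v * u)⁻¹ = 1 := by
      apply hPQ
      · have hc : ((u : X) : X ⧸ P) * ((v : X) : X ⧸ P) = (v : X ⧸ P) * (u : X ⧸ P) :=
          hDab _ (hQ'M hu) _ (hQ'M hv)
        rw [← QuotientGroup.eq_one_iff, QuotientGroup.mk_mul, QuotientGroup.mk_inv,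
          QuotientGroup.mk_mul, QuotientGroup.mk_mul, hc, mul_inv_cancel]
      · exact Q'.mul_mem (Q'.mul_mem hu hv) (Q'.inv_mem (Q'.mul_mem hv hu))
    exact mul_inv_eq_one.1 h1
  have hQ'bot : Q' ≠ ⊥ := by
    rw [hQ', Ne, Subgroup.map_eq_bot_iff_of_injective _ M.subtype_injective]; exact hQbot
  obtain ⟨⟨a, haQ⟩, ha1⟩ := Subgroup.ne_bot_iff_exists_ne_one.1 hQ'bot
  have ha1' : a ≠ 1 := fun h => ha1 (Subtype.ext h)
  have haq := hQ'q a haQ
  have hoa : orderOf a = q := orderOf_eq_prime haq ha1'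
  have hQ'eq : Q' = Subgroup.zpowers a := by
    apply le_antisymm
    · intro b hb
      exact cp_rank_one hCP N hNbot hNab hNp hq hqp (hQ'ab a haQ b hb) haq (hQ'q b hb) ha1'
    · rw [Subgroup.zpowers_le]; exact haQ
  refine ⟨a, hoa, ?_⟩
  rw [← hQ'eq]
  exact hfrat

end

end Cfsg.Agent.H71
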