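import Mathlib
import Cfsg.Agent.H71.CPC

set_option autoImplicit false
set_option linter.unusedSectionVars false

namespace Cfsg.Agent.H71

/-- A subgroup of prime exponent is a `p`-group. -/
theorem isPGroup_of_exponent {X : Type*} [Group X] {p : ℕ} {N : Subgroup X}
    (h : ∀ x ∈ N, x ^ p = 1) : IsPGroup p N := by
  intro x
  refine ⟨1, ?_⟩
  rw [pow_one]
  exact Subtype.ext (h x.1 x.2)

/-- Elements of the preimage of a subgroup of exponent `q` of `X ⧸ P` (`P` a `p`-group) have
`p`-power or `q`-power order, in a CP-group. -/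
theorem cp_comap_orders {X : Type*} [Group X] [Finite X] (hCP : IsCP X) {p q : ℕ} (hp : p.Prime)
    (hq : q.Prime) (P : Subgroup X) [P.Normal] (hPp : IsPGroup p P)
    (D : Subgroup (X ⧸ P)) (hDq : ∀ x ∈ D, x ^ q = 1) {z : X}
    (hz : z ∈ D.comap (QuotientGroup.mk' P)) :
    ∃ k : ℕ, orderOf z = p ^ k ∨ orderOf z = q ^ k := by
  by_cases hz1 : z = 1
  · exact ⟨0, Or.inl (by rw [hz1, orderOf_one, pow_zero])⟩
  obtain ⟨r, k, hr, hk, hrk⟩ := hCP z hz1
  have hr' : r.Prime := Nat.prime_iff.2 hr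
  have h1 : z ^ q ∈ P := by
    have h2 := hDq _ hz
    rw [← map_pow, QuotientGroup.mk'_apply, QuotientGroup.eq_one_iff] at h2
    exact h2
  have hpf : Fact p.Prime := ⟨hp⟩
  obtain ⟨j, hj⟩ := (IsPGroup.iff_orderOf.1 hPp) ⟨z ^ q, h1⟩
  rw [Subgroup.orderOf_mk] at hj
  by_cases hrq : r = q
  · exact ⟨k, Or.inr (by rw [← hrk, hrq])⟩
  · have hcop : (orderOf z).Coprime q := by
      rw [← hrk]; exact Nat.Coprime.pow_left k ((Nat.coprime_primes hr' hq).2 hrq)
    have h2 : orderOf (z ^ q) = orderOf z := hcop.orderOf_pow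
    rw [h2, ← hrk] at hj
    have hrp : r = p := by
      have h3 : r ∣ p ^ j := by rw [← hj]; exact dvd_pow_self r (Nat.pos_iff_ne_zero.1 hk)
      exact (Nat.prime_dvd_prime_iff_eq hr' hp).1 (hr'.dvd_of_dvd_pow h3)
    exact ⟨k, Or.inl (by rw [← hrk, hrp])⟩

/-- A nontrivial normal subgroup of exponent `q` of `X ⧸ O_p(X)` has `q ≠ p`. -/
theorem ne_of_exponent_quot_pCore {X : Type*} [Group X] {p q : ℕ}
    (D : Subgroup (X ⧸ Cfsg.pCore p X)) (hDn : D.Normal) (hDbot : D ≠ ⊥)
    (hDq : ∀ x ∈ D, x ^ q = 1) : q ≠ p := by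
  rintro rfl
  have hPp : IsPGroup q (Cfsg.pCore q X) := H14.pCore_isPGroup q X
  have hM : IsPGroup q (D.comap (QuotientGroup.mk' (Cfsg.pCore q X))) := by
    rintro ⟨z, hz⟩
    have h1 : z ^ q ∈ Cfsg.pCore q X := by
      have h2 := hDq _ hz
      rw [← map_pow, QuotientGroup.mk'_apply, QuotientGroup.eq_one_iff] at h2
      exact h2
    obtain ⟨k, hk⟩ := hPp ⟨z ^ q, h1⟩
    refine ⟨k + 1, Subtype.ext ?_⟩
    have h3 : (z ^ q) ^ q ^ k = 1 := by
      have := congrArg Subtype.val hk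
      simpa using this
    show z ^ q ^ (k + 1) = 1
    rw [pow_succ', pow_mul]; exact h3
  have hle : D.comap (QuotientGroup.mk' (Cfsg.pCore q X)) ≤ Cfsg.pCore q X :=
    H14.le_pCore (hDn.comap _) hM
  apply hDbot
  rw [Subgroup.eq_bot_iff_forall]
  intro x hx
  obtain ⟨z, rfl⟩ := QuotientGroup.mk_surjective x
  have h4 : z ∈ Cfsg.pCore q X := hle hx
  exact (QuotientGroup.eq_one_iff z).2 h4

/-- Higman: a finite solvable group all of whose elements have prime power order has order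
divisible by at most two primes. -/
theorem higman_solvable_cp {X : Type*} [Group X] [Finite X] [Group.IsSolvable X] (hCP : IsCP X) :
    (Nat.card X).primeFactors.card ≤ 2 := by
  classical
  rcases subsingleton_or_nontrivial X with hsub | hnt
  · have h1 : Nat.card X = 1 := Nat.card_eq_one_iff_unique.2 ⟨hsub, ⟨1⟩⟩
    rw [h1]; simp
  obtain ⟨p, N, hp, hNn, hNbot, hNab, hNexp⟩ := exists_normal_elem_ab (Q := X)
  have hpf : Fact p.Prime := ⟨hp⟩
  have hNp : IsPGroup p N := isPGroup_of_exponent hNexp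
  have hPn : (Cfsg.pCore p X).Normal := H14.pCore_normal p X
  have hPp : IsPGroup p (Cfsg.pCore p X) := H14.pCore_isPGroup p X
  by_cases hPtop : Cfsg.pCore p X = ⊤
  · have hX : IsPGroup p X := by
      intro x
      obtain ⟨k, hk⟩ := hPp ⟨x, by rw [hPtop]; exact Subgroup.mem_top x⟩
      refine ⟨k, ?_⟩
      have := congrArg Subtype.val hk
      simpa using this
    obtain ⟨n, hn⟩ := IsPGroup.iff_card.1 hX
    rw [hn]
    have hsub1 : (p ^ n).primeFactors ⊆ {p} := by
      intro r hr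
      rw [Nat.mem_primeFactors] at hr
      rw [Finset.mem_singleton]
      exact (Nat.prime_dvd_prime_iff_eq hr.1 hp).1 (hr.1.dvd_of_dvd_pow hr.2.1)
    calc (p ^ n).primeFactors.card ≤ ({p} : Finset ℕ).card := Finset.card_le_card hsub1
      _ ≤ 2 := by simp
  · have hnt2 : Nontrivial (X ⧸ Cfsg.pCore p X) := QuotientGroup.nontrivial_iff.2 hPtop
    obtain ⟨q, D, hq, hDn, hDbot, hDab, hDexp⟩ := exists_normal_elem_ab (Q := X ⧸ Cfsg.pCore p X)
    have hqp : q ≠ p := ne_of_exponent_quot_pCore D hDn hDbot hDexp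
    obtain ⟨a, ha, hsup⟩ :=
      cp_config hCP N hNbot hNab hNp (Cfsg.pCore p X) hPp hq hqp D hDbot hDab hDexp
    have hMn : (D.comap (QuotientGroup.mk' (Cfsg.pCore p X))).Normal := hDn.comap _
    have hdvd : Nat.card X ∣ Nat.card (D.comap (QuotientGroup.mk' (Cfsg.pCore p X))) *
        Nat.card (Subgroup.normalizer (Subgroup.zpowers a : Set X)) := by
      have h1 := H14.card_sup_dvd_of_normal_left (D.comap (QuotientGroup.mk' (Cfsg.pCore p X)))
        (Subgroup.normalizer (Subgroup.zpowers a : Set X))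
      rw [sup_comm, hsup, Subgroup.card_top] at h1
      exact h1
    have key : ∀ (r : ℕ), r.Prime → ∀ (S : Subgroup X),
        (∀ z ∈ S, ∃ k : ℕ, orderOf z = p ^ k ∨ orderOf z = q ^ k) → r ∣ Nat.card S →
        r = p ∨ r = q := by
      intro r hrp S hS hrS
      have hrf : Fact r.Prime := ⟨hrp⟩
      obtain ⟨z, hz⟩ := exists_prime_orderOf_dvd_card' r hrS
      obtain ⟨k, hk⟩ := hS z.1 z.2
      rw [Subgroup.orderOf_coe, hz] at hk
      rcases hk with hk | hk
      · left
        have h3 : r ∣ p ^ k := by rw [← hk]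
        exact (Nat.prime_dvd_prime_iff_eq hrp hp).1 (hrp.dvd_of_dvd_pow h3)
      · right
        have h3 : r ∣ q ^ k := by rw [← hk]
        exact (Nat.prime_dvd_prime_iff_eq hrp hq).1 (hrp.dvd_of_dvd_pow h3)
    have hsub : (Nat.card X).primeFactors ⊆ {p, q} := by
      intro r hr
      rw [Nat.mem_primeFactors] at hr
      obtain ⟨hrp, hrd, _⟩ := hr
      have h2 := (Nat.Prime.dvd_mul hrp).1 (hrd.trans hdvd)
      rw [Finset.mem_insert, Finset.mem_singleton]
      rcases h2 with h2 | h2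
      · exact key r hrp _
          (fun z hz => cp_comap_orders hCP hp hq (Cfsg.pCore p X) hPp D hDexp hz) h2
      · exact key r hrp _
          (fun z hz => cp_normalizer_orders hCP N hNbot hNab hNp hq hqp ha hz) h2
    calc (Nat.card X).primeFactors.card ≤ ({p, q} : Finset ℕ).card := Finset.card_le_card hsub
      _ ≤ 2 := Finset.card_le_two

end Cfsg.Agent.H71
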