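import Mathlib
import Cfsg.Agent.H71.CPD

set_option autoImplicit false
set_option linter.unusedSectionVars false

namespace Cfsg.Agent.H71

/-- A `p`-group (as a type) is solvable. -/
theorem solvable_of_isPGroup {K : Type*} [Group K] [Finite K] {p : ℕ} (hp : p.Prime)
    (h : IsPGroup p K) : Group.IsSolvable K := by
  have hpf : Fact p.Prime := ⟨hp⟩
  have h1 : Group.IsNilpotent K := h.isNilpotent
  infer_instance

/-- The normalizer of a subgroup of prime order in a CP-group is solvable. -/
theorem cp_normalizer_solvable {G : Type*} [Group G] [Finite G] (hCP : IsCP G) {q : ℕ}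
    (hq : q.Prime) {a : G} (ha : orderOf a = q) :
    Group.IsSolvable (Subgroup.normalizer (Subgroup.zpowers a : Set G)) := by
  classical
  have hqf : Fact q.Prime := ⟨hq⟩
  have hker : IsPGroup q (Subgroup.zpowers a).normalizerMonoidHom.ker := by
    rw [IsPGroup.iff_orderOf]
    rintro ⟨c, hc⟩
    rw [Subgroup.normalizerMonoidHom_ker, Subgroup.mem_subgroupOf,
      Subgroup.mem_centralizer_iff] at hc
    have hc' : (c : G) * a = a * c := (hc a (Subgroup.mem_zpowers a)).symm
    obtain ⟨k, hk⟩ := cp_centralizer hCP hq ha hc'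
    exact ⟨k, by rw [Subgroup.orderOf_mk, Subgroup.orderOf_coe] at *; exact hk⟩
  apply solvable_of_normal_comm (Subgroup.zpowers a).normalizerMonoidHom.ker
    (solvable_of_isPGroup hq hker)
  intro u v
  rw [MonoidHom.mem_ker, map_mul, map_inv, map_mul, map_mul]
  have hcomm : ∀ x y : MulAut (Subgroup.zpowers a), x * y = y * x := by
    intro x y
    apply (IsCyclic.mulAutMulEquiv (Subgroup.zpowers a)).injective
    rw [map_mul, map_mul, mul_comm]
  rw [hcomm ((Subgroup.zpowers a).normalizerMonoidHom v), inv_mul_cancel]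

/-- In a non-solvable finite CP-group, every solvable normal subgroup is a `p`-group. -/
theorem cp_radical_pgroup {G : Type*} [Group G] [Finite G] (hCP : IsCP G)
    (hns : ¬ Group.IsSolvable G) (R : Subgroup G) [hRn : R.Normal] (hRs : Group.IsSolvable R) :
    ∃ p : ℕ, p.Prime ∧ IsPGroup p R := by
  classical
  by_cases hRbot : R = ⊥
  · refine ⟨2, Nat.prime_two, ?_⟩
    rw [hRbot]; exact IsPGroup.of_bot
  obtain ⟨p, N, hp, hNn, hNbot, hNR, hNab, hNexp⟩ := exists_normal_elem_ab_in R hRbot hRs
  have hpf : Fact p.Prime := ⟨hp⟩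
  have hNp : IsPGroup p N := isPGroup_of_exponent hNexp
  have hPn : (Cfsg.pCore p G).Normal := H14.pCore_normal p G
  have hPp : IsPGroup p (Cfsg.pCore p G) := H14.pCore_isPGroup p G
  refine ⟨p, hp, ?_⟩
  by_contra hRp
  have hRbarn : (R.map (QuotientGroup.mk' (Cfsg.pCore p G))).Normal :=
    Subgroup.Normal.map hRn _ (QuotientGroup.mk'_surjective _)
  have hRbarbot : R.map (QuotientGroup.mk' (Cfsg.pCore p G)) ≠ ⊥ := by
    intro h
    apply hRp
    have hle : R ≤ Cfsg.pCore p G := by
      intro x hx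
      have h1 : (QuotientGroup.mk' (Cfsg.pCore p G) x) ∈
          R.map (QuotientGroup.mk' (Cfsg.pCore p G)) := Subgroup.mem_map_of_mem _ hx
      rw [h, Subgroup.mem_bot, QuotientGroup.mk'_apply, QuotientGroup.eq_one_iff] at h1
      exact h1
    exact hPp.to_le hle
  have hRbars : Group.IsSolvable (R.map (QuotientGroup.mk' (Cfsg.pCore p G))) :=
    Group.isSolvable_of_surjective
      ((QuotientGroup.mk' (Cfsg.pCore p G)).subgroupMap_surjective R)
  obtain ⟨q, D, hq, hDn, hDbot, hDR, hDab, hDexp⟩ :=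
    exists_normal_elem_ab_in (R.map (QuotientGroup.mk' (Cfsg.pCore p G))) hRbarbot hRbars
  have hqp : q ≠ p := ne_of_exponent_quot_pCore D hDn hDbot hDexp
  obtain ⟨a, ha, hsup⟩ :=
    cp_config hCP N hNbot hNab hNp (Cfsg.pCore p G) hPp hq hqp D hDbot hDab hDexp
  have hMn : (D.comap (QuotientGroup.mk' (Cfsg.pCore p G))).Normal := hDn.comap _
  have hKs : Group.IsSolvable (Subgroup.normalizer (Subgroup.zpowers a : Set G)) :=
    cp_normalizer_solvable hCP hq ha
  have hMs : Group.IsSolvable (D.comap (QuotientGroup.mk' (Cfsg.pCore p G))) := by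
    apply solvable_of_normal_comm
      ((Cfsg.pCore p G).subgroupOf (D.comap (QuotientGroup.mk' (Cfsg.pCore p G))))
    · apply solvable_of_isPGroup hp
      exact hPp.comap_subtype
    · intro u v
      rw [Subgroup.mem_subgroupOf]
      have hc := hDab _ u.2 _ v.2
      have h1 : ((((u : G) * (v : G))⁻¹ * ((v : G) * (u : G)) : G) : G ⧸ Cfsg.pCore p G) = 1 := by
        rw [QuotientGroup.mk_mul, QuotientGroup.mk_inv, QuotientGroup.mk_mul,
          QuotientGroup.mk_mul]
        have hc' : ((u : G) : G ⧸ Cfsg.pCore p G) * ((v : G) : G ⧸ Cfsg.pCore p G) =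
            ((v : G) : G ⧸ Cfsg.pCore p G) * ((u : G) : G ⧸ Cfsg.pCore p G) := hc
        rw [hc', inv_mul_cancel]
      exact (QuotientGroup.eq_one_iff _).1 h1
  exact hns (solvable_of_sup_eq_top _ _ hMs hKs hsup)

end Cfsg.Agent.H71
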