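import Mathlib
import Cfsg.Agent.H71.CPE

set_option autoImplicit false
set_option linter.unusedSectionVars false

namespace Cfsg.Agent.H71

/-- In a CP-group, if two subgroups commute elementwise and the first is nontrivial, the second
is a `p`-group. -/
theorem cp_commuting_subgroups {X : Type*} [Group X] [Finite X] (hCP : IsCP X)
    (S₁ S₂ : Subgroup X) (hcomm : ∀ a ∈ S₁, ∀ b ∈ S₂, a * b = b * a) (h1 : S₁ ≠ ⊥) :
    ∃ p : ℕ, p.Prime ∧ IsPGroup p S₂ := by
  obtain ⟨⟨a, ha⟩, ha1⟩ := Subgroup.ne_bot_iff_exists_ne_one.1 h1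
  have ha1' : a ≠ 1 := fun h => ha1 (Subtype.ext h)
  obtain ⟨p, k, hp, hk, hpk⟩ := hCP a ha1'
  have hp' : p.Prime := Nat.prime_iff.2 hp
  have hpf : Fact p.Prime := ⟨hp'⟩
  refine ⟨p, hp', ?_⟩
  rw [IsPGroup.iff_orderOf]
  rintro ⟨b, hb⟩
  rw [Subgroup.orderOf_mk]
  by_cases hb1 : b = 1
  · exact ⟨0, by rw [hb1, orderOf_one, pow_zero]⟩
  obtain ⟨r, j, hr, hj, hrj⟩ := hCP b hb1
  have hr' : r.Prime := Nat.prime_iff.2 hr
  by_cases hrp : r = p
  · exact ⟨j, by rw [← hrj, hrp]⟩
  · exfalso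
    have hcop : (orderOf a).Coprime (orderOf b) := by
      rw [← hpk, ← hrj]
      exact Nat.Coprime.pow _ _ ((Nat.coprime_primes hp' hr').2 (Ne.symm hrp))
    rcases cp_comm hCP (hcomm a ha b hb) hcop with h | h
    · exact ha1' h
    · exact hb1 h

/-- A nontrivial normal subgroup of a finite group contains a minimal normal subgroup. -/
theorem exists_minimal_normal_le {Y : Type*} [Group Y] [Finite Y] (T : Subgroup Y)
    (hT : T.Normal) (hTb : T ≠ ⊥) :
    ∃ M : Subgroup Y, M.Normal ∧ M ≠ ⊥ ∧ M ≤ T ∧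
      ∀ N : Subgroup Y, N.Normal → N ≠ ⊥ → N ≤ M → N = M := by
  classical
  have hex : ∃ n, ∃ M : Subgroup Y, M.Normal ∧ M ≠ ⊥ ∧ M ≤ T ∧ Nat.card M = n :=
    ⟨_, T, hT, hTb, le_rfl, rfl⟩
  obtain ⟨M, hMn, hMbot, hMT, hMcard⟩ := Nat.find_spec hex
  refine ⟨M, hMn, hMbot, hMT, ?_⟩
  intro N hN hNb hNM
  have h1 : Nat.card M ≤ Nat.card N := by
    rw [hMcard]
    exact Nat.find_min' hex ⟨N, hN, hNb, hNM.trans hMT, rfl⟩
  exact Subgroup.eq_of_le_of_card_ge hNM h1

/-- A finite nontrivial CP-group with trivial solvable radical has a unique minimal normal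
subgroup, which is non-abelian simple. -/
theorem cp_min_normal_simple {Y : Type*} [Group Y] [Finite Y] [Nontrivial Y] (hCP : IsCP Y)
    (hrad : ∀ N : Subgroup Y, N.Normal → Group.IsSolvable N → N = ⊥) :
    ∃ M : Subgroup Y, M.Normal ∧ IsSimpleGroup M ∧ ¬ IsMulCommutative M ∧
      ∀ N : Subgroup Y, N.Normal → N ≠ ⊥ → M ≤ N := by
  classical
  have hpg : ∀ (p : ℕ) (N : Subgroup Y), p.Prime → N.Normal → IsPGroup p N → N = ⊥ :=
    fun p N hp hN hNp => hrad N hN (solvable_of_isPGroup hp hNp)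
  have htop : (⊤ : Subgroup Y) ≠ ⊥ := by
    intro h
    obtain ⟨y, hy⟩ := exists_ne (1 : Y)
    have h1 : y ∈ (⊤ : Subgroup Y) := Subgroup.mem_top y
    rw [h, Subgroup.mem_bot] at h1
    exact hy h1
  obtain ⟨M, hMn, hMbot, -, hMmin⟩ :=
    exists_minimal_normal_le (⊤ : Subgroup Y) inferInstance htop
  have huniq : ∀ N : Subgroup Y, N.Normal → N ≠ ⊥ → M ≤ N := by
    intro N hN hNb
    by_cases hMN : M ⊓ N = ⊥
    · exfalso
      have hdis : Disjoint M N := disjoint_iff.2 hMN
      have hcomm : ∀ a ∈ M, ∀ b ∈ N, a * b = b * a := fun a ha b hb =>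
        (Subgroup.commute_of_normal_of_disjoint M N hMn hN hdis a b ha hb).eq
      obtain ⟨p, hp, hNp⟩ := cp_commuting_subgroups hCP M N hcomm hMbot
      exact hNb (hpg p N hp hN hNp)
    · have h1 := hMmin (M ⊓ N) (Subgroup.normal_inf_normal M N) hMN inf_le_left
      exact (le_of_eq h1.symm).trans inf_le_right
  refine ⟨M, hMn, ?_, ?_, huniq⟩
  · have hntM : Nontrivial M := (Subgroup.nontrivial_iff_ne_bot M).2 hMbot
    have hCPM : IsCP M := by
      intro g hg
      rw [← Subgroup.orderOf_coe]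
      exact hCP g (fun h => hg (Subtype.ext h))
    refine ⟨fun T hT => ?_⟩
    by_contra hcon
    push Not at hcon
    obtain ⟨hTbot, hTtop⟩ := hcon
    obtain ⟨T₀, hT₀n, hT₀bot, hT₀T, hT₀min⟩ := exists_minimal_normal_le T hT hTbot
    have hU : ∀ g : Y, (T₀.map (MulAut.conjNormal g : M ≃* M).toMonoidHom).Normal :=
      fun g => Subgroup.Normal.map hT₀n _ (MulEquiv.surjective _)
    have hUcard : ∀ g : Y,
        Nat.card (T₀.map (MulAut.conjNormal g : M ≃* M).toMonoidHom) = Nat.card T₀ :=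
      fun g => Subgroup.card_map_of_injective (MulEquiv.injective _)
    by_cases hall : ∀ g : Y, T₀ ⊓ T₀.map (MulAut.conjNormal g : M ≃* M).toMonoidHom ≠ ⊥
    · have heq : ∀ g : Y, T₀.map (MulAut.conjNormal g : M ≃* M).toMonoidHom = T₀ := by
        intro g
        have h1 := hT₀min (T₀ ⊓ T₀.map (MulAut.conjNormal g : M ≃* M).toMonoidHom)
          (Subgroup.normal_inf_normal _ _) (hall g) inf_le_left
        have h2 : T₀ ≤ T₀.map (MulAut.conjNormal g : M ≃* M).toMonoidHom :=
          (le_of_eq h1.symm).trans inf_le_right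
        exact (Subgroup.eq_of_le_of_card_ge h2 (le_of_eq (hUcard g))).symm
      have hnorm : (T₀.map M.subtype).Normal := by
        constructor
        intro x hx g
        obtain ⟨t, ht, rfl⟩ := hx
        refine ⟨MulAut.conjNormal g t, ?_, ?_⟩
        · have h3 : MulAut.conjNormal g t ∈
              T₀.map (MulAut.conjNormal g : M ≃* M).toMonoidHom := ⟨t, ht, rfl⟩
          rw [heq g] at h3; exact h3
        · simp [MulAut.conjNormal_apply]
      have hne : T₀.map M.subtype ≠ ⊥ := by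
        intro h
        apply hT₀bot
        exact (Subgroup.map_eq_bot_iff_of_injective _ M.subtype_injective).1 h
      have hle := huniq _ hnorm hne
      apply hTtop
      rw [eq_top_iff]
      intro m _
      obtain ⟨t, ht, hte⟩ := hle m.2
      have h4 : t = m := Subtype.ext hte
      rw [← h4]; exact hT₀T ht
    · push Not at hall
      obtain ⟨g, hg⟩ := hall
      have hdis : Disjoint (T₀.map (MulAut.conjNormal g : M ≃* M).toMonoidHom) T₀ :=
        disjoint_iff.2 (by rw [inf_comm]; exact hg)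
      have hcomm : ∀ a ∈ T₀.map (MulAut.conjNormal g : M ≃* M).toMonoidHom, ∀ b ∈ T₀,
          a * b = b * a := fun a ha b hb =>
        (Subgroup.commute_of_normal_of_disjoint _ _ (hU g) hT₀n hdis a b ha hb).eq
      have hUbot : T₀.map (MulAut.conjNormal g : M ≃* M).toMonoidHom ≠ ⊥ := by
        intro h
        exact hT₀bot ((Subgroup.map_eq_bot_iff_of_injective _ (MulEquiv.injective _)).1 h)
      obtain ⟨p, hp, hT₀p⟩ := cp_commuting_subgroups hCPM _ T₀ hcomm hUbot
      have hle : T₀ ≤ Cfsg.pCore p M := H14.le_pCore hT₀n hT₀p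
      have hnorm : ((Cfsg.pCore p M).map M.subtype).Normal := by
        constructor
        intro x hx g'
        obtain ⟨t, ht, rfl⟩ := hx
        refine ⟨MulAut.conjNormal g' t, ?_, ?_⟩
        · have h3 : MulAut.conjNormal g' t ∈
              (Cfsg.pCore p M).map (MulAut.conjNormal g' : M ≃* M).toMonoidHom := ⟨t, ht, rfl⟩
          rw [H14.pCore_map_equiv p (MulAut.conjNormal g' : M ≃* M)] at h3; exact h3
        · simp [MulAut.conjNormal_apply]
      have hpc : IsPGroup p ((Cfsg.pCore p M).map M.subtype) :=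
        (H14.pCore_isPGroup p M).map _
      have hbot := hpg p _ hp hnorm hpc
      have hbot' : Cfsg.pCore p M = ⊥ :=
        (Subgroup.map_eq_bot_iff_of_injective _ M.subtype_injective).1 hbot
      apply hT₀bot
      rw [eq_bot_iff, ← hbot']; exact hle
  · intro hc
    apply hMbot
    apply hrad M hMn
    exact Group.isSolvable_of_comm (fun a b => hc.is_comm.comm a b)

end Cfsg.Agent.H71
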