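import Mathlib

/-!
# Piece S5876-D (helper71, for helper17)

In a finite group `G` with a maximal abelian normal subgroup `A`, every element `y ∉ A` of a
nilpotent normal subgroup `H ≥ A` centralizing `A` has a nontrivial commutator
`y⁻¹ w⁻¹ y w ∈ A` with some `w ∈ H`.
-/

set_option autoImplicit false

namespace Cfsg.Agent.H71.Fp

variable {G : Type*} [Group G]

/-- the centralizer of a conjugation-invariant set is normal -/
theorem centralizer_normal_of_conj_inv (S : Set G) (hS : ∀ s ∈ S, ∀ x : G, x⁻¹ * s * x ∈ S) :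
    (Subgroup.centralizer S).Normal := by
  refine ⟨fun g hg x => ?_⟩
  rw [Subgroup.mem_centralizer_iff] at hg ⊢
  intro h hh
  have h1 := hg (x⁻¹ * h * x) (hS h hh x)
  calc h * (x * g * x⁻¹) = x * (x⁻¹ * h * x * g) * x⁻¹ := by group
    _ = x * (g * (x⁻¹ * h * x)) * x⁻¹ := by rw [h1]
    _ = x * g * x⁻¹ * h := by group

/-- step (1): the elements of `H` commuting with all of `H` lie in `A` -/
theorem central_mem_of_max (A : Subgroup G)
    (hmax : ∀ B : Subgroup G, B.Normal → (∀ a ∈ B, ∀ b ∈ B, a * b = b * a) → A ≤ B → B ≤ A)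
    (H : Subgroup G) (hHn : H.Normal) (hAH : A ≤ H) (hHA : ∀ h ∈ H, ∀ a ∈ A, h * a = a * h)
    (z : G) (hz : z ∈ H) (hzc : ∀ h ∈ H, h * z = z * h) : z ∈ A := by
  have hcn : (Subgroup.centralizer (H : Set G)).Normal :=
    centralizer_normal_of_conj_inv _ fun s hs x => by
      have := hHn.conj_mem s hs x⁻¹
      rwa [inv_inv] at this
  have hZn : (H ⊓ Subgroup.centralizer (H : Set G)).Normal := by
    have := hHn
    have := hcn
    exact Subgroup.normal_inf_normal _ _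
  refine hmax (H ⊓ Subgroup.centralizer (H : Set G)) hZn ?_ ?_
    (Subgroup.mem_inf.mpr ⟨hz, Subgroup.mem_centralizer_iff.mpr hzc⟩)
  · intro a ha b hb
    exact Subgroup.mem_centralizer_iff.mp (Subgroup.mem_inf.mp hb).2 a (Subgroup.mem_inf.mp ha).1
  · intro a ha
    exact Subgroup.mem_inf.mpr ⟨hAH ha, Subgroup.mem_centralizer_iff.mpr fun h hh => hHA h hh a ha⟩

/-- step (2): a nilpotent `H` not inside `A` has an element outside `A` central modulo `A` -/
theorem exists_central_mod (A : Subgroup G) (hAn : A.Normal) (H : Subgroup G)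
    (hHnil : Group.IsNilpotent H) (y : G) (hy : y ∈ H) (hyA : y ∉ A) :
    ∃ u ∈ H, u ∉ A ∧ ∀ h ∈ H, u⁻¹ * (h⁻¹ * u * h) ∈ A := by
  classical
  obtain ⟨n, hn⟩ := hHnil.nilpotent'
  have hex : ∃ m, ¬ ∀ x ∈ Subgroup.upperCentralSeries H m, (x : G) ∈ A := by
    refine ⟨n, fun h => hyA (h ⟨y, hy⟩ (by rw [hn]; exact Subgroup.mem_top _))⟩
  have hm := Nat.find_spec hex
  obtain ⟨k, hk⟩ : ∃ k, Nat.find hex = k + 1 := by
    refine Nat.exists_eq_succ_of_ne_zero ?_
    intro h0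
    rw [h0] at hm
    apply hm
    intro x hx
    rw [Subgroup.upperCentralSeries_zero, Subgroup.mem_bot] at hx
    rw [hx, Subgroup.coe_one]
    exact A.one_mem
  have hPk : ∀ x ∈ Subgroup.upperCentralSeries H k, (x : G) ∈ A := by
    have := Nat.find_min hex (m := k) (by omega)
    exact not_not.mp this
  rw [hk] at hm
  push Not at hm
  obtain ⟨u, hu, huA⟩ := hm
  refine ⟨u, u.2, huA, fun h hh => ?_⟩
  rw [Subgroup.mem_upperCentralSeries_succ_iff] at hu
  have h1 := hPk _ (hu ⟨h, hh⟩⁻¹)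
  have h2 : (u : G) * h⁻¹ * (u : G)⁻¹ * h ∈ A := by
    simpa [commutatorElement_def] using h1
  have h3 := A.inv_mem h2
  have h4 := hAn.conj_mem _ h3 (u : G)⁻¹
  have h5 : (u : G)⁻¹ * ((u : G) * h⁻¹ * (u : G)⁻¹ * h)⁻¹ * ((u : G)⁻¹)⁻¹ =
      (u : G)⁻¹ * (h⁻¹ * u * h) := by group
  rw [h5] at h4
  exact h4

theorem comm_of_conj_mul_eq_one {y w : G} (h1 : y⁻¹ * (w⁻¹ * y * w) = 1) : w * y = y * w := by
  have h2 : w⁻¹ * y * w = y := by
    have := congrArg (fun t => y * t) h1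
    simpa using this
  calc w * y = w * (w⁻¹ * y * w) := by rw [h2]
    _ = y * w := by group

theorem nilpotent_comm_aux [Finite G] (A : Subgroup G) (hAn : A.Normal)
    (hmax : ∀ B : Subgroup G, B.Normal → (∀ a ∈ B, ∀ b ∈ B, a * b = b * a) → A ≤ B → B ≤ A) :
    ∀ (n : ℕ) (H : Subgroup G), Nat.card H ≤ n → H.Normal → Group.IsNilpotent H → A ≤ H →
      (∀ h ∈ H, ∀ a ∈ A, h * a = a * h) → ∀ y ∈ H, y ∉ A →
      ∃ w ∈ H, y⁻¹ * (w⁻¹ * y * w) ∈ A ∧ y⁻¹ * (w⁻¹ * y * w) ≠ 1 := by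
  intro n
  induction n with
  | zero =>
    intro H hcard
    have := Nat.card_pos (α := H)
    omega
  | succ n ih =>
    intro H hcard hHn hHnil hAH hHA y hy hyA
    have hcen := central_mem_of_max A hmax H hHn hAH hHA
    obtain ⟨u₀, hu₀H, hu₀A, hu₀⟩ := exists_central_mod A hAn H hHnil y hy hyA
    by_cases hyS : ∀ h ∈ H, y⁻¹ * (h⁻¹ * y * h) ∈ A
    · -- case (i)
      have hnc : ¬ ∀ h ∈ H, h * y = y * h := fun hc => hyA (hcen y hy hc)
      push Not at hnc
      obtain ⟨w, hw, hwy⟩ := hnc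
      exact ⟨w, hw, hyS w hw, fun h1 => hwy (comm_of_conj_mul_eq_one h1)⟩
    · by_cases hii : ∃ u ∈ H, (∀ h ∈ H, u⁻¹ * (h⁻¹ * u * h) ∈ A) ∧ u * y ≠ y * u
      · -- case (ii)
        obtain ⟨u, huH, hu, huy⟩ := hii
        refine ⟨u, huH, ?_, fun h1 => huy (comm_of_conj_mul_eq_one h1)⟩
        have h1 := A.inv_mem (hu y hy)
        have h2 : (u⁻¹ * (y⁻¹ * u * y))⁻¹ = y⁻¹ * (u⁻¹ * y * u) := by group
        rw [h2] at h1
        exact h1
      · -- case (iii)
        push Not at hii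
        obtain ⟨S, hS⟩ : ∃ S : Set G, S = {u | u ∈ H ∧ ∀ h ∈ H, u⁻¹ * (h⁻¹ * u * h) ∈ A} :=
          ⟨_, rfl⟩
        have hSmem : ∀ u, u ∈ S ↔ (u ∈ H ∧ ∀ h ∈ H, u⁻¹ * (h⁻¹ * u * h) ∈ A) := by
          intro u
          rw [hS]
          rfl
        have hSconj : ∀ s ∈ S, ∀ x : G, x⁻¹ * s * x ∈ S := by
          intro s hs x
          rw [hSmem] at hs ⊢
          obtain ⟨hsH, hs⟩ := hs
          refine ⟨?_, fun h hh => ?_⟩
          · have := hHn.conj_mem s hsH x⁻¹
            rwa [inv_inv] at this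
          · have h1 := hs (x * h * x⁻¹) (hHn.conj_mem h hh x)
            have h2 := hAn.conj_mem _ h1 x⁻¹
            have h3 : x⁻¹ * (s⁻¹ * ((x * h * x⁻¹)⁻¹ * s * (x * h * x⁻¹))) * x⁻¹⁻¹ =
                (x⁻¹ * s * x)⁻¹ * (h⁻¹ * (x⁻¹ * s * x) * h) := by group
            rw [h3] at h2
            exact h2
        have hCn := centralizer_normal_of_conj_inv S hSconj
        have hH'n : (H ⊓ Subgroup.centralizer S).Normal := by
          have := hHn
          have := hCn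
          exact Subgroup.normal_inf_normal _ _
        have hle : H ⊓ Subgroup.centralizer S ≤ H := inf_le_left
        have hH'nil : Group.IsNilpotent (H ⊓ Subgroup.centralizer S : Subgroup G) := by
          have := hHnil
          exact Group.nilpotent_of_mulEquiv (Subgroup.subgroupOfEquivOfLe hle)
        have hAH' : A ≤ H ⊓ Subgroup.centralizer S := by
          intro a ha
          exact Subgroup.mem_inf.mpr ⟨hAH ha, Subgroup.mem_centralizer_iff.mpr fun s hs =>
            hHA s ((hSmem s).mp hs).1 a ha⟩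
        have hyH' : y ∈ H ⊓ Subgroup.centralizer S := by
          exact Subgroup.mem_inf.mpr ⟨hy, Subgroup.mem_centralizer_iff.mpr fun s hs =>
            hii s ((hSmem s).mp hs).1 ((hSmem s).mp hs).2⟩
        have hcard' : Nat.card (H ⊓ Subgroup.centralizer S : Subgroup G) ≤ n := by
          have hnc : ¬ ∀ h ∈ H, h * u₀ = u₀ * h := fun hc => hu₀A (hcen u₀ hu₀H hc)
          push Not at hnc
          obtain ⟨h, hh, hhu⟩ := hnc
          by_contra hcon
          have heq := Subgroup.eq_of_le_of_card_ge hle (by omega)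
          have h1 : h ∈ H ⊓ Subgroup.centralizer S := by
            rw [heq]
            exact hh
          have h2 := Subgroup.mem_centralizer_iff.mp (Subgroup.mem_inf.mp h1).2 u₀
            ((hSmem u₀).mpr ⟨hu₀H, hu₀⟩)
          exact hhu h2.symm
        obtain ⟨w, hw, hwA, hw1⟩ := ih _ hcard' hH'n hH'nil hAH'
          (fun h hh a ha => hHA h (Subgroup.mem_inf.mp hh).1 a ha) y hyH' hyA
        exact ⟨w, (Subgroup.mem_inf.mp hw).1, hwA, hw1⟩

set_option linter.unusedVariables false in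
theorem nilpotent_comm_in_max_abelian {G : Type*} [Group G] [Finite G] (A : Subgroup G)
    (hAn : A.Normal) (hA : ∀ a ∈ A, ∀ b ∈ A, a * b = b * a)
    (hmax : ∀ B : Subgroup G, B.Normal → (∀ a ∈ B, ∀ b ∈ B, a * b = b * a) → A ≤ B → B ≤ A)
    (H : Subgroup G) (hHn : H.Normal) (hHnil : Group.IsNilpotent H) (hAH : A ≤ H)
    (hHA : ∀ h ∈ H, ∀ a ∈ A, h * a = a * h)
    (y : G) (hy : y ∈ H) (hyA : y ∉ A) :
    ∃ w ∈ H, y⁻¹ * (w⁻¹ * y * w) ∈ A ∧ y⁻¹ * (w⁻¹ * y * w) ≠ 1 :=
  nilpotent_comm_aux A hAn hmax (Nat.card H) H le_rfl hHn hHnil hAH hHA y hy hyA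

end Cfsg.Agent.H71.Fp
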