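import Mathlib
import Cfsg.Agent.H48.GUCDefs

/-!
# GUC-CAY (helper48's team project S2646): the generalized Cayley transform

For a unipotent matrix `u` with `adj σ u * u = 1` there is a hermitian matrix `s` with the same
commutant as `u` and `rank (s ^ j) = rank ((u - 1) ^ j)` for all `j`.
-/

set_option autoImplicit false

namespace Cfsg.Agent.H71.GUC

open Cfsg.Agent.H97.Herm Cfsg.Agent.H48.GUC

universe u

theorem adj_smul' {K : Type*} [Field K] {n : ℕ} (σ : K →+* K) (c : K)
    (M : Matrix (Fin n) (Fin n) K) : adj σ (c • M) = σ c • adj σ M := by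
  ext i j
  simp only [adj_apply, Matrix.smul_apply, smul_eq_mul, map_mul]

theorem adj_sub' {K : Type*} [Field K] {n : ℕ} (σ : K →+* K)
    (M N : Matrix (Fin n) (Fin n) K) : adj σ (M - N) = adj σ M - adj σ N := by
  ext i j
  simp only [adj_apply, Matrix.sub_apply, map_sub]

/-- **GUC-CAY**. -/
theorem cay : CayStmt.{u} := by
  intro K _ n σ hσ ω₀ hω₀ u hu m hm
  -- scalars
  obtain ⟨ε, hεdef⟩ : ∃ ε : K, ε = ω₀ - σ ω₀ := ⟨_, rfl⟩
  have hε0 : ε ≠ 0 := by
    rw [hεdef]
    intro h
    exact hω₀ (sub_eq_zero.mp h).symm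
  have hσε : σ ε = -ε := by
    rw [hεdef, map_sub, hσ]
    ring
  obtain ⟨l, hldef⟩ : ∃ l : K, l = ω₀ * ε⁻¹ := ⟨_, rfl⟩
  obtain ⟨μ, hμdef⟩ : ∃ μ : K, μ = σ l := ⟨_, rfl⟩
  have hσμ : σ μ = l := by rw [hμdef, hσ]
  have hlμ : l + μ = 1 := by
    rw [hμdef, hldef, map_mul, map_inv₀, hσε]
    have : ω₀ * ε⁻¹ + σ ω₀ * (-ε)⁻¹ = (ω₀ - σ ω₀) * ε⁻¹ := by
      rw [inv_neg]
      ring
    rw [this, ← hεdef, mul_inv_cancel₀ hε0]
  -- matrices
  obtain ⟨v, hvdef⟩ : ∃ v, v = adj σ u := ⟨_, rfl⟩
  have hvu : v * u = 1 := by rw [hvdef]; exact hu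
  have huv : u * v = 1 := mul_eq_one_comm.mp hvu
  obtain ⟨X, hXdef⟩ : ∃ X, X = u - 1 := ⟨_, rfl⟩
  obtain ⟨D, hDdef⟩ : ∃ D, D = l • (1 : Matrix (Fin n) (Fin n) K) + μ • u := ⟨_, rfl⟩
  have hD1 : D = 1 + μ • X := by
    rw [hDdef, hXdef, smul_sub]
    calc l • (1 : Matrix (Fin n) (Fin n) K) + μ • u
        = (l + μ) • (1 : Matrix (Fin n) (Fin n) K) + (μ • u - μ • 1) := by
          rw [add_smul]
          abel
      _ = 1 + (μ • u - μ • 1) := by rw [hlμ, one_smul]
  have hXnil : IsNilpotent X := ⟨m, by rw [hXdef]; exact hm⟩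
  have hDunit : IsUnit D := by
    rw [hD1]
    exact (hXnil.smul μ).isUnit_one_add
  obtain ⟨Du, hDu⟩ := hDunit
  obtain ⟨D', hD'def⟩ : ∃ D' : Matrix (Fin n) (Fin n) K,
      D' = ((Du⁻¹ : (Matrix (Fin n) (Fin n) K)ˣ) : Matrix (Fin n) (Fin n) K) := ⟨_, rfl⟩
  have hDD' : D * D' = 1 := by
    rw [← hDu, hD'def]
    exact Units.mul_inv Du
  have hD'D : D' * D = 1 := by
    rw [← hDu, hD'def]
    exact Units.inv_mul Du
  -- commutation
  have hXu : X * u = u * X := by
    rw [hXdef]
    simp [sub_mul, mul_sub]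
  have hXD : X * D = D * X := by
    rw [hDdef]
    simp only [mul_add, add_mul, Matrix.mul_smul, Matrix.smul_mul, mul_one, one_mul, hXu]
  have hXD' : X * D' = D' * X := by
    calc X * D' = (D' * D) * X * D' := by rw [hD'D, one_mul]
      _ = D' * (D * X) * D' := by simp only [mul_assoc]
      _ = D' * (X * D) * D' := by rw [hXD]
      _ = D' * X * (D * D') := by simp only [mul_assoc]
      _ = D' * X := by rw [hDD', mul_one]
  obtain ⟨W, hWdef⟩ : ∃ W, W = ε • D' := ⟨_, rfl⟩
  have hXW : X * W = W * X := by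
    rw [hWdef, Matrix.mul_smul, Matrix.smul_mul, hXD']
  have hWinv : W * (ε⁻¹ • D) = 1 := by
    rw [hWdef, Matrix.smul_mul, Matrix.mul_smul, smul_smul, hD'D, mul_inv_cancel₀ hε0, one_smul]
  have hWdet : IsUnit W.det := Matrix.isUnit_det_of_right_inverse hWinv
  refine ⟨X * W, ?_, ?_, ?_⟩
  · -- hermitian
    have hadjD : adj σ D = v * D := by
      rw [hDdef, adj_add, adj_smul', adj_smul', adj_one, ← hvdef, hσμ, ← hμdef]
      rw [mul_add, Matrix.mul_smul, Matrix.mul_smul, mul_one, hvu]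
      exact add_comm _ _
    have hadjD' : adj σ D' = D' * u := by
      have h1 : adj σ D' * adj σ D = 1 := by rw [← adj_mul, hDD', adj_one]
      have h2 : (v * D) * (D' * u) = 1 := by
        calc (v * D) * (D' * u) = v * (D * D') * u := by simp only [mul_assoc]
          _ = 1 := by rw [hDD', mul_one, hvu]
      calc adj σ D' = adj σ D' * ((v * D) * (D' * u)) := by rw [h2, mul_one]
        _ = (adj σ D' * adj σ D) * (D' * u) := by simp only [hadjD, mul_assoc]
        _ = D' * u := by rw [h1, one_mul]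
    have hadjX : adj σ X = v - 1 := by rw [hXdef, adj_sub', adj_one, hvdef]
    rw [adj_mul, hWdef, adj_smul', hσε, hadjD', hadjX]
    rw [Matrix.smul_mul, mul_assoc, mul_sub, huv, mul_one, Matrix.mul_smul, hXD', hXdef]
    rw [neg_smul, ← smul_neg, ← mul_neg, neg_sub]
  · -- commutant
    intro g
    have hsD : (X * W) * D = ε • X := by
      rw [hWdef, Matrix.mul_smul, Matrix.smul_mul, mul_assoc, hD'D, mul_one]
    obtain ⟨E, hEdef⟩ : ∃ E, E = ε • (1 : Matrix (Fin n) (Fin n) K) - μ • (X * W) := ⟨_, rfl⟩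
    have hEX : E * X = X * W := by
      have h1 : (X * W) + μ • ((X * W) * X) = ε • X := by
        rw [← hsD, hD1, mul_add, mul_one, Matrix.mul_smul]
      rw [hEdef, sub_mul, Matrix.smul_mul, one_mul, Matrix.smul_mul, ← h1]
      abel
    have hED : E * D = ε • (1 : Matrix (Fin n) (Fin n) K) := by
      rw [hEdef, sub_mul, Matrix.smul_mul, one_mul, Matrix.smul_mul, hsD, hD1, smul_add,
        smul_smul, smul_smul, mul_comm μ ε]
      abel
    have hEinv : (ε⁻¹ • D) * E = 1 := by
      apply mul_eq_one_comm.mp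
      rw [Matrix.mul_smul, hED, smul_smul, inv_mul_cancel₀ hε0, one_smul]
    constructor
    · intro hg
      have hgX : g * X = X * g := by rw [hXdef, mul_sub, sub_mul, hg, mul_one, one_mul]
      have hgD : g * D = D * g := by
        rw [hDdef, mul_add, add_mul, Matrix.mul_smul, Matrix.smul_mul, Matrix.mul_smul,
          Matrix.smul_mul, mul_one, one_mul, hg]
      have hgD' : g * D' = D' * g := by
        calc g * D' = (D' * D) * g * D' := by rw [hD'D, one_mul]
          _ = D' * (D * g) * D' := by simp only [mul_assoc]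
          _ = D' * (g * D) * D' := by rw [hgD]
          _ = D' * g * (D * D') := by simp only [mul_assoc]
          _ = D' * g := by rw [hDD', mul_one]
      calc g * (X * W) = (g * X) * W := by rw [mul_assoc]
        _ = X * (g * W) := by rw [hgX, mul_assoc]
        _ = X * (W * g) := by rw [hWdef, Matrix.mul_smul, Matrix.smul_mul, hgD']
        _ = X * W * g := by rw [mul_assoc]
    · intro hg
      have hgE : g * E = E * g := by
        rw [hEdef, mul_sub, sub_mul, Matrix.mul_smul, Matrix.smul_mul, Matrix.mul_smul,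
          Matrix.smul_mul, mul_one, one_mul, hg]
      have h1 : E * (g * X) = E * (X * g) := by
        calc E * (g * X) = (g * E) * X := by rw [hgE, mul_assoc]
          _ = g * (X * W) := by rw [mul_assoc, hEX]
          _ = (X * W) * g := hg
          _ = E * (X * g) := by rw [← hEX, mul_assoc]
      have hgX : g * X = X * g := by
        calc g * X = ((ε⁻¹ • D) * E) * (g * X) := by rw [hEinv, one_mul]
          _ = (ε⁻¹ • D) * (E * (g * X)) := by rw [mul_assoc]
          _ = (ε⁻¹ • D) * (E * (X * g)) := by rw [h1]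
          _ = ((ε⁻¹ • D) * E) * (X * g) := by rw [mul_assoc]
          _ = X * g := by rw [hEinv, one_mul]
      have hu' : u = X + 1 := by rw [hXdef]; abel
      rw [hu', mul_add, add_mul, hgX, mul_one, one_mul]
  · -- ranks
    intro j
    have hcomm : Commute X W := hXW
    rw [hcomm.mul_pow, ← hXdef]
    exact Matrix.rank_mul_eq_left_of_isUnit_det (W ^ j) (X ^ j)
      (by rw [Matrix.det_pow]; exact hWdet.pow j)

end Cfsg.Agent.H71.GUC
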