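import Mathlib

set_option autoImplicit false

namespace Cfsg.Agent.H71

open MulAction

/-- If all point stabilizers have the same order `s`, the group order divides `|X| * s`. -/
theorem ht_oc0 {B X : Type*} [Group B] [Finite B] [MulAction B X] [Finite X] (s : ℕ)
    (hs : ∀ x : X, Nat.card (MulAction.stabilizer B x) = s) : Nat.card B ∣ Nat.card X * s := by
  classical
  have : Fintype (Quotient (MulAction.orbitRel B X)) := Fintype.ofFinite _
  have e := MulAction.selfEquivSigmaOrbitsQuotientStabilizer B X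
  rw [Nat.card_congr e, Nat.card_sigma, Finset.sum_mul]
  have : ∀ ω : Quotient (MulAction.orbitRel B X),
      Nat.card (B ⧸ MulAction.stabilizer B ω.out) * s = Nat.card B := by
    intro ω
    rw [← hs ω.out]
    exact (Subgroup.card_eq_card_quotient_mul_card_subgroup _).symm
  rw [Finset.sum_congr rfl (fun ω _ => this ω), Finset.sum_const, smul_eq_mul]
  exact Dvd.intro_left _ rfl

/-- The stabilizer of a point in a subgroup, as a subgroup of the ambient group. -/
theorem ht_card_stab_sub {G Ω : Type*} [Group G] [MulAction G Ω] (B : Subgroup G) (t : Ω) :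
    Nat.card (MulAction.stabilizer ↥B t) = Nat.card ↥(B ⊓ MulAction.stabilizer G t) := by
  refine Nat.card_congr
    { toFun := fun g => ⟨g.1.1, Subgroup.mem_inf.mpr ⟨g.1.2, ?_⟩⟩
      invFun := fun g => ⟨⟨g.1, (Subgroup.mem_inf.mp g.2).1⟩, ?_⟩
      left_inv := fun g => rfl
      right_inv := fun g => rfl }
  · have h2 : g.1 • t = t := MulAction.mem_stabilizer_iff.mp g.2
    exact MulAction.mem_stabilizer_iff.mpr h2
  · have h2 : (g.1 : G) • t = t := MulAction.mem_stabilizer_iff.mp (Subgroup.mem_inf.mp g.2).2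
    exact MulAction.mem_stabilizer_iff.mpr h2

/-- Orbit counting for a subgroup acting on an invariant subset. -/
theorem ht_oc {G Ω : Type*} [Group G] [Finite G] [MulAction G Ω] [Finite Ω] (B : Subgroup G)
    (T : Set Ω) (hT : ∀ g ∈ B, ∀ t ∈ T, g • t ∈ T) (s : ℕ)
    (hs : ∀ t ∈ T, Nat.card ↥(B ⊓ MulAction.stabilizer G t) = s) :
    Nat.card ↥B ∣ Nat.card ↥T * s := by
  let p : SubMulAction ↥B Ω := { carrier := T, smul_mem' := fun g t ht => hT g.1 g.2 t ht }
  have h := ht_oc0 (B := ↥B) (X := ↥p) s (by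
    intro x
    rw [SubMulAction.stabilizer_of_subMul, ht_card_stab_sub]
    exact hs x.1 x.2)
  exact h

/-- The arithmetic core: a common divisor of `n` and `n - 1` is `1`. -/
theorem ht_arith (s n X Y q : ℕ) (hs : 0 < s) (hn : 0 < n) (hq : s ∣ q) (hX : q ∣ X) (hY : q ∣ Y)
    (h1 : X ∣ n * s) (h2 : Y ∣ (n - 1) * s) : q = s := by
  obtain ⟨j, rfl⟩ := hq
  obtain ⟨x, rfl⟩ := hX
  obtain ⟨y, rfl⟩ := hY
  obtain ⟨r, hr⟩ := h1
  obtain ⟨r', hr'⟩ := h2
  have e1 : n = j * (x * r) := by
    have : s * n = s * (j * (x * r)) := by rw [mul_comm s n, hr]; ring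
    exact Nat.eq_of_mul_eq_mul_left hs this
  have e2 : n - 1 = j * (y * r') := by
    have : s * (n - 1) = s * (j * (y * r')) := by rw [mul_comm s (n - 1), hr']; ring
    exact Nat.eq_of_mul_eq_mul_left hs this
  have d1 : j ∣ n := Dvd.intro _ e1.symm
  have d2 : j ∣ n - 1 := Dvd.intro _ e2.symm
  have d3 : j ∣ n - (n - 1) := Nat.dvd_sub d1 d2
  have : n - (n - 1) = 1 := by omega
  rw [this] at d3
  rw [Nat.dvd_one.mp d3, mul_one]

end Cfsg.Agent.H71
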