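import Mathlib
import Cfsg.Agent.H71.HalfTransA

set_option autoImplicit false

namespace Cfsg.Agent.H71

open MulAction

/-- Data of a permutation group with a regular subgroup `N`, all of whose two-point
stabilizers have the same order `s > 1`. -/
structure HT (G Ω : Type*) [Group G] [MulAction G Ω] (N : Subgroup G) (s : ℕ) : Prop where
  reg : ∀ c : Ω, ∀ n ∈ N, n • c = c → n = 1
  tr : ∀ c d : Ω, ∃ n ∈ N, n • c = d
  faith : ∀ g : G, (∀ c : Ω, g • c = c) → g = 1
  stab : ∀ c d : Ω, c ≠ d → Nat.card ↥(stabilizer G c ⊓ stabilizer G d) = s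
  one_lt : 1 < s

/-- the stabilizer of `x` in the point stabilizer, for the conjugation action -/
def htSt (G : Type*) [Group G] {Ω : Type*} [MulAction G Ω] (a : Ω) (x : G) : Subgroup G :=
  stabilizer G a ⊓ Subgroup.centralizer ({x} : Set G)

theorem ht_card_map_mul {G : Type*} [Group G] (N : Subgroup G) [N.Normal] (H : Subgroup G) :
    Nat.card (H.map (QuotientGroup.mk' N)) * Nat.card (N ⊓ H : Subgroup G) = Nat.card H := by
  have h1 : Nat.card (H.map (QuotientGroup.mk' N)) = N.relIndex H := by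
    rw [← Subgroup.relIndex_bot_left, ← Subgroup.relIndex_comap, MonoidHom.comap_bot,
      QuotientGroup.ker_mk']
  have h := Subgroup.relIndex_inf_mul_relIndex (⊥ : Subgroup G) N H
  rw [Subgroup.relIndex_bot_left, bot_inf_eq, Subgroup.relIndex_bot_left] at h
  rw [h1, mul_comm]
  exact h

section
variable {G Ω : Type*} [Group G] [MulAction G Ω] {N : Subgroup G} {s : ℕ}

theorem mem_htSt {a : Ω} {x g : G} : g ∈ htSt G a x ↔ g • a = a ∧ g * x = x * g := by
  simp [htSt, Subgroup.mem_inf, Subgroup.mem_centralizer_singleton_iff]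

theorem HT.cent_inf_stab [hN : N.Normal] (h : HT G Ω N s) {z : G} (hz : z ∈ N) (c : Ω) :
    Subgroup.centralizer ({z} : Set G) ⊓ stabilizer G c =
      stabilizer G c ⊓ stabilizer G (z • c) := by
  ext g
  simp only [Subgroup.mem_inf, Subgroup.mem_centralizer_singleton_iff,
    MulAction.mem_stabilizer_iff]
  constructor
  · rintro ⟨hgz, hgc⟩
    refine ⟨hgc, ?_⟩
    rw [smul_smul, hgz, mul_smul, hgc]
  · rintro ⟨hgc, hgzc⟩
    refine ⟨?_, hgc⟩
    have hn : z⁻¹ * (g * z * g⁻¹) ∈ N := N.mul_mem (N.inv_mem hz) (hN.conj_mem z hz g)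
    have hfix : (z⁻¹ * (g * z * g⁻¹)) • c = c := by
      have hg' : g⁻¹ • c = c := by rw [inv_smul_eq_iff, hgc]
      rw [mul_smul, mul_smul, mul_smul, hg', hgzc, inv_smul_smul]
    have h1 := h.reg c _ hn hfix
    have h2 : g * z * g⁻¹ = z := by
      have := inv_mul_eq_one.mp h1
      exact this.symm
    calc g * z = g * z * g⁻¹ * g := by group
      _ = z * g := by rw [h2]

theorem HT.card_cent_inf_stab [hN : N.Normal] (h : HT G Ω N s) {z : G} (hz : z ∈ N)
    (hz1 : z ≠ 1) (c : Ω) :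
    Nat.card ↥(Subgroup.centralizer ({z} : Set G) ⊓ stabilizer G c) = s := by
  rw [h.cent_inf_stab hz c]
  apply h.stab
  intro hc
  exact hz1 (h.reg c z hz hc.symm)

theorem HT.card_St [hN : N.Normal] (h : HT G Ω N s) (a : Ω) {x : G} (hx : x ∈ N) (hx1 : x ≠ 1) :
    Nat.card ↥(htSt G a x) = s := by
  unfold htSt
  rw [inf_comm]
  exact h.card_cent_inf_stab hx hx1 a

theorem HT.St_eq_of_le [Finite G] [hN : N.Normal] (h : HT G Ω N s) (a : Ω) {x y : G}
    (hx : x ∈ N) (hx1 : x ≠ 1) (hy : y ∈ N) (hy1 : y ≠ 1)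
    (hle : htSt G a x ≤ htSt G a y) : htSt G a x = htSt G a y :=
  Subgroup.eq_of_le_of_card_ge hle (by rw [h.card_St a hx hx1, h.card_St a hy hy1])

theorem HT.card_N (h : HT G Ω N s) (a : Ω) : Nat.card N = Nat.card Ω := by
  refine Nat.card_congr (Equiv.ofBijective (fun n : N => (n : G) • a) ⟨?_, ?_⟩)
  · intro n n' hnn
    have hnn' : (n : G) • a = (n' : G) • a := hnn
    have h1 : ((n' : G)⁻¹ * (n : G)) • a = a := by rw [mul_smul, hnn', inv_smul_smul]
    have h2 := h.reg a _ (N.mul_mem (N.inv_mem n'.2) n.2) h1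
    exact Subtype.ext (inv_mul_eq_one.mp h2).symm
  · intro c
    obtain ⟨n, hn, hnc⟩ := h.tr a c
    exact ⟨⟨n, hn⟩, hnc⟩

theorem HT.pretransitive (h : HT G Ω N s) : MulAction.IsPretransitive G Ω :=
  ⟨fun c d => by obtain ⟨n, _, hn⟩ := h.tr c d; exact ⟨n, hn⟩⟩

theorem HT.index_N [Finite G] [Finite Ω] (h : HT G Ω N s) (a : Ω) :
    N.index = Nat.card (stabilizer G a) := by
  have := h.pretransitive
  have h1 : (stabilizer G a).index * Nat.card (stabilizer G a) = Nat.card G :=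
    Subgroup.index_mul_card _
  rw [MulAction.index_stabilizer_of_transitive G a] at h1
  have h2 : Nat.card N * N.index = Nat.card G := Subgroup.card_mul_index N
  rw [h.card_N a] at h2
  have : Nonempty Ω := ⟨a⟩
  have hpos : 0 < Nat.card Ω := Nat.card_pos
  exact Nat.eq_of_mul_eq_mul_left hpos (h2.trans h1.symm)

theorem HT.card_stab_dvd [Finite G] [Finite Ω] (h : HT G Ω N s) (a : Ω) :
    Nat.card (stabilizer G a) ∣ (Nat.card Ω - 1) * s := by
  have key := ht_oc (stabilizer G a) ({a}ᶜ : Set Ω) (by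
    intro g hg t ht hgt
    apply ht
    have hga : g • a = a := hg
    have hgt' : g • t = a := hgt
    have : g • t = g • a := by rw [hgt', hga]
    exact smul_left_cancel g this) s (by
    intro t ht
    exact h.stab a t (fun hh => ht hh.symm))
  rwa [Nat.card_coe_set_eq, Set.ncard_compl, Set.ncard_singleton] at key

theorem HT.map_cent_eq [Finite G] [Finite Ω] [hN : N.Normal] (h : HT G Ω N s) (a : Ω) {z : G}
    (hz : z ∈ N) (hz1 : z ≠ 1) :
    (htSt G a z).map (QuotientGroup.mk' N) =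
      (Subgroup.centralizer ({z} : Set G)).map (QuotientGroup.mk' N) := by
  have hDC : htSt G a z ≤ Subgroup.centralizer ({z} : Set G) := inf_le_right
  have hle : (htSt G a z).map (QuotientGroup.mk' N) ≤
      (Subgroup.centralizer ({z} : Set G)).map (QuotientGroup.mk' N) := Subgroup.map_mono hDC
  have hDcard : Nat.card (htSt G a z) = s := h.card_St a hz hz1
  have hND : Nat.card (N ⊓ htSt G a z : Subgroup G) = 1 := by
    have : N ⊓ htSt G a z = ⊥ := by
      rw [eq_bot_iff]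
      intro g hg
      rw [Subgroup.mem_inf] at hg
      have hga : g • a = a := (mem_htSt.mp hg.2).1
      exact Subgroup.mem_bot.mpr (h.reg a g hg.1 hga)
    rw [this]; exact Subgroup.card_bot
  have hDmap : Nat.card ((htSt G a z).map (QuotientGroup.mk' N)) = s := by
    have := ht_card_map_mul N (htSt G a z)
    rw [hND, mul_one] at this
    rw [this, hDcard]
  have hCmap := ht_card_map_mul N (Subgroup.centralizer ({z} : Set G))
  have hoc : Nat.card (Subgroup.centralizer ({z} : Set G)) ∣ Nat.card Ω * s := by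
    have := ht_oc (Subgroup.centralizer ({z} : Set G)) (Set.univ : Set Ω)
      (fun _ _ _ _ => Set.mem_univ _) s (fun t _ => h.card_cent_inf_stab hz hz1 t)
    rwa [Nat.card_coe_set_eq, Set.ncard_univ] at this
  have hA := h.card_stab_dvd a
  have hq1 : s ∣ Nat.card ((Subgroup.centralizer ({z} : Set G)).map (QuotientGroup.mk' N)) := by
    rw [← hDmap]; exact Subgroup.card_dvd_of_le hle
  have hq2 : Nat.card ((Subgroup.centralizer ({z} : Set G)).map (QuotientGroup.mk' N)) ∣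
      Nat.card (Subgroup.centralizer ({z} : Set G)) := Dvd.intro _ hCmap
  have hq3 : Nat.card ((Subgroup.centralizer ({z} : Set G)).map (QuotientGroup.mk' N)) ∣
      Nat.card (stabilizer G a) := by
    have e : Nat.card (G ⧸ N) = Nat.card (stabilizer G a) := h.index_N a
    rw [← e]
    exact Subgroup.card_subgroup_dvd_card _
  have : Nonempty Ω := ⟨a⟩
  have hpos : 0 < Nat.card Ω := Nat.card_pos
  have := ht_arith s (Nat.card Ω) (Nat.card (Subgroup.centralizer ({z} : Set G)))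
    (Nat.card (stabilizer G a)) _ (lt_trans Nat.zero_lt_one h.one_lt) hpos hq1 hq2 hq3 hoc hA
  exact Subgroup.eq_of_le_of_card_ge hle (by rw [this, hDmap])

theorem HT.comm_of_conj [Finite G] [Finite Ω] [hN : N.Normal] (h : HT G Ω N s) (a : Ω) {z : G}
    (hz : z ∈ N) (hz1 : z ≠ 1) {g n : G} (hg : g • a = a) (hn : n ∈ N)
    (hc : g * z * g⁻¹ = n * z * n⁻¹) : g * z = z * g := by
  have hmem : n⁻¹ * g ∈ Subgroup.centralizer ({z} : Set G) := by
    rw [Subgroup.mem_centralizer_singleton_iff]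
    have h1 : g * z = n * z * n⁻¹ * g := by rw [← hc]; group
    calc n⁻¹ * g * z = n⁻¹ * (g * z) := by group
      _ = n⁻¹ * (n * z * n⁻¹ * g) := by rw [h1]
      _ = z * (n⁻¹ * g) := by group
  have hm : (QuotientGroup.mk' N) (n⁻¹ * g) ∈
      (Subgroup.centralizer ({z} : Set G)).map (QuotientGroup.mk' N) :=
    Subgroup.mem_map_of_mem _ hmem
  rw [← h.map_cent_eq a hz hz1] at hm
  obtain ⟨d, hd, hde⟩ := hm
  have hdN : d⁻¹ * (n⁻¹ * g) ∈ N := QuotientGroup.eq.mp hde
  have hd' := mem_htSt.mp hd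
  have hdg : d⁻¹ * g ∈ N := by
    have h1 : d⁻¹ * n * d ∈ N := by
      have := hN.conj_mem n hn d⁻¹
      simpa using this
    have h2 : d⁻¹ * g = (d⁻¹ * n * d) * (d⁻¹ * (n⁻¹ * g)) := by group
    rw [h2]; exact N.mul_mem h1 hdN
  have hfix : (d⁻¹ * g) • a = a := by
    rw [mul_smul, hg, inv_smul_eq_iff, hd'.1]
  have h3 := h.reg a _ hdg hfix
  have hgd : g = d := (inv_mul_eq_one.mp h3).symm
  rw [hgd]; exact hd'.2

theorem HT.comm_conj [Finite G] [Finite Ω] [hN : N.Normal] (h : HT G Ω N s) (a : Ω) {g z n : G}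
    (hg : g • a = a) (hz : z ∈ N) (hgz : g * z = z * g) (hn : n ∈ N) :
    g * (n * z * n⁻¹) = (n * z * n⁻¹) * g := by
  by_cases hz1 : z = 1
  · subst hz1; simp
  have hw : n * z * n⁻¹ ∈ N := hN.conj_mem z hz n
  have hw1 : n * z * n⁻¹ ≠ 1 := by
    intro hh
    apply hz1
    have h1 : z = n⁻¹ * (n * z * n⁻¹) * n := by group
    rw [h1, hh]; group
  have hgz' : g * z * g⁻¹ = z := by rw [hgz]; group
  have hn'' : g * n * g⁻¹ * n⁻¹ ∈ N := N.mul_mem (hN.conj_mem n hn g) (N.inv_mem hn)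
  apply h.comm_of_conj a hw hw1 hg hn''
  calc g * (n * z * n⁻¹) * g⁻¹ = (g * n * g⁻¹) * (g * z * g⁻¹) * (g * n * g⁻¹)⁻¹ := by group
    _ = (g * n * g⁻¹) * z * (g * n * g⁻¹)⁻¹ := by rw [hgz']
    _ = (g * n * g⁻¹ * n⁻¹) * (n * z * n⁻¹) * (g * n * g⁻¹ * n⁻¹)⁻¹ := by group

theorem HT.comm_of_St_ne [Finite G] [Finite Ω] [hN : N.Normal] (h : HT G Ω N s) (a : Ω)
    {x y : G} (hx : x ∈ N) (hx1 : x ≠ 1) (hy : y ∈ N) (hy1 : y ≠ 1)
    (hne : htSt G a x ≠ htSt G a y) : x * y = y * x := by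
  by_contra hxy
  have hcN : x * y * x⁻¹ * y⁻¹ ∈ N :=
    N.mul_mem (N.mul_mem (N.mul_mem hx hy) (N.inv_mem hx)) (N.inv_mem hy)
  have hc1 : x * y * x⁻¹ * y⁻¹ ≠ 1 := by
    intro hh
    apply hxy
    have h1 : x * y = (x * y * x⁻¹ * y⁻¹) * (y * x) := by group
    rw [h1, hh, one_mul]
  have h1 : htSt G a x ≤ htSt G a (x * y * x⁻¹ * y⁻¹) := by
    intro g hg
    obtain ⟨hga, hgx⟩ := mem_htSt.mp hg
    refine mem_htSt.mpr ⟨hga, ?_⟩
    have hgxi : g * x⁻¹ = x⁻¹ * g := (Commute.inv_right (show Commute g x from hgx)).eq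
    have h2 := h.comm_conj a hga (N.inv_mem hx) hgxi hy
    calc g * (x * y * x⁻¹ * y⁻¹) = g * x * (y * x⁻¹ * y⁻¹) := by group
      _ = x * g * (y * x⁻¹ * y⁻¹) := by rw [hgx]
      _ = x * (g * (y * x⁻¹ * y⁻¹)) := by group
      _ = x * ((y * x⁻¹ * y⁻¹) * g) := by rw [h2]
      _ = (x * y * x⁻¹ * y⁻¹) * g := by group
  have h2 : htSt G a y ≤ htSt G a (x * y * x⁻¹ * y⁻¹) := by
    intro g hg
    obtain ⟨hga, hgy⟩ := mem_htSt.mp hg
    refine mem_htSt.mpr ⟨hga, ?_⟩
    have hgyi : g * y⁻¹ = y⁻¹ * g := (Commute.inv_right (show Commute g y from hgy)).eq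
    have h3 := h.comm_conj a hga hy hgy hx
    calc g * (x * y * x⁻¹ * y⁻¹) = g * (x * y * x⁻¹) * y⁻¹ := by group
      _ = (x * y * x⁻¹) * g * y⁻¹ := by rw [h3]
      _ = (x * y * x⁻¹) * (g * y⁻¹) := by group
      _ = (x * y * x⁻¹) * (y⁻¹ * g) := by rw [hgyi]
      _ = (x * y * x⁻¹ * y⁻¹) * g := by group
  exact hne ((h.St_eq_of_le a hx hx1 hcN hc1 h1).trans (h.St_eq_of_le a hy hy1 hcN hc1 h2).symm)

theorem HT.exists_moved [Finite G] [hN : N.Normal] (h : HT G Ω N s) (a : Ω) {x : G}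
    (hx : x ∈ N) (hx1 : x ≠ 1) : ∃ w ∈ N, ∃ g ∈ htSt G a x, g * w ≠ w * g := by
  have hne : htSt G a x ≠ ⊥ := by
    rw [← Subgroup.one_lt_card_iff_ne_bot, h.card_St a hx hx1]; exact h.one_lt
  obtain ⟨⟨g, hg⟩, hg1⟩ := (Subgroup.ne_bot_iff_exists_ne_one).mp hne
  have hg1' : g ≠ 1 := fun hh => hg1 (Subtype.ext hh)
  have hga := (mem_htSt.mp hg).1
  by_contra hcon
  push Not at hcon
  apply hg1'
  apply h.faith
  intro c
  obtain ⟨w, hw, hwc⟩ := h.tr a c
  rw [← hwc, smul_smul, hcon w hw g hg, mul_smul, hga]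

theorem HT.comm_N [Finite G] [Finite Ω] [hN : N.Normal] (h : HT G Ω N s) (a : Ω) {x y : G}
    (hx : x ∈ N) (hy : y ∈ N) : x * y = y * x := by
  by_cases hx1 : x = 1
  · subst hx1; simp
  by_cases hy1 : y = 1
  · subst hy1; simp
  by_cases hne : htSt G a x = htSt G a y
  · obtain ⟨w, hw, g, hg, hgw⟩ := h.exists_moved a hx hx1
    have hw1 : w ≠ 1 := by rintro rfl; simp at hgw
    obtain ⟨hga, hgx⟩ := mem_htSt.mp hg
    have hwx : htSt G a w ≠ htSt G a x := by
      intro hh; rw [← hh] at hg; exact hgw (mem_htSt.mp hg).2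
    have hwy : htSt G a w ≠ htSt G a y := by rw [← hne]; exact hwx
    have c2 : w * y = y * w := h.comm_of_St_ne a hw hw1 hy hy1 hwy
    have hxw1 : x * w ≠ 1 := by
      intro hh
      have h1 : w = x⁻¹ := eq_inv_of_mul_eq_one_right hh
      apply hgw; rw [h1]; exact (Commute.inv_right (show Commute g x from hgx)).eq
    have hxwy : htSt G a y ≠ htSt G a (x * w) := by
      intro hh
      have h1 : g ∈ htSt G a (x * w) := by rw [← hh, ← hne]; exact hg
      have hgxw := (mem_htSt.mp h1).2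
      apply hgw
      have h2 : x * (g * w) = x * (w * g) := by
        calc x * (g * w) = g * (x * w) := by rw [← mul_assoc, ← hgx, mul_assoc]
          _ = x * w * g := hgxw
          _ = x * (w * g) := by group
      exact mul_left_cancel h2
    have c3 : y * (x * w) = (x * w) * y := h.comm_of_St_ne a hy hy1 (N.mul_mem hx hw) hxw1 hxwy
    have h3 : y * x * w = x * y * w := by
      calc y * x * w = y * (x * w) := by group
        _ = x * w * y := c3
        _ = x * (w * y) := by group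
        _ = x * (y * w) := by rw [c2]
        _ = x * y * w := by group
    exact (mul_right_cancel h3).symm
  · exact h.comm_of_St_ne a hx hx1 hy hy1 hne

theorem HT.pow_eq_one_of_St_ne [Finite G] [Finite Ω] [hN : N.Normal] (h : HT G Ω N s) (a : Ω)
    {x y : G} (hx : x ∈ N) (hx1 : x ≠ 1) (hy : y ∈ N) (hy1 : y ≠ 1)
    (hne : htSt G a x ≠ htSt G a y) (k : ℕ) (hk : x ^ k = 1) : y ^ k = 1 := by
  by_contra hyk
  have hykN : y ^ k ∈ N := N.pow_mem hy k
  have h1 : htSt G a y = htSt G a (y ^ k) := by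
    apply h.St_eq_of_le a hy hy1 hykN hyk
    intro g hg
    obtain ⟨hga, hgy⟩ := mem_htSt.mp hg
    exact mem_htSt.mpr ⟨hga, ((show Commute g y from hgy).pow_right k).eq⟩
  have hxy : x * y = y * x := h.comm_N a hx hy
  have hxy1 : x * y ≠ 1 := by
    intro hh
    apply hne
    have h2 : y = x⁻¹ := eq_inv_of_mul_eq_one_right hh
    subst h2
    ext g
    rw [mem_htSt, mem_htSt]
    constructor
    · rintro ⟨h3, h4⟩; exact ⟨h3, ((show Commute g x from h4).inv_right).eq⟩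
    · rintro ⟨h3, h4⟩
      have h5 := ((show Commute g x⁻¹ from h4).inv_right).eq
      rw [inv_inv] at h5
      exact ⟨h3, h5⟩
  have hpow : (x * y) ^ k = y ^ k := by
    rw [(show Commute x y from hxy).mul_pow, hk, one_mul]
  have h2 : htSt G a (x * y) = htSt G a (y ^ k) := by
    apply h.St_eq_of_le a (N.mul_mem hx hy) hxy1 hykN hyk
    intro g hg
    obtain ⟨hga, hgxy⟩ := mem_htSt.mp hg
    refine mem_htSt.mpr ⟨hga, ?_⟩
    rw [← hpow]
    exact ((show Commute g (x * y) from hgxy).pow_right k).eq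
  apply hne
  symm
  apply h.St_eq_of_le a hy hy1 hx hx1
  intro g hg
  have hg' : g ∈ htSt G a (x * y) := by rw [h2, ← h1]; exact hg
  obtain ⟨hga, hgy⟩ := mem_htSt.mp hg
  obtain ⟨_, hgxy⟩ := mem_htSt.mp hg'
  refine mem_htSt.mpr ⟨hga, ?_⟩
  have h3 : g * x * y = x * g * y := by
    calc g * x * y = g * (x * y) := by group
      _ = x * y * g := hgxy
      _ = x * (y * g) := by group
      _ = x * (g * y) := by rw [hgy]
      _ = x * g * y := by group
  exact mul_right_cancel h3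

theorem HT.exists_prime_exp [Finite G] [Finite Ω] [hN : N.Normal] (h : HT G Ω N s) (a b : Ω)
    (hab : a ≠ b) : ∃ p : ℕ, p.Prime ∧ ∀ y ∈ N, y ^ p = 1 := by
  obtain ⟨x₀, hx₀, hx₀b⟩ := h.tr a b
  have hx₀1 : x₀ ≠ 1 := by rintro rfl; rw [one_smul] at hx₀b; exact hab hx₀b
  have hord : orderOf x₀ ≠ 1 := by rw [Ne, orderOf_eq_one_iff]; exact hx₀1
  obtain ⟨p, hp, hpd⟩ := Nat.exists_prime_and_dvd hord
  have hx₁N : x₀ ^ (orderOf x₀ / p) ∈ N := N.pow_mem hx₀ _
  have hx₁p : (x₀ ^ (orderOf x₀ / p)) ^ p = 1 := by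
    rw [← pow_mul, Nat.div_mul_cancel hpd, pow_orderOf_eq_one]
  have hx₁1 : x₀ ^ (orderOf x₀ / p) ≠ 1 := by
    intro hh
    have hd : orderOf x₀ ∣ orderOf x₀ / p := orderOf_dvd_of_pow_eq_one hh
    have hpos : 0 < orderOf x₀ := orderOf_pos x₀
    have h1 : orderOf x₀ / p < orderOf x₀ := Nat.div_lt_self hpos hp.one_lt
    have hle := Nat.le_of_dvd (Nat.div_pos (Nat.le_of_dvd hpos hpd) hp.pos) hd
    omega
  obtain ⟨w, hw, g, hg, hgw⟩ := h.exists_moved a hx₁N hx₁1
  have hw1 : w ≠ 1 := by rintro rfl; simp at hgw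
  have hwx : htSt G a (x₀ ^ (orderOf x₀ / p)) ≠ htSt G a w := by
    intro hh; rw [hh] at hg; exact hgw (mem_htSt.mp hg).2
  have hwp : w ^ p = 1 := h.pow_eq_one_of_St_ne a hx₁N hx₁1 hw hw1 hwx p hx₁p
  refine ⟨p, hp, fun y hy => ?_⟩
  by_cases hy1 : y = 1
  · subst hy1; simp
  by_cases hyx : htSt G a (x₀ ^ (orderOf x₀ / p)) = htSt G a y
  · exact h.pow_eq_one_of_St_ne a hw hw1 hy hy1 (by rw [← hyx]; exact fun hh => hwx hh.symm)
      p hwp
  · exact h.pow_eq_one_of_St_ne a hx₁N hx₁1 hy hy1 hyx p hx₁p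

end

end Cfsg.Agent.H71
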