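import Mathlib
import Cfsg.Agent.H71.HalfTransB

set_option autoImplicit false

namespace Cfsg.Agent.H71

open MulAction

section
variable {G Ω : Type*} [Group G] [MulAction G Ω] {N : Subgroup G} {s : ℕ}

theorem HT.St_le_of_coset [Finite G] [Finite Ω] [hN : N.Normal] (h : HT G Ω N s) (a : Ω)
    (M₀ : Subgroup G) [hM₀ : M₀.Normal] (hM₀N : M₀ ≤ N) {x y : G} (hx : x ∈ M₀) (hy : y ∈ N)
    (hyM : y ∉ M₀) : htSt G a y ≤ htSt G a x := by
  classical
  have hy1 : y ≠ 1 := by rintro rfl; exact hyM M₀.one_mem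
  obtain ⟨B, hmemB⟩ : ∃ B : Subgroup G, ∀ g : G, g ∈ B ↔ g • a = a ∧ (g * y)⁻¹ * (y * g) ∈ M₀ := by
    refine ⟨stabilizer G a ⊓ (Subgroup.centralizer
      ({(QuotientGroup.mk' M₀ y)} : Set (G ⧸ M₀))).comap (QuotientGroup.mk' M₀), ?_⟩
    intro g
    rw [Subgroup.mem_inf, Subgroup.mem_comap, Subgroup.mem_centralizer_singleton_iff,
      MulAction.mem_stabilizer_iff, ← map_mul, ← map_mul]
    exact and_congr Iff.rfl QuotientGroup.eq
  have hBA : B ≤ stabilizer G a := fun g hg => ((hmemB g).mp hg).1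
  have hStB : ∀ u ∈ M₀, htSt G a (u * y) ≤ B := by
    intro u hu g hg
    obtain ⟨hga, hguy⟩ := mem_htSt.mp hg
    rw [hmemB]
    refine ⟨hga, ?_⟩
    have e : (g * y)⁻¹ * (y * g) = y⁻¹ * ((g⁻¹ * u⁻¹ * g) * u) * y⁻¹⁻¹ := by
      have h1 : y * g = u⁻¹ * (g * (u * y)) := by rw [hguy]; group
      rw [h1]; group
    rw [e]
    apply hM₀.conj_mem
    apply M₀.mul_mem _ hu
    have h2 := hM₀.conj_mem _ (M₀.inv_mem hu) g⁻¹
    simpa using h2
  have huy1 : ∀ u ∈ M₀, u * y ≠ 1 := by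
    intro u hu hh
    apply hyM
    have h1 : y = u⁻¹ := eq_inv_of_mul_eq_one_right hh
    rw [h1]; exact M₀.inv_mem hu
  have huyN : ∀ u ∈ M₀, u * y ∈ N := fun u hu => N.mul_mem (hM₀N hu) hy
  have hinj : Set.InjOn (fun u : G => (u * y) • a) (M₀ : Set G) := by
    intro u hu u' hu' huu
    have huu' : (u * y) • a = (u' * y) • a := huu
    have h1 : ((u' * y)⁻¹ * (u * y)) • a = a := by rw [mul_smul, huu', inv_smul_smul]
    have h2 := h.reg a _ (N.mul_mem (N.inv_mem (huyN u' hu')) (huyN u hu)) h1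
    have h3 := inv_mul_eq_one.mp h2
    exact (mul_right_cancel h3).symm
  have hTcard : Nat.card ↥((fun u : G => (u * y) • a) '' (M₀ : Set G)) = Nat.card M₀ := by
    rw [Nat.card_coe_set_eq, hinj.ncard_image]; rfl
  have hTinv : ∀ g ∈ B, ∀ t ∈ (fun u : G => (u * y) • a) '' (M₀ : Set G),
      g • t ∈ (fun u : G => (u * y) • a) '' (M₀ : Set G) := by
    rintro g hg t ⟨u, hu, rfl⟩
    obtain ⟨hga, hgm⟩ := (hmemB g).mp hg
    refine ⟨(g * u * g⁻¹) * (g * y * g⁻¹ * y⁻¹), M₀.mul_mem (hM₀.conj_mem u hu g) ?_, ?_⟩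
    · have e : g * y * g⁻¹ * y⁻¹ = (g * y) * ((g * y)⁻¹ * (y * g))⁻¹ * (g * y)⁻¹ := by group
      rw [e]; exact hM₀.conj_mem _ (M₀.inv_mem hgm) _
    · show ((g * u * g⁻¹) * (g * y * g⁻¹ * y⁻¹) * y) • a = g • (u * y) • a
      have e : (g * u * g⁻¹) * (g * y * g⁻¹ * y⁻¹) * y = g * (u * y) * g⁻¹ := by group
      have hga' : g⁻¹ • a = a := by rw [inv_smul_eq_iff, hga]
      rw [e, mul_smul, hga', mul_smul]
  have hTstab : ∀ t ∈ (fun u : G => (u * y) • a) '' (M₀ : Set G),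
      Nat.card ↥(B ⊓ stabilizer G t) = s := by
    rintro t ⟨u, hu, rfl⟩
    have e : B ⊓ stabilizer G ((u * y) • a) = htSt G a (u * y) := by
      apply le_antisymm
      · intro g hg
        obtain ⟨hgB, hgt⟩ := Subgroup.mem_inf.mp hg
        have hga := ((hmemB g).mp hgB).1
        have h1 : g ∈ Subgroup.centralizer ({u * y} : Set G) ⊓ stabilizer G a := by
          rw [h.cent_inf_stab (huyN u hu) a]
          exact Subgroup.mem_inf.mpr ⟨hga, hgt⟩
        rw [htSt, inf_comm]; exact h1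
      · intro g hg
        refine Subgroup.mem_inf.mpr ⟨hStB u hu hg, ?_⟩
        obtain ⟨hga, hguy⟩ := mem_htSt.mp hg
        rw [MulAction.mem_stabilizer_iff, smul_smul, hguy, mul_smul, hga]
    rw [e]; exact h.card_St a (huyN u hu) (huy1 u hu)
  have hoc1 : Nat.card B ∣ Nat.card M₀ * s := by
    have h1 := ht_oc B _ hTinv s hTstab
    rwa [hTcard] at h1
  have hinj₀ : Set.InjOn (fun u : G => u • a) ((M₀ : Set G) \ {1}) := by
    intro u hu u' hu' huu
    have huu' : u • a = u' • a := huu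
    have h1 : (u'⁻¹ * u) • a = a := by rw [mul_smul, huu', inv_smul_smul]
    have h2 := h.reg a _ (N.mul_mem (N.inv_mem (hM₀N hu'.1)) (hM₀N hu.1)) h1
    exact (inv_mul_eq_one.mp h2).symm
  have hT₀card : Nat.card ↥((fun u : G => u • a) '' ((M₀ : Set G) \ {1})) = Nat.card M₀ - 1 := by
    rw [Nat.card_coe_set_eq, hinj₀.ncard_image,
      Set.ncard_sdiff_singleton_of_mem (show (1 : G) ∈ (M₀ : Set G) from M₀.one_mem)]
    rfl
  have hoc2 : Nat.card (stabilizer G a) ∣ (Nat.card M₀ - 1) * s := by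
    have h1 := ht_oc (stabilizer G a) ((fun u : G => u • a) '' ((M₀ : Set G) \ {1})) (by
      rintro g hg t ⟨u, ⟨hu, hu1⟩, rfl⟩
      have hga : g • a = a := hg
      have hga' : g⁻¹ • a = a := by rw [inv_smul_eq_iff, hga]
      refine ⟨g * u * g⁻¹, ⟨hM₀.conj_mem u hu g, ?_⟩, ?_⟩
      · intro hh
        apply hu1
        have hh' : g * u * g⁻¹ = 1 := hh
        have h2 : u = g⁻¹ * (g * u * g⁻¹) * g := by group
        rw [h2, hh']
        simp
      · show (g * u * g⁻¹) • a = g • u • a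
        rw [mul_smul, mul_smul, hga']) s (by
      rintro t ⟨u, ⟨hu, hu1⟩, rfl⟩
      apply h.stab
      intro hh
      exact hu1 (h.reg a u (hM₀N hu) hh.symm))
    rwa [hT₀card] at h1
  have hStyB : htSt G a y ≤ B := by
    have h1 := hStB 1 M₀.one_mem
    rwa [one_mul] at h1
  have hsB : s ∣ Nat.card B := by
    rw [← h.card_St a hy hy1]; exact Subgroup.card_dvd_of_le hStyB
  have hBA' : Nat.card B ∣ Nat.card (stabilizer G a) := Subgroup.card_dvd_of_le hBA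
  have hk : 0 < Nat.card M₀ := Nat.card_pos
  have hBs : Nat.card B = s :=
    ht_arith s (Nat.card M₀) (Nat.card B) (Nat.card (stabilizer G a)) (Nat.card B)
      (lt_trans Nat.zero_lt_one h.one_lt) hk hsB dvd_rfl hBA' hoc1 hoc2
  have e1 : htSt G a y = B :=
    Subgroup.eq_of_le_of_card_ge hStyB (by rw [hBs, h.card_St a hy hy1])
  have e2 : htSt G a (x * y) = B :=
    Subgroup.eq_of_le_of_card_ge (hStB x hx)
      (by rw [hBs, h.card_St a (huyN x hx) (huy1 x hx)])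
  intro g hg
  have hg' : g ∈ htSt G a (x * y) := by rw [e2, ← e1]; exact hg
  obtain ⟨hga, hgy⟩ := mem_htSt.mp hg
  obtain ⟨_, hgxy⟩ := mem_htSt.mp hg'
  refine mem_htSt.mpr ⟨hga, ?_⟩
  have h3 : g * x * y = x * g * y := by
    calc g * x * y = g * (x * y) := by group
      _ = x * y * g := hgxy
      _ = x * (y * g) := by group
      _ = x * (g * y) := by rw [hgy]
      _ = x * g * y := by group
  exact mul_right_cancel h3

theorem HT.le_of_normal [Finite G] [Finite Ω] [hN : N.Normal] (h : HT G Ω N s) (a : Ω)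
    (M : Subgroup G) [hM : M.Normal] (hM1 : M ≠ ⊥) : N ≤ M := by
  have hMN : M ⊓ N ≠ ⊥ := by
    intro hbot
    obtain ⟨⟨g, hg⟩, hg1⟩ := (Subgroup.ne_bot_iff_exists_ne_one).mp hM1
    have hg1' : g ≠ 1 := fun hh => hg1 (Subtype.ext hh)
    have hcomm : ∀ n ∈ N, g * n = n * g := by
      intro n hn
      have hmem : g * n * g⁻¹ * n⁻¹ ∈ M ⊓ N := by
        refine Subgroup.mem_inf.mpr ⟨?_, ?_⟩
        · have h1 : g * n * g⁻¹ * n⁻¹ = g * (n * g⁻¹ * n⁻¹) := by group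
          rw [h1]; exact M.mul_mem hg (hM.conj_mem _ (M.inv_mem hg) n)
        · exact N.mul_mem (hN.conj_mem n hn g) (N.inv_mem hn)
      rw [hbot, Subgroup.mem_bot] at hmem
      have h2 : g * n = (g * n * g⁻¹ * n⁻¹) * (n * g) := by group
      rw [h2, hmem, one_mul]
    obtain ⟨n₁, hn₁, hn₁a⟩ := h.tr a (g • a)
    have hfix : ∀ c : Ω, (n₁⁻¹ * g) • c = c := by
      intro c
      obtain ⟨n, hn, hnc⟩ := h.tr a c
      rw [← hnc, smul_smul]
      have e : n₁⁻¹ * g * n = n * (n₁⁻¹ * g) := by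
        have c1 : n₁⁻¹ * n = n * n₁⁻¹ := h.comm_N a (N.inv_mem hn₁) hn
        calc n₁⁻¹ * g * n = n₁⁻¹ * (g * n) := by group
          _ = n₁⁻¹ * (n * g) := by rw [hcomm n hn]
          _ = (n₁⁻¹ * n) * g := by group
          _ = (n * n₁⁻¹) * g := by rw [c1]
          _ = n * (n₁⁻¹ * g) := by group
      rw [e, mul_smul, mul_smul, ← hn₁a, inv_smul_smul]
    have h3 := h.faith _ hfix
    have hgn : g = n₁ := (inv_mul_eq_one.mp h3).symm
    have h4 : g ∈ M ⊓ N := Subgroup.mem_inf.mpr ⟨hg, hgn ▸ hn₁⟩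
    rw [hbot, Subgroup.mem_bot] at h4
    exact hg1' h4
  by_contra hNM
  obtain ⟨y₀, hy₀, hy₀M⟩ := SetLike.not_le_iff_exists.mp hNM
  obtain ⟨⟨x₀, hx₀⟩, hx₀1⟩ := (Subgroup.ne_bot_iff_exists_ne_one).mp hMN
  have hx₀1' : x₀ ≠ 1 := fun hh => hx₀1 (Subtype.ext hh)
  have hy₀1 : y₀ ≠ 1 := by rintro rfl; exact hy₀M M.one_mem
  have claim : ∀ x ∈ M ⊓ N, ∀ y ∈ N, y ∉ M → htSt G a y ≤ htSt G a x :=
    fun x hx y hy hyM => h.St_le_of_coset a (M ⊓ N) inf_le_right hx hy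
      (fun hh => hyM (Subgroup.mem_inf.mp hh).1)
  have hx₀N : x₀ ∈ N := (Subgroup.mem_inf.mp hx₀).2
  have eS : htSt G a y₀ = htSt G a x₀ :=
    h.St_eq_of_le a hy₀ hy₀1 hx₀N hx₀1' (claim x₀ hx₀ y₀ hy₀ hy₀M)
  have hall : ∀ g ∈ htSt G a y₀, ∀ u ∈ N, g * u = u * g := by
    intro g hg u hu
    by_cases huM : u ∈ M
    · exact (mem_htSt.mp (claim u (Subgroup.mem_inf.mpr ⟨huM, hu⟩) y₀ hy₀ hy₀M hg)).2
    · have hu1 : u ≠ 1 := by rintro rfl; exact huM M.one_mem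
      have h1 : htSt G a u = htSt G a x₀ :=
        h.St_eq_of_le a hu hu1 hx₀N hx₀1' (claim x₀ hx₀ u hu huM)
      have hg' : g ∈ htSt G a u := by rw [h1, ← eS]; exact hg
      exact (mem_htSt.mp hg').2
  have hbot : htSt G a y₀ = ⊥ := by
    rw [eq_bot_iff]
    intro g hg
    rw [Subgroup.mem_bot]
    apply h.faith
    intro c
    obtain ⟨u, hu, huc⟩ := h.tr a c
    rw [← huc, smul_smul, hall g hg u hu, mul_smul, (mem_htSt.mp hg).1]
  have h5 := h.card_St a hy₀ hy₀1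
  rw [hbot, Subgroup.card_bot] at h5
  have h6 := h.one_lt
  omega

end

end Cfsg.Agent.H71
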