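import Mathlib
import Cfsg.Agent.H52.SpDefs

/-! S2944 team project (helper52 / helper66), piece SP-CM: `[C, J(X)] ≤ Q` when the normal
subgroup `C` normalizes the Sylow 2-subgroup `T` and `T ∩ C ≤ Q ⊴ X`. -/

set_option autoImplicit false
open Cfsg
open scoped Pointwise

namespace Cfsg.Agent.H71.Sn

open Cfsg.Agent.H52.Sn

universe u

/-- the elements `h` with `[c, h] ∈ Q` for all `c ∈ C` form a subgroup (`Q` normal) -/
def commModSubgroup {X : Type u} [Group X] (C Q : Subgroup X) [hQn : Q.Normal] : Subgroup X where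
  carrier := {h | ∀ c ∈ C, c * h * c⁻¹ * h⁻¹ ∈ Q}
  one_mem' := by
    intro c _
    simp
  mul_mem' := by
    intro h₁ h₂ H₁ H₂ c hc
    have e : c * (h₁ * h₂) * c⁻¹ * (h₁ * h₂)⁻¹ =
        (c * h₁ * c⁻¹ * h₁⁻¹) * (h₁ * (c * h₂ * c⁻¹ * h₂⁻¹) * h₁⁻¹) := by group
    rw [e]
    exact Q.mul_mem (H₁ c hc) (hQn.conj_mem _ (H₂ c hc) h₁)
  inv_mem' := by
    intro h H c hc
    have e : c * h⁻¹ * c⁻¹ * h⁻¹⁻¹ = h⁻¹ * (c * h * c⁻¹ * h⁻¹)⁻¹ * h⁻¹⁻¹ := by group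
    rw [e]
    exact hQn.conj_mem _ (Q.inv_mem (H c hc)) h⁻¹

theorem cm : StCM.{u} := by
  intro X _ _ T C Q hT hTi hCn hQn hTC hCT
  have : Fact (Nat.Prime 2) := ⟨Nat.prime_two⟩
  have hnd : ¬ 2 ∣ T.index := fun h => (Nat.not_even_iff_odd.mpr hTi) (even_iff_two_dvd.mpr h)
  let P : Sylow 2 X := hT.toSylow hnd
  have key : ∀ A ∈ maxElementaryAbelianSubgroups 2 X, ∀ c ∈ C, ∀ a ∈ A,
      c * a * c⁻¹ * a⁻¹ ∈ Q := by
    intro A hA c hc a ha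
    have hA2 : IsPGroup 2 A := by
      rintro ⟨x, hx⟩
      exact ⟨1, Subtype.ext (by simpa using hA.1.2 x hx)⟩
    obtain ⟨P', hP'⟩ := hA2.exists_le_sylow
    obtain ⟨g, hg⟩ := MulAction.exists_smul_eq X P P'
    have haP' : a ∈ (P' : Subgroup X) := hP' ha
    rw [← hg, Sylow.coe_subgroup_smul, Subgroup.mem_pointwise_smul_iff_inv_smul_mem] at haP'
    have haT : g⁻¹ * a * g ∈ T := by
      have h0 : g⁻¹ * a * g ∈ (P : Subgroup X) := by simpa [MulAut.smul_def] using haP'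
      exact (hT.mem_toSylow hnd).mp h0
    have hc' : g⁻¹ * c * g ∈ C := by
      have := hCn.conj_mem c hc g⁻¹
      simpa using this
    have hcN := hCT hc'
    have h1 : (g⁻¹ * c * g) * (g⁻¹ * a * g) * (g⁻¹ * c * g)⁻¹ ∈ T :=
      (Subgroup.mem_normalizer_iff.mp hcN _).mp haT
    have h2 : (g⁻¹ * c * g) * (g⁻¹ * a * g) * (g⁻¹ * c * g)⁻¹ * (g⁻¹ * a * g)⁻¹ ∈ T :=
      T.mul_mem h1 (T.inv_mem haT)
    have h3 : (g⁻¹ * c * g) * (g⁻¹ * a * g) * (g⁻¹ * c * g)⁻¹ * (g⁻¹ * a * g)⁻¹ ∈ C := by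
      have h4 : (g⁻¹ * a * g) * (g⁻¹ * c * g)⁻¹ * (g⁻¹ * a * g)⁻¹ ∈ C :=
        hCn.conj_mem _ (C.inv_mem hc') _
      have h5 : (g⁻¹ * c * g) * (g⁻¹ * a * g) * (g⁻¹ * c * g)⁻¹ * (g⁻¹ * a * g)⁻¹ =
          (g⁻¹ * c * g) * ((g⁻¹ * a * g) * (g⁻¹ * c * g)⁻¹ * (g⁻¹ * a * g)⁻¹) := by group
      rw [h5]
      exact C.mul_mem hc' h4
    have h6 := hTC (Subgroup.mem_inf.mpr ⟨h2, h3⟩)
    have h7 := hQn.conj_mem _ h6 g
    have h8 : g * ((g⁻¹ * c * g) * (g⁻¹ * a * g) * (g⁻¹ * c * g)⁻¹ * (g⁻¹ * a * g)⁻¹) * g⁻¹ =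
        c * a * c⁻¹ * a⁻¹ := by group
    rwa [h8] at h7
  have hJ : thompsonSubgroup 2 X ≤ commModSubgroup C Q := by
    unfold thompsonSubgroup
    apply sSup_le
    intro A hA a ha c hc
    exact key A hA c hc a ha
  rw [Subgroup.commutator_le]
  intro c hc h hh
  rw [commutatorElement_def]
  exact hJ hh c hc

example : Cfsg.Agent.H52.Sn.StCM.{u} := cm

end Cfsg.Agent.H71.Sn
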