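import Mathlib
import Cfsg.Agent.Lib.Helper96.TWDefs
import Cfsg.Agent.H99.SympType
import Cfsg.Agent.H13.TpGram

/-!
# Piece S5707-SYMPB (helper71, for helper96): a symplectic form on `F^k`, `1 ≤ k ≤ 4`, in
characteristic `2` has `k ∈ {2, 4}` and an exchange basis

A hyperbolic basis (helper99's `exists_hyp_basis`) gives `k = 2 |I|`; the columns
`e₀, f₀` (`k = 2`) resp. `e₀, e₁, f₁, f₀` (`k = 4`) form the matrix `R`.
-/

set_option autoImplicit false

namespace Cfsg.Agent.H71.TW

open Cfsg Cfsg.Geo Matrix Cfsg.Agent.Lib.Helper96.TW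
open scoped MatrixGroups

universe u

variable {F : Type u} [Field F] {k : ℕ}

/-- the entries of `Mᵀ G M` for the Gram matrix `G` of a bilinear form -/
theorem congr_gram_apply (f : (Fin k → F) → (Fin k → F) → F) (hb : IsBilinearForm f)
    (col : Fin k → Fin k → F) (p q : Fin k) :
    ((Matrix.of fun a c => col c a)ᵀ * gramMatrix f * (Matrix.of fun a c => col c a)) p q =
      f (col p) (col q) := by
  rw [Cfsg.Agent.H13.Tp.bilin_eq_gram f hb]
  simp only [Matrix.mul_apply, Matrix.transpose_apply, Matrix.of_apply, dotProduct,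
    Matrix.mulVec, Finset.sum_mul, Finset.mul_sum]
  rw [Finset.sum_comm]
  refine Finset.sum_congr rfl fun a _ => Finset.sum_congr rfl fun b _ => ?_
  ring

theorem Jm_mul_Jm : Jm F k * Jm F k = 1 := by
  ext p q
  simp only [Matrix.mul_apply, Jm, Matrix.one_apply]
  rw [Finset.sum_eq_single p.rev]
  · simp only [if_true, Fin.rev_rev, one_mul]
    by_cases h : p = q
    · rw [if_pos h, if_pos h.symm]
    · rw [if_neg h, if_neg (Ne.symm h)]
  · intro r _ hr
    rw [if_neg hr, zero_mul]
  · intro h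
    exact absurd (Finset.mem_univ _) h

theorem det_ne_zero_of_congr {M G : Matrix (Fin k) (Fin k) F} (h : Mᵀ * G * M = Jm F k) :
    M.det ≠ 0 := by
  intro h0
  have h1 := congrArg Matrix.det h
  rw [Matrix.det_mul, h0, mul_zero] at h1
  have h2 := congrArg Matrix.det (Jm_mul_Jm (F := F) (k := k))
  rw [Matrix.det_mul, ← h1, mul_zero, Matrix.det_one] at h2
  exact zero_ne_one h2

theorem sympB : StSympB.{u} := by
  intro F _ k h2 hk1 hk4 f₁ hf
  classical
  have hneg : (-1 : F) = 1 := by linear_combination -h2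
  obtain ⟨B, hBdef⟩ : ∃ B : LinearMap.BilinForm F (Fin k → F),
      B = Cfsg.Agent.H99.bilinOfForm f₁ hf.bilinear := ⟨_, rfl⟩
  have hBf : ∀ u v, B u v = f₁ u v := fun u v => by rw [hBdef]; rfl
  have hBalt : B.IsAlt := fun v => by rw [hBf]; exact hf.alternating v
  have hnd : ∀ s : Fin k → F, s ≠ 0 → ∃ w, B s w ≠ 0 := fun s hs => by
    obtain ⟨w, hw⟩ := (hf.nondegenerate s hs).2
    exact ⟨w, by rw [hBf]; exact hw⟩
  obtain ⟨I, _, _, e, f, hee, hff, hef, hexp⟩ := Cfsg.Agent.H99.exists_hyp_basis B hBalt hnd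
  have hfe : ∀ i j, B (f i) (e j) = if i = j then 1 else 0 := by
    intro i j
    have h1 := hBalt.neg_eq (f i) (e j)
    rw [hef] at h1
    by_cases hij : i = j
    · rw [if_pos hij]
      rw [if_pos hij.symm] at h1
      rw [← hneg, ← h1, neg_neg]
    · rw [if_neg hij]
      rw [if_neg (Ne.symm hij)] at h1
      exact neg_eq_zero.mp h1
  -- the dimension count
  have hcard : k = 2 * Fintype.card I := by
    have hli := Cfsg.Agent.H99.hyp_linearIndependent B hBalt e f hee hff hef
    have hsp := Cfsg.Agent.H99.hyp_span_top B e f hexp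
    have h1 := Module.finrank_eq_card_basis (Module.Basis.mk hli hsp.ge)
    rw [Fintype.card_sum, Module.finrank_fin_fun] at h1
    omega
  have hI : Fintype.card I = 1 ∨ Fintype.card I = 2 := by omega
  rcases hI with hI | hI
  · -- `k = 2`
    have hk : k = 2 := by omega
    subst hk
    refine ⟨Or.inl rfl, ?_⟩
    obtain ⟨i₀, -⟩ := Fintype.card_eq_one_iff.mp hI
    have hM : (Matrix.of fun a c => (![e i₀, f i₀] : Fin 2 → Fin 2 → F) c a)ᵀ * gramMatrix f₁ *
        (Matrix.of fun a c => (![e i₀, f i₀] : Fin 2 → Fin 2 → F) c a) = Jm F 2 := by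
      ext p q
      rw [congr_gram_apply f₁ hf.bilinear]
      simp only [← hBf]
      fin_cases p <;> fin_cases q <;> simp [Jm, hee, hff, hef, hfe]
    exact ⟨Matrix.GeneralLinearGroup.mkOfDetNeZero _ (det_ne_zero_of_congr hM), hM⟩
  · -- `k = 4`
    have hk : k = 4 := by omega
    subst hk
    refine ⟨Or.inr rfl, ?_⟩
    obtain ⟨i₀, i₁, hne⟩ := Fintype.exists_pair_of_one_lt_card (α := I) (by omega)
    have hM : (Matrix.of fun a c => (![e i₀, e i₁, f i₁, f i₀] : Fin 4 → Fin 4 → F) c a)ᵀ *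
        gramMatrix f₁ *
        (Matrix.of fun a c => (![e i₀, e i₁, f i₁, f i₀] : Fin 4 → Fin 4 → F) c a) = Jm F 4 := by
      ext p q
      rw [congr_gram_apply f₁ hf.bilinear]
      simp only [← hBf]
      fin_cases p <;> fin_cases q <;> simp [Jm, hee, hff, hef, hfe, hne, Ne.symm hne]
    exact ⟨Matrix.GeneralLinearGroup.mkOfDetNeZero _ (det_ne_zero_of_congr hM), hM⟩

end Cfsg.Agent.H71.TW
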