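import Mathlib
import Cfsg.Agent.H83.UPDefs

/-!
# Piece S6001-BASIS (helper71, for helper83)

Four involutions `a1, b1, a2, b2` with the Pauli commutation relations are simultaneously
conjugate to `A1, B1, A2, B2`: the columns of `P` are `e, b2 e, b1 e, b1 b2 e` for a joint
fixed vector `e ≠ 0` of `a1, a2`.
-/

set_option autoImplicit false

namespace Cfsg.Agent.H71.UP

open Matrix Cfsg.Agent.H83.UP

universe u

variable {F : Type u} [Field F]

theorem mul_of_cols (a : Matrix (Fin 4) (Fin 4) F) (col : Fin 4 → Fin 4 → F) :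
    a * Matrix.of (fun i j => col j i) = Matrix.of (fun i j => (a *ᵥ col j) i) := by
  ext i j
  simp [Matrix.mul_apply, Matrix.mulVec, dotProduct]

theorem of_cols_mul (col : Fin 4 → Fin 4 → F) (A : Matrix (Fin 4) (Fin 4) F) :
    Matrix.of (fun i j => col j i) * A = Matrix.of (fun i j => ∑ k, A k j * col k i) := by
  ext i j
  simp [Matrix.mul_apply, mul_comm]

theorem basis : StBasis.{u} := by
  intro F _ a1 b1 a2 b2 h2 ha1 hb1 ha2 hb2 hab1 hab2 ha12 ha1b2 hb1a2 hb12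
  have h4 : (4 : F) ≠ 0 := by
    have h : (4 : F) = 2 * 2 := by norm_num
    rw [h]
    exact mul_ne_zero h2 h2
  have hb1a1 : b1 * a1 = -(a1 * b1) := by rw [hab1, neg_neg]
  have hb2a2 : b2 * a2 = -(a2 * b2) := by rw [hab2, neg_neg]
  -- the projection `(1 + a1)(1 + a2)` is nonzero
  have hπ0 : (1 + a1) * (1 + a2) ≠ 0 := by
    intro h0
    have hc1 : b1 * (1 + a1) = (1 - a1) * b1 := by
      rw [mul_add, mul_one, hb1a1, sub_mul, one_mul, sub_eq_add_neg]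
    have hc2 : b1 * (1 + a2) = (1 + a2) * b1 := by
      rw [mul_add, add_mul, mul_one, one_mul, hb1a2]
    have hc3 : b2 * (1 + a2) = (1 - a2) * b2 := by
      rw [mul_add, mul_one, hb2a2, sub_mul, one_mul, sub_eq_add_neg]
    have hc4 : b2 * (1 + a1) = (1 + a1) * b2 := by
      rw [mul_add, add_mul, mul_one, one_mul, ha1b2]
    have hc5 : b2 * (1 - a1) = (1 - a1) * b2 := by
      rw [mul_sub, sub_mul, mul_one, one_mul, ha1b2]
    have e1 : (1 - a1) * (1 + a2) = 0 := by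
      have h : (1 - a1) * (1 + a2) = b1 * ((1 + a1) * (1 + a2)) * b1 := by
        rw [← mul_assoc, hc1, mul_assoc (1 - a1), hc2, mul_assoc, mul_assoc, hb1, mul_one]
      rw [h, h0, mul_zero, zero_mul]
    have e2 : (1 + a1) * (1 - a2) = 0 := by
      have h : (1 + a1) * (1 - a2) = b2 * ((1 + a1) * (1 + a2)) * b2 := by
        rw [← mul_assoc, hc4, mul_assoc (1 + a1), hc3, mul_assoc, mul_assoc, hb2, mul_one]
      rw [h, h0, mul_zero, zero_mul]
    have e3 : (1 - a1) * (1 - a2) = 0 := by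
      have h : (1 - a1) * (1 - a2) = b2 * ((1 - a1) * (1 + a2)) * b2 := by
        rw [← mul_assoc, hc5, mul_assoc (1 - a1), hc3, mul_assoc, mul_assoc, hb2, mul_one]
      rw [h, e1, mul_zero, zero_mul]
    have hsum : (1 + a1) * (1 + a2) + (1 + a1) * (1 - a2) + (1 - a1) * (1 + a2) +
        (1 - a1) * (1 - a2) = (4 : F) • (1 : Matrix (Fin 4) (Fin 4) F) := by
      have h : (1 + a1) * (1 + a2) + (1 + a1) * (1 - a2) + (1 - a1) * (1 + a2) +
          (1 - a1) * (1 - a2) = (1 : Matrix (Fin 4) (Fin 4) F) + 1 + 1 + 1 := by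
        noncomm_ring
      rw [h]
      ext i j
      by_cases hij : i = j
      · subst hij
        simp
        norm_num
      · simp [hij]
    rw [h0, e1, e2, e3] at hsum
    have h := congrFun (congrFun hsum 0) 0
    simp at h
    exact h4 h.symm
  -- a joint fixed vector
  obtain ⟨i0, j0, hij0⟩ : ∃ i0 j0, ((1 + a1) * (1 + a2)) i0 j0 ≠ 0 := by
    by_contra hcon
    push Not at hcon
    exact hπ0 (Matrix.ext hcon)
  obtain ⟨e, he⟩ : ∃ e : Fin 4 → F, e = ((1 + a1) * (1 + a2)) *ᵥ Pi.single j0 1 := ⟨_, rfl⟩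
  have hei0 : e i0 ≠ 0 := by
    rw [he, Matrix.mulVec_single_one]
    exact hij0
  have E1 : a1 *ᵥ e = e := by
    have h : a1 * ((1 + a1) * (1 + a2)) = (1 + a1) * (1 + a2) := by
      have h' : a1 * (1 + a1) = 1 + a1 := by
        rw [mul_add, mul_one, ha1, add_comm]
      rw [← mul_assoc, h']
    rw [he, Matrix.mulVec_mulVec, h]
  have E2 : a2 *ᵥ e = e := by
    have h : a2 * ((1 + a1) * (1 + a2)) = (1 + a1) * (1 + a2) := by
      have h' : a2 * (1 + a1) = (1 + a1) * a2 := by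
        rw [mul_add, add_mul, mul_one, one_mul, ha12]
      have h'' : a2 * (1 + a2) = 1 + a2 := by
        rw [mul_add, mul_one, ha2, add_comm]
      rw [← mul_assoc, h', mul_assoc, h'']
    rw [he, Matrix.mulVec_mulVec, h]
  have R1 : ∀ v : Fin 4 → F, a1 *ᵥ (b1 *ᵥ v) = -(b1 *ᵥ (a1 *ᵥ v)) := fun v => by
    rw [Matrix.mulVec_mulVec, hab1, Matrix.neg_mulVec, ← Matrix.mulVec_mulVec]
  have R2 : ∀ v : Fin 4 → F, a1 *ᵥ (b2 *ᵥ v) = b2 *ᵥ (a1 *ᵥ v) := fun v => by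
    rw [Matrix.mulVec_mulVec, ha1b2, ← Matrix.mulVec_mulVec]
  have R3 : ∀ v : Fin 4 → F, a2 *ᵥ (b1 *ᵥ v) = b1 *ᵥ (a2 *ᵥ v) := fun v => by
    rw [Matrix.mulVec_mulVec, ← hb1a2, ← Matrix.mulVec_mulVec]
  have R4 : ∀ v : Fin 4 → F, a2 *ᵥ (b2 *ᵥ v) = -(b2 *ᵥ (a2 *ᵥ v)) := fun v => by
    rw [Matrix.mulVec_mulVec, hab2, Matrix.neg_mulVec, ← Matrix.mulVec_mulVec]
  have R5 : ∀ v : Fin 4 → F, b1 *ᵥ (b1 *ᵥ v) = v := fun v => by
    rw [Matrix.mulVec_mulVec, hb1, Matrix.one_mulVec]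
  have R6 : ∀ v : Fin 4 → F, b2 *ᵥ (b2 *ᵥ v) = v := fun v => by
    rw [Matrix.mulVec_mulVec, hb2, Matrix.one_mulVec]
  have R7 : ∀ v : Fin 4 → F, b2 *ᵥ (b1 *ᵥ v) = b1 *ᵥ (b2 *ᵥ v) := fun v => by
    rw [Matrix.mulVec_mulVec, ← hb12, ← Matrix.mulVec_mulVec]
  obtain ⟨col, hcol⟩ : ∃ col : Fin 4 → Fin 4 → F,
      col = ![e, b2 *ᵥ e, b1 *ᵥ e, b1 *ᵥ (b2 *ᵥ e)] := ⟨_, rfl⟩
  have hc0 : col 0 = e := by rw [hcol]; rfl
  have hc1 : col 1 = b2 *ᵥ e := by rw [hcol]; rfl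
  have hc2 : col 2 = b1 *ᵥ e := by rw [hcol]; rfl
  have hc3 : col 3 = b1 *ᵥ (b2 *ᵥ e) := by rw [hcol]; rfl
  obtain ⟨P, hP⟩ : ∃ P : Matrix (Fin 4) (Fin 4) F, P = Matrix.of (fun i j => col j i) :=
    ⟨_, rfl⟩
  have hA1 : a1 * P = P * A1 := by
    rw [hP, mul_of_cols, of_cols_mul]
    ext i j
    fin_cases j <;>
      simp [Fin.sum_univ_four, A1, hc0, hc1, hc2, hc3, R1, R2, E1, -Matrix.mulVec_mulVec]
  have hB1 : b1 * P = P * B1 := by
    rw [hP, mul_of_cols, of_cols_mul]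
    ext i j
    fin_cases j <;>
      simp [Fin.sum_univ_four, B1, hc0, hc1, hc2, hc3, R5, -Matrix.mulVec_mulVec]
  have hA2 : a2 * P = P * A2 := by
    rw [hP, mul_of_cols, of_cols_mul]
    ext i j
    fin_cases j <;>
      simp [Fin.sum_univ_four, A2, hc0, hc1, hc2, hc3, R3, R4, E2, Matrix.mulVec_neg, -Matrix.mulVec_mulVec]
  have hB2 : b2 * P = P * B2 := by
    rw [hP, mul_of_cols, of_cols_mul]
    ext i j
    fin_cases j <;>
      simp [Fin.sum_univ_four, B2, hc0, hc1, hc2, hc3, R6, R7, -Matrix.mulVec_mulVec]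
  refine ⟨P, ?_, hA1, hB1, hA2, hB2⟩
  -- invertibility
  have hD : (1 + A1) * (1 + A2) = (Matrix.diagonal ![4, 0, 0, 0] : Matrix (Fin 4) (Fin 4) F) := by
    ext i j
    fin_cases i <;> fin_cases j <;> simp [A1, A2, Matrix.mul_apply, Fin.sum_univ_four] <;>
      norm_num
  have hπP : (1 + a1) * (1 + a2) * P = P * Matrix.diagonal ![4, 0, 0, 0] := by
    have h1 : (1 + a2) * P = P * (1 + A2) := by
      rw [add_mul, one_mul, hA2, mul_add, mul_one]
    have h2 : (1 + a1) * P = P * (1 + A1) := by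
      rw [add_mul, one_mul, hA1, mul_add, mul_one]
    rw [← hD, mul_assoc, h1, ← mul_assoc, h2, mul_assoc]
  have hK : ∀ c : Fin 4 → F, P *ᵥ c = 0 → c 0 = 0 := by
    intro c hc
    have h1 : (P * Matrix.diagonal ![4, 0, 0, 0]) *ᵥ c = 0 := by
      rw [← hπP, ← Matrix.mulVec_mulVec, hc, Matrix.mulVec_zero]
    have h2 := congrFun h1 i0
    simp only [Matrix.mulVec, dotProduct, Matrix.mul_diagonal, Fin.sum_univ_four, Pi.zero_apply]
      at h2
    have h3 : P i0 0 = e i0 := by rw [hP, Matrix.of_apply, hc0]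
    simp [h3] at h2
    rcases h2 with (h2 | h2) | h2
    · exact absurd h2 hei0
    · exact absurd h2 h4
    · exact h2
  have hKb1 : ∀ c : Fin 4 → F, P *ᵥ c = 0 → P *ᵥ (B1 *ᵥ c) = 0 := by
    intro c hc
    rw [Matrix.mulVec_mulVec, ← hB1, ← Matrix.mulVec_mulVec, hc, Matrix.mulVec_zero]
  have hKb2 : ∀ c : Fin 4 → F, P *ᵥ c = 0 → P *ᵥ (B2 *ᵥ c) = 0 := by
    intro c hc
    rw [Matrix.mulVec_mulVec, ← hB2, ← Matrix.mulVec_mulVec, hc, Matrix.mulVec_zero]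
  by_contra hdet
  have hdet0 : P.det = 0 := by
    by_contra hne
    exact hdet (isUnit_iff_ne_zero.mpr hne)
  obtain ⟨c, hc0', hc⟩ := Matrix.exists_mulVec_eq_zero_iff.mpr hdet0
  apply hc0'
  have k0 := hK c hc
  have k1 := hK _ (hKb2 c hc)
  have k2 := hK _ (hKb1 c hc)
  have k3 := hK _ (hKb1 _ (hKb2 c hc))
  simp [Matrix.mulVec, dotProduct, Fin.sum_univ_four, B1, B2] at k1 k2 k3
  funext i
  fin_cases i
  · exact k0
  · exact k1
  · exact k2
  · exact k3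

end Cfsg.Agent.H71.UP
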