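import Mathlib
import Cfsg.Agent.H83.UPDefs

/-!
# Piece S6001-STDCOUNT (helper71, for helper83)

`R` of order 64 containing `ι • 1` and `a1, b1, a2, b2` (conjugate under `P` to the Pauli
generators) is exactly the conjugate of the standard group `{ι^j • pauli v}`.
-/

set_option autoImplicit false
open scoped MatrixGroups

namespace Cfsg.Agent.H71.UP

open Matrix Cfsg.Agent.H83.UP

universe u

variable {F : Type u} [Field F]

theorem conj_coe_of_mul_eq (P x : GL (Fin 4) F) (X : Matrix (Fin 4) (Fin 4) F)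
    (h : (x : Matrix (Fin 4) (Fin 4) F) * (P : Matrix (Fin 4) (Fin 4) F) =
      (P : Matrix (Fin 4) (Fin 4) F) * X) :
    ((P⁻¹ * x * P : GL (Fin 4) F) : Matrix (Fin 4) (Fin 4) F) = X := by
  rw [Units.val_mul, Units.val_mul, mul_assoc, h, Units.inv_mul_cancel_left]

theorem conj_mul_GL (P x y : GL (Fin 4) F) :
    P⁻¹ * (x * y) * P = (P⁻¹ * x * P) * (P⁻¹ * y * P) := by group

theorem conj_pow_GL (P x : GL (Fin 4) F) (n : ℕ) : P⁻¹ * x ^ n * P = (P⁻¹ * x * P) ^ n := by
  induction n with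
  | zero => simp
  | succ n ih =>
    rw [pow_succ, pow_succ, ← ih]
    group

theorem coe_word (zc c1 c2 c3 c4 : GL (Fin 4) F) (j k1 k2 k3 k4 : ℕ) :
    ((zc ^ j * c1 ^ k1 * c2 ^ k2 * c3 ^ k3 * c4 ^ k4 : GL (Fin 4) F) :
        Matrix (Fin 4) (Fin 4) F) =
      (zc : Matrix (Fin 4) (Fin 4) F) ^ j * (c1 : Matrix (Fin 4) (Fin 4) F) ^ k1 *
        (c2 : Matrix (Fin 4) (Fin 4) F) ^ k2 * (c3 : Matrix (Fin 4) (Fin 4) F) ^ k3 *
        (c4 : Matrix (Fin 4) (Fin 4) F) ^ k4 := by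
  simp only [Units.val_mul, Units.val_pow_eq_pow_val]

set_option linter.unusedVariables false in
theorem stdCount (hB : StPBasic.{u}) (hLI : StPLI.{u}) : StStdCount.{u} := by
  intro F _ R ι a1 b1 a2 b2 P h2 hι hcard hz ha1 hb1 ha2 hb2 hA1 hB1 hA2 hB2
  obtain ⟨z, hzR, hzι⟩ := hz
  have hzc : ((P⁻¹ * z * P : GL (Fin 4) F) : Matrix (Fin 4) (Fin 4) F) =
      ι • (1 : Matrix (Fin 4) (Fin 4) F) := by
    apply conj_coe_of_mul_eq
    rw [hzι]
    simp
  obtain ⟨w, hw⟩ : ∃ w : ℕ → (Fin 4 → ZMod 2) → GL (Fin 4) F, w = fun j v =>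
      z ^ j * a1 ^ (v 0).val * b1 ^ (v 1).val * a2 ^ (v 2).val * b2 ^ (v 3).val := ⟨_, rfl⟩
  have hwR : ∀ j v, w j v ∈ R := by
    intro j v
    rw [hw]
    exact R.mul_mem (R.mul_mem (R.mul_mem (R.mul_mem (R.pow_mem hzR _) (R.pow_mem ha1 _))
      (R.pow_mem hb1 _)) (R.pow_mem ha2 _)) (R.pow_mem hb2 _)
  have hwc : ∀ j v, ((P⁻¹ * w j v * P : GL (Fin 4) F) : Matrix (Fin 4) (Fin 4) F) =
      ι ^ j • pauli v := by
    intro j v
    have e : P⁻¹ * w j v * P = (P⁻¹ * z * P) ^ j * (P⁻¹ * a1 * P) ^ (v 0).val *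
        (P⁻¹ * b1 * P) ^ (v 1).val * (P⁻¹ * a2 * P) ^ (v 2).val *
        (P⁻¹ * b2 * P) ^ (v 3).val := by
      rw [hw]
      simp only [conj_mul_GL, conj_pow_GL]
    rw [e, coe_word, hzc, conj_coe_of_mul_eq P a1 A1 hA1, conj_coe_of_mul_eq P b1 B1 hB1,
      conj_coe_of_mul_eq P a2 A2 hA2, conj_coe_of_mul_eq P b2 B2 hB2, smul_pow, one_pow]
    simp only [pauli, smul_mul_assoc, one_mul]
  intro g
  constructor
  · intro hg
    have hι4 : ι ^ 4 = 1 := by
      have h : ι ^ 4 = (ι ^ 2) ^ 2 := by ring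
      rw [h, hι]
      ring
    have hι2 : ι ^ 2 ≠ 1 := by
      rw [hι]
      intro h
      apply h2
      have h' : (2 : F) = 1 - (-1) := by ring
      rw [h', h]
      ring
    have hιne : ι ≠ 0 := by
      intro h0
      rw [h0] at hι4
      simp at hι4
    have hord : orderOf ι = 4 := by
      have : Fact (Nat.Prime 2) := ⟨Nat.prime_two⟩
      have h := orderOf_eq_prime_pow (p := 2) (n := 1) (x := ι) (by simpa using hι2)
        (by simpa using hι4)
      simpa using h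
    have hLI' := hLI F h2
    have hinj : ∀ (j j' : Fin 4) (v v' : Fin 4 → ZMod 2),
        ι ^ (j : ℕ) • (pauli v : Matrix (Fin 4) (Fin 4) F) = ι ^ (j' : ℕ) • pauli v' →
        j = j' ∧ v = v' := by
      intro j j' v v' h
      have hv : v = v' := by
        by_contra hne
        have h3 := Fintype.linearIndependent_iff.mp hLI'
          (fun u => (if u = v then ι ^ (j : ℕ) else 0) - (if u = v' then ι ^ (j' : ℕ) else 0))
          (by
            simp only [sub_smul, Finset.sum_sub_distrib, ite_smul, zero_smul,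
              Finset.sum_ite_eq', Finset.mem_univ, if_true]
            rw [h, sub_self]) v
        simp only [if_true, if_neg hne, sub_zero] at h3
        exact pow_ne_zero _ hιne h3
      subst hv
      refine ⟨?_, rfl⟩
      have hP0 : (pauli v : Matrix (Fin 4) (Fin 4) F) ≠ 0 := hLI'.ne_zero v
      have h4 : ι ^ (j : ℕ) = ι ^ (j' : ℕ) := by
        have h5 : (ι ^ (j : ℕ) - ι ^ (j' : ℕ)) • (pauli v : Matrix (Fin 4) (Fin 4) F) = 0 := by
          rw [sub_smul, h, sub_self]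
        rcases smul_eq_zero.mp h5 with h6 | h6
        · exact sub_eq_zero.mp h6
        · exact absurd h6 hP0
      have h7 := pow_injOn_Iio_orderOf (x := ι) (Set.mem_Iio.mpr (by rw [hord]; exact j.2))
        (Set.mem_Iio.mpr (by rw [hord]; exact j'.2)) h4
      exact Fin.ext h7
    have hfin : Finite R := Nat.finite_of_card_ne_zero (by rw [hcard]; norm_num)
    obtain ⟨f, hf⟩ : ∃ f : Fin 4 × (Fin 4 → ZMod 2) → R, ∀ x, (f x : GL (Fin 4) F) =
        w x.1 x.2 := ⟨fun x => ⟨w x.1 x.2, hwR _ _⟩, fun _ => rfl⟩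
    have hfinj : Function.Injective f := by
      rintro ⟨j, v⟩ ⟨j', v'⟩ hxy
      have h1 : w j v = w j' v' := by
        have := congrArg Subtype.val hxy
        rwa [hf, hf] at this
      have h3 : ι ^ (j : ℕ) • (pauli v : Matrix (Fin 4) (Fin 4) F) = ι ^ (j' : ℕ) • pauli v' := by
        rw [← hwc, ← hwc, h1]
      obtain ⟨e1, e2⟩ := hinj j j' v v' h3
      rw [e1, e2]
    have hbij : Function.Bijective f := by
      refine hfinj.bijective_of_nat_card_le ?_
      rw [hcard]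
      simp [Nat.card_eq_fintype_card, ZMod.card]
    obtain ⟨⟨j, v⟩, hjv⟩ := hbij.2 ⟨g, hg⟩
    refine ⟨j, v, ?_⟩
    have h8 : w j v = g := by
      have := congrArg Subtype.val hjv
      rwa [hf] at this
    rw [← h8, hwc]
  · rintro ⟨j, v, hgv⟩
    have h1 : P⁻¹ * g * P = P⁻¹ * w j v * P := Units.ext (by rw [hgv, hwc])
    have h2 : g = w j v := mul_left_cancel (mul_right_cancel h1)
    rw [h2]
    exact hwR j v

end Cfsg.Agent.H71.UP
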