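import Mathlib
import Cfsg.Agent.H77.UfDefs3
import Cfsg.Agent.H25.UfElem

/-! S2149 team project (helper77), piece UF-MEM: the eight matrices are the matrices of
elements of `SU₃(5)`. -/

set_option autoImplicit false

namespace Cfsg.Agent.H71.Uf

open Cfsg Matrix Cfsg.Agent.H77.Uf

theorem inSU_of (M : Matrix (Fin 3) (Fin 3) F25) (hd : M.det = 1)
    (hu : Mᵀ * M.map (fun x => x ^ 5) = 1) : InSU M :=
  ⟨⟨⟨M, hd⟩, Cfsg.Agent.H25.Uf.mem_SU35_of M hd hu⟩, rfl⟩

set_option maxRecDepth 100000 in
theorem R4_unitary : R4ᵀ * R4.map (fun x => x ^ 5) = 1 := by decide +kernel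

set_option maxRecDepth 100000 in
theorem R4_det : R4.det = 1 := by
  rw [Matrix.det_fin_three]
  decide +kernel

set_option maxRecDepth 100000 in
theorem S2_unitary : S2ᵀ * S2.map (fun x => x ^ 5) = 1 := by decide +kernel

set_option maxRecDepth 100000 in
theorem S2_det : S2.det = 1 := by
  rw [Matrix.det_fin_three]
  decide +kernel

set_option maxRecDepth 100000 in
theorem D3_unitary : D3ᵀ * D3.map (fun x => x ^ 5) = 1 := by decide +kernel

set_option maxRecDepth 100000 in
theorem D3_det : D3.det = 1 := by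
  rw [Matrix.det_fin_three]
  decide +kernel

set_option maxRecDepth 100000 in
theorem P3_unitary : P3ᵀ * P3.map (fun x => x ^ 5) = 1 := by decide +kernel

set_option maxRecDepth 100000 in
theorem P3_det : P3.det = 1 := by
  rw [Matrix.det_fin_three]
  decide +kernel

set_option maxRecDepth 100000 in
theorem A5_unitary : A5ᵀ * A5.map (fun x => x ^ 5) = 1 := by decide +kernel

set_option maxRecDepth 100000 in
theorem A5_det : A5.det = 1 := by
  rw [Matrix.det_fin_three]
  decide +kernel

set_option maxRecDepth 100000 in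
theorem A7m_unitary : A7mᵀ * A7m.map (fun x => x ^ 5) = 1 := by decide +kernel

set_option maxRecDepth 100000 in
theorem A7m_det : A7m.det = 1 := by
  rw [Matrix.det_fin_three]
  decide +kernel

set_option maxRecDepth 100000 in
theorem Z1m_unitary : Z1mᵀ * Z1m.map (fun x => x ^ 5) = 1 := by decide +kernel

set_option maxRecDepth 100000 in
theorem Z1m_det : Z1m.det = 1 := by
  rw [Matrix.det_fin_three]
  decide +kernel

set_option maxRecDepth 100000 in
theorem G0_unitary : G0ᵀ * G0.map (fun x => x ^ 5) = 1 := by decide +kernel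

set_option maxRecDepth 100000 in
theorem G0_det : G0.det = 1 := by
  rw [Matrix.det_fin_three]
  decide +kernel

theorem mem : StMem :=
  ⟨inSU_of R4 R4_det R4_unitary, inSU_of S2 S2_det S2_unitary, inSU_of D3 D3_det D3_unitary,
    inSU_of P3 P3_det P3_unitary, inSU_of A5 A5_det A5_unitary,
    inSU_of A7m A7m_det A7m_unitary, inSU_of Z1m Z1m_det Z1m_unitary,
    inSU_of G0 G0_det G0_unitary⟩

example : Cfsg.Agent.H77.Uf.StMem := mem

end Cfsg.Agent.H71.Uf
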