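import Mathlib
import Cfsg.Agent.H77.UfDefs3

/-! S2149 team project (helper77), piece UF-ST8: a dihedral pair forces `8 ∣ |G|`. -/

set_option autoImplicit false

namespace Cfsg.Agent.H71.Uf

open Cfsg.Agent.H77.Uf

universe u

theorem st8_aux {G : Type u} [Group G] [Finite G] (r s : G) (hr4 : r ^ 4 = 1)
    (hr2 : r ^ 2 ≠ 1) (hs2 : s ^ 2 = 1) (hsr : s * r * s⁻¹ = r⁻¹) : 8 ∣ Nat.card G := by
  classical
  -- order of r is 4
  have ho : orderOf r = 4 := by
    have hd : orderOf r ∣ 4 := orderOf_dvd_of_pow_eq_one hr4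
    have hnd : ¬ orderOf r ∣ 2 := fun h => hr2 (orderOf_dvd_iff_pow_eq_one.mp h)
    have hle : orderOf r ≤ 4 := Nat.le_of_dvd (by norm_num) hd
    have hpos : 0 < orderOf r := Nat.pos_of_dvd_of_pos hd (by norm_num)
    interval_cases h : orderOf r
    · exact absurd (one_dvd 2) hnd
    · exact absurd (dvd_refl 2) hnd
    · exact absurd hd (by norm_num)
    · rfl
  set A : Subgroup G := Subgroup.zpowers r with hA
  have hAcard : Nat.card A = 4 := by rw [hA, Nat.card_zpowers, ho]
  have hsinv : s⁻¹ = s := by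
    rw [inv_eq_iff_mul_eq_one, ← pow_two]; exact hs2
  -- conjugation by s maps A into A
  have hconj : ∀ a ∈ A, s * a * s⁻¹ ∈ A := by
    intro a ha
    obtain ⟨k, rfl⟩ := Subgroup.mem_zpowers_iff.mp ha
    have : s * r ^ k * s⁻¹ = (r⁻¹) ^ k := by
      rw [← hsr, conj_zpow]
    rw [this]
    exact Subgroup.zpow_mem _ (Subgroup.inv_mem _ (Subgroup.mem_zpowers r)) k
  have hsN : s ∈ Subgroup.normalizer (A : Set G) := by
    rw [Subgroup.mem_normalizer_iff]
    intro a
    constructor
    · exact hconj a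
    · intro h
      have h2 := hconj _ h
      have e : s * (s * a * s⁻¹) * s⁻¹ = a := by
        rw [hsinv]
        have hss : s * s = 1 := by rw [← pow_two]; exact hs2
        calc s * (s * a * s) * s = (s * s) * a * (s * s) := by simp only [mul_assoc]
          _ = a := by rw [hss, one_mul, mul_one]
      rwa [e] at h2
  have hsA : s ∉ A := by
    intro h
    obtain ⟨k, hk⟩ := Subgroup.mem_zpowers_iff.mp h
    have hcomm : s * r = r * s := by
      rw [← hk, ← zpow_add_one, ← zpow_one_add, add_comm]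
    have : r⁻¹ = r := by
      rw [← hsr, hcomm, mul_inv_cancel_right]
    apply hr2
    rw [pow_two]
    nth_rewrite 1 [← this]
    exact inv_mul_cancel r
  set N : Subgroup G := Subgroup.normalizer (A : Set G) with hN
  have hAN : A ≤ N := Subgroup.le_normalizer
  have : (A.subgroupOf N).Normal := Subgroup.normal_in_normalizer
  set q : N ⧸ A.subgroupOf N := QuotientGroup.mk (⟨s, hsN⟩ : N) with hq
  have hq1 : q ≠ 1 := by
    rw [hq, Ne, QuotientGroup.eq_one_iff, Subgroup.mem_subgroupOf]
    exact hsA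
  have hq2 : q ^ 2 = 1 := by
    rw [hq, ← QuotientGroup.mk_pow]
    have : (⟨s, hsN⟩ : N) ^ 2 = 1 := by
      apply Subtype.ext
      simpa using hs2
    rw [this]; rfl
  have hoq : orderOf q = 2 := orderOf_eq_prime hq2 hq1
  have h2 : 2 ∣ Nat.card (N ⧸ A.subgroupOf N) := by
    rw [← hoq]; exact orderOf_dvd_natCard q
  have hsub : Nat.card (A.subgroupOf N) = 4 := by
    rw [Nat.card_congr (Subgroup.subgroupOfEquivOfLe hAN).toEquiv, hAcard]
  have hNcard : Nat.card N = Nat.card (N ⧸ A.subgroupOf N) * 4 := by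
    rw [Subgroup.card_eq_card_quotient_mul_card_subgroup (A.subgroupOf N), hsub]
  have h8 : 8 ∣ Nat.card N := by
    rw [hNcard]
    obtain ⟨m, hm⟩ := h2
    exact ⟨m, by rw [hm]; ring⟩
  exact h8.trans (Subgroup.card_subgroup_dvd_card N)

theorem st8 : St8.{u} := by
  intro G _ _ r s h1 h2 h3 h4
  exact st8_aux r s h1 h2 h3 h4

example : Cfsg.Agent.H77.Uf.St8.{u} := st8

end Cfsg.Agent.H71.Uf
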