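import Mathlib
import Cfsg.Prelude.Def_PLocal
import Cfsg.Prelude.Def_LocalEven
import Cfsg.Agent.Helper55.SylIn

set_option autoImplicit false

/-!
# S2799-GR (helper71, for helper52): weak closure from the relative local theorem.

`wc_of_local_aux` is the global reduction with the four `J(S)` facts as hypotheses.
-/

namespace Cfsg.Agent.H71.WcGR

open Cfsg Cfsg.Agent.Helper55

universe u

variable {G : Type u} [Group G]

lemma normalizer_conj_aux {J : Subgroup G} {k n : G}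
    (hn : n ∈ Subgroup.normalizer ((J.map (MulAut.conj k).toMonoidHom : Subgroup G) : Set G)) :
    k⁻¹ * n * k ∈ Subgroup.normalizer (J : Set G) := by
  rw [Subgroup.mem_normalizer_iff] at hn ⊢
  intro w
  have h1 := hn (k * w * k⁻¹)
  rw [mem_map_conj_iff, mem_map_conj_iff] at h1
  have e1 : k⁻¹ * (k * w * k⁻¹) * k = w := by group
  have e2 : k⁻¹ * (n * (k * w * k⁻¹) * n⁻¹) * k = k⁻¹ * n * k * w * (k⁻¹ * n * k)⁻¹ := by group
  rw [e1, e2] at h1
  exact h1

lemma card_lt_of_lt [Finite G] {A B : Subgroup G} (h : A < B) : Nat.card A < Nat.card B := by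
  by_contra hcon
  exact (ne_of_lt h) (Subgroup.eq_of_le_of_card_ge h.le (not_lt.1 hcon))

theorem wc_of_local_aux [Finite G] {p : ℕ} [Fact p.Prime]
    (hJle : ∀ T : Subgroup G, thompsonSubgroupAOf T ≤ T)
    (hJconj : ∀ (T : Subgroup G) (g : G), thompsonSubgroupAOf (T.map (MulAut.conj g).toMonoidHom) =
      (thompsonSubgroupAOf T).map (MulAut.conj g).toMonoidHom)
    (hJcen : ∀ (T : Subgroup G) (y : G), y ∈ T → (∀ s ∈ T, y * s = s * y) →
      y ∈ thompsonSubgroupAOf T)
    (hJnorm : ∀ T : Subgroup G, Subgroup.normalizer (T : Set G) ≤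
      Subgroup.normalizer ((thompsonSubgroupAOf T : Subgroup G) : Set G))
    (LT : ∀ (H S D : Subgroup G) (x : G), Cfsg.Agent.Helper55.IsSylIn p H S → D ≤ H → IsPGroup p D →
      (∀ h ∈ H, ∀ d ∈ D, h * d * h⁻¹ ∈ D) → x ∈ D →
      (∀ n ∈ H, n ∈ Subgroup.normalizer ((thompsonSubgroupAOf S : Subgroup G) : Set G) → n * x = x * n) →
      (p ≠ 2 ∨ (∃ z ∈ S, (∀ s ∈ S, z * s = s * z) ∧ z ^ p = x) ∨ ¬ Involves (Equiv.Perm (Fin 4)) G) →
      ∀ h ∈ H, h * x = x * h)
    (S : Sylow p G) (x : G) (hxS : x ∈ (S : Subgroup G))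
    (hxZ : ∀ n ∈ Subgroup.normalizer ((thompsonSubgroupAOf (S : Subgroup G) : Subgroup G) : Set G), n * x = x * n)
    (h : p ≠ 2 ∨ (∃ z ∈ (S : Subgroup G), (∀ s ∈ (S : Subgroup G), z * s = s * z) ∧ z ^ p = x) ∨
      ¬ Involves (Equiv.Perm (Fin 4)) G) :
    ∀ g : G, g * x * g⁻¹ ∈ (S : Subgroup G) → g * x * g⁻¹ = x := by
  classical
  let Sk : G → Subgroup G := fun k => (S : Subgroup G).map (MulAut.conj k).toMonoidHom
  let xk : G → G := fun k => k * x * k⁻¹
  have hSkdef : ∀ k, Sk k = (S : Subgroup G).map (MulAut.conj k).toMonoidHom := fun _ => rfl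
  have hxkdef : ∀ k, xk k = k * x * k⁻¹ := fun _ => rfl
  have hSkcard : ∀ k, Nat.card (Sk k) = Nat.card (S : Subgroup G) := fun k => card_map_conj _ k
  have hSkp : ∀ k, IsPGroup p (Sk k) := by
    intro k
    apply IsPGroup.of_card (n := (Nat.card G).factorization p)
    rw [hSkcard, S.card_eq_multiplicity]
  have hcover : ∀ R : Subgroup G, IsPGroup p R → ∃ k, R ≤ Sk k := by
    intro R hR
    obtain ⟨E, hE, hRE⟩ := exists_isSylIn_ge (M := ⊤) (le_top : R ≤ ⊤) hR
    obtain ⟨m, -, hm⟩ := (isSylIn_top_of_sylow S).exists_conj hE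
    exact ⟨m, by rw [hSkdef, ← hm]; exact hRE⟩
  have hcardG : ∀ A : Subgroup G, Nat.card A ≤ Nat.card G := fun A => Subgroup.card_le_card_group A
  have hx3 : ∀ k, xk k ∈ Sk k := by
    intro k
    rw [hSkdef, hxkdef, mem_map_conj_iff]
    have e : k⁻¹ * (k * x * k⁻¹) * k = x := by group
    rw [e]; exact hxS
  have hx4 : ∀ k n, n ∈ Subgroup.normalizer ((thompsonSubgroupAOf (Sk k) : Subgroup G) : Set G) →
      n * xk k = xk k * n := by
    intro k n hn
    have h1 : k⁻¹ * n * k ∈ Subgroup.normalizer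
        ((thompsonSubgroupAOf (S : Subgroup G) : Subgroup G) : Set G) := by
      apply normalizer_conj_aux
      rw [← hJconj]; exact hn
    have h2 := hxZ _ h1
    rw [hxkdef]
    calc n * (k * x * k⁻¹) = k * (k⁻¹ * n * k * x) * k⁻¹ := by group
      _ = k * (x * (k⁻¹ * n * k)) * k⁻¹ := by rw [h2]
      _ = k * x * k⁻¹ * n := by group
  have hx5 : ∀ k, ∀ s ∈ Sk k, xk k * s = s * xk k := by
    intro k s hs
    exact (hx4 k s (hJnorm (Sk k) (Subgroup.le_normalizer hs))).symm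
  have hx6 : ∀ k l, Sk k = Sk l → xk k = xk l := by
    intro k l hkl
    have h1 : l * k⁻¹ ∈ Subgroup.normalizer ((Sk k : Subgroup G) : Set G) := by
      rw [Subgroup.mem_normalizer_iff]
      intro w
      have e : l⁻¹ * (l * k⁻¹ * w * (l * k⁻¹)⁻¹) * l = k⁻¹ * w * k := by group
      constructor
      · intro hw
        rw [hkl, hSkdef, mem_map_conj_iff, e]
        exact mem_map_conj_iff.1 hw
      · intro hw
        rw [hkl, hSkdef, mem_map_conj_iff, e] at hw
        exact mem_map_conj_iff.2 hw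
    have h3 : l * k⁻¹ * (k * x * k⁻¹) = k * x * k⁻¹ * (l * k⁻¹) := hx4 k _ (hJnorm (Sk k) h1)
    rw [hxkdef, hxkdef]
    calc k * x * k⁻¹ = (k * x * k⁻¹ * (l * k⁻¹)) * (l * k⁻¹)⁻¹ := by group
      _ = (l * k⁻¹ * (k * x * k⁻¹)) * (l * k⁻¹)⁻¹ := by rw [h3]
      _ = l * x * l⁻¹ := by group
  have hx7 : ∀ k, p ≠ 2 ∨ (∃ z ∈ Sk k, (∀ s ∈ Sk k, z * s = s * z) ∧ z ^ p = xk k) ∨
      ¬ Involves (Equiv.Perm (Fin 4)) G := by
    intro k
    rcases h with h | ⟨z, hzS, hzc, hzp⟩ | h
    · exact Or.inl h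
    · refine Or.inr (Or.inl ⟨k * z * k⁻¹, ?_, ?_, ?_⟩)
      · rw [hSkdef, mem_map_conj_iff]
        have e : k⁻¹ * (k * z * k⁻¹) * k = z := by group
        rw [e]; exact hzS
      · intro s hs
        have hs' : k⁻¹ * s * k ∈ (S : Subgroup G) := mem_map_conj_iff.1 hs
        have := hzc _ hs'
        calc k * z * k⁻¹ * s = k * (z * (k⁻¹ * s * k)) * k⁻¹ := by group
          _ = k * ((k⁻¹ * s * k) * z) * k⁻¹ := by rw [this]
          _ = s * (k * z * k⁻¹) := by group
      · rw [conj_pow, hzp]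
    · exact Or.inr (Or.inr h)
  -- Step 1
  have step1 : ∀ N : ℕ, ∀ k l, xk k ∈ Sk l → xk k ≠ xk l →
      Nat.card G - Nat.card ↥(Sk k ⊓ Sk l) = N →
      ∃ (j : G) (D : Subgroup G), D ≤ Sk j ∧ xk j ∈ D ∧
        IsSylIn p (Subgroup.normalizer (D : Set G)) (Sk j ⊓ Subgroup.normalizer (D : Set G)) ∧
        (∃ h ∈ Subgroup.normalizer (D : Set G), h * xk j ≠ xk j * h) ∧
        Nat.card ↥(Sk k ⊓ Sk l) < Nat.card ↥(Sk j ⊓ Subgroup.normalizer (D : Set G)) := by
    intro N
    induction N using Nat.strong_induction_on with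
    | _ N ih =>
    intro k l hkl hne hN
    obtain ⟨D, hD⟩ : ∃ D : Subgroup G, D = Sk k ⊓ Sk l := ⟨_, rfl⟩
    rw [← hD] at hN ⊢
    have hDk' : D ≤ Sk k := hD ▸ inf_le_left
    have hDl' : D ≤ Sk l := hD ▸ inf_le_right
    have hxD : xk k ∈ D := by rw [hD]; exact ⟨hx3 k, hkl⟩
    have hSne : Sk k ≠ Sk l := fun e => hne (hx6 k l e)
    have hDk : D ≠ Sk k := by
      intro e
      have hle : Sk k ≤ Sk l := by rw [← e]; exact hDl'
      exact hSne (Subgroup.eq_of_le_of_card_ge hle (by rw [hSkcard, hSkcard]))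
    have hDl : D ≠ Sk l := by
      intro e
      have hle : Sk l ≤ Sk k := by rw [← e]; exact hDk'
      exact hSne (Subgroup.eq_of_le_of_card_ge hle (by rw [hSkcard, hSkcard])).symm
    have hDN : D ≤ Subgroup.normalizer (D : Set G) := Subgroup.le_normalizer
    have hgk : D < Sk k ⊓ Subgroup.normalizer (D : Set G) := by
      refine lt_of_le_of_ne (le_inf hDk' hDN) ?_
      intro e
      exact hDk (eq_of_normalizer_inf_le (hSkp k) hDk' (le_of_eq e.symm))
    have hgl : D < Sk l ⊓ Subgroup.normalizer (D : Set G) := by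
      refine lt_of_le_of_ne (le_inf hDl' hDN) ?_
      intro e
      exact hDl (eq_of_normalizer_inf_le (hSkp l) hDl' (le_of_eq e.symm))
    obtain ⟨R, hR, hkR⟩ := exists_isSylIn_ge (M := Subgroup.normalizer (D : Set G))
      (R := Sk k ⊓ Subgroup.normalizer (D : Set G)) inf_le_right ((hSkp k).to_le inf_le_left)
    obtain ⟨k1, hk1⟩ := hcover R hR.isPGroup
    have hDR : D ≤ R := le_trans hgk.le hkR
    have hkk1 : xk k ∈ Sk k1 := hk1 (hDR hxD)
    have hbig1 : Nat.card D < Nat.card ↥(Sk k ⊓ Sk k1) :=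
      lt_of_lt_of_le (card_lt_of_lt hgk)
        (Subgroup.card_le_of_le (le_inf inf_le_left (le_trans hkR hk1)))
    by_cases hc1 : xk k = xk k1
    swap
    · have hb := hcardG (Sk k ⊓ Sk k1)
      obtain ⟨j, D', h1, h2, h3, h4, h5⟩ := ih _ (by omega) k k1 hkk1 hc1 rfl
      exact ⟨j, D', h1, h2, h3, h4, lt_trans hbig1 h5⟩
    obtain ⟨E, hE, hlE⟩ := exists_isSylIn_ge (M := Subgroup.normalizer (D : Set G))
      (R := Sk l ⊓ Subgroup.normalizer (D : Set G)) inf_le_right ((hSkp l).to_le inf_le_left)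
    obtain ⟨m, hm, hEm⟩ := hR.exists_conj hE
    have hSm : Sk (m * k1) = (Sk k1).map (MulAut.conj m).toMonoidHom :=
      (map_conj_map_conj _ m k1).symm
    have hEle : E ≤ Sk (m * k1) := by rw [hSm, hEm]; exact map_conj_mono hk1 m
    have hxm : xk (m * k1) = m * xk k * m⁻¹ := by
      rw [hc1, hxkdef, hxkdef]; group
    have hxmD : xk (m * k1) ∈ D := by
      rw [hxm]; exact ((Subgroup.mem_normalizer_iff.1 hm) _).1 hxD
    have hxml : xk (m * k1) ∈ Sk l := hDl' hxmD
    have hbig2 : Nat.card D < Nat.card ↥(Sk (m * k1) ⊓ Sk l) :=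
      lt_of_lt_of_le (card_lt_of_lt hgl)
        (Subgroup.card_le_of_le (le_inf (le_trans hlE hEle) inf_le_left))
    by_cases hc2 : xk (m * k1) = xk l
    swap
    · have hb := hcardG (Sk (m * k1) ⊓ Sk l)
      obtain ⟨j, D', h1, h2, h3, h4, h5⟩ := ih _ (by omega) (m * k1) l hxml hc2 rfl
      exact ⟨j, D', h1, h2, h3, h4, lt_trans hbig2 h5⟩
    have hRS : R = Sk k1 ⊓ Subgroup.normalizer (D : Set G) :=
      hR.eq_of_le (le_inf hk1 hR.1) inf_le_right ((hSkp k1).to_le inf_le_left)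
    refine ⟨k1, D, le_trans hDR hk1, hc1 ▸ hxD, hRS ▸ hR, ⟨m, hm, ?_⟩, ?_⟩
    · intro hcomm
      apply hne
      have e : m * xk k * m⁻¹ = xk k := by
        rw [hc1, hcomm]; group
      rw [← hc2, hxm, e]
    · rw [← hRS]
      exact lt_of_lt_of_le (card_lt_of_lt hgk) (Subgroup.card_le_of_le hkR)
  -- Step 2
  have step2 : ∀ N : ℕ, ∀ (j : G) (D : Subgroup G), D ≤ Sk j → xk j ∈ D →
      IsSylIn p (Subgroup.normalizer (D : Set G)) (Sk j ⊓ Subgroup.normalizer (D : Set G)) →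
      (∃ h ∈ Subgroup.normalizer (D : Set G), h * xk j ≠ xk j * h) →
      Nat.card G - Nat.card ↥(Sk j ⊓ Subgroup.normalizer (D : Set G)) = N → False := by
    intro N
    induction N using Nat.strong_induction_on with
    | _ N ih =>
    rintro j D hDS hxD hsyl ⟨h0, hh0, hh0x⟩ hN
    have hDH : D ≤ Subgroup.normalizer (D : Set G) := Subgroup.le_normalizer
    have hDp : IsPGroup p D := (hSkp j).to_le hDS
    have hnorm : ∀ h ∈ Subgroup.normalizer (D : Set G), ∀ d ∈ D, h * d * h⁻¹ ∈ D :=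
      fun h hh d hd => ((Subgroup.mem_normalizer_iff.1 hh) d).1 hd
    by_cases hcase : Sk j ≤ Subgroup.normalizer (D : Set G)
    · have hS1eq : Sk j ⊓ Subgroup.normalizer (D : Set G) = Sk j := inf_of_le_left hcase
      rw [hS1eq] at hsyl
      have := LT _ (Sk j) D (xk j) hsyl hDH hDp hnorm hxD (fun n _ hn => hx4 j n hn) (hx7 j)
      exact hh0x (this h0 hh0)
    · obtain ⟨S1, hS1⟩ : ∃ S1 : Subgroup G, S1 = Sk j ⊓ Subgroup.normalizer (D : Set G) :=
        ⟨_, rfl⟩
      rw [← hS1] at hsyl hN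
      have hS1j : S1 ≤ Sk j := hS1 ▸ inf_le_left
      have hS1H : S1 ≤ Subgroup.normalizer (D : Set G) := hS1 ▸ inf_le_right
      have hS1lt : S1 < Sk j := by
        refine lt_of_le_of_ne hS1j (fun e => hcase ?_)
        rw [← e]; exact hS1H
      have hxS1 : xk j ∈ S1 := by rw [hS1]; exact ⟨hDS hxD, hDH hxD⟩
      have hxD1 : xk j ∈ thompsonSubgroupAOf S1 :=
        hJcen S1 (xk j) hxS1 (fun s hs => hx5 j s (hS1j hs))
      have hg : S1 < Sk j ⊓ Subgroup.normalizer (S1 : Set G) := by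
        refine lt_of_le_of_ne (le_inf hS1j Subgroup.le_normalizer) ?_
        intro e
        exact (ne_of_lt hS1lt) (eq_of_normalizer_inf_le (hSkp j) hS1j (le_of_eq e.symm))
      have hg' : Sk j ⊓ Subgroup.normalizer (S1 : Set G) ≤
          Sk j ⊓ Subgroup.normalizer ((thompsonSubgroupAOf S1 : Subgroup G) : Set G) :=
        inf_le_inf_left _ (hJnorm S1)
      obtain ⟨R1, hR1, hR1le⟩ := exists_isSylIn_ge
        (M := Subgroup.normalizer ((thompsonSubgroupAOf S1 : Subgroup G) : Set G))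
        (R := Sk j ⊓ Subgroup.normalizer ((thompsonSubgroupAOf S1 : Subgroup G) : Set G))
        inf_le_right ((hSkp j).to_le inf_le_left)
      obtain ⟨i, hi⟩ := hcover R1 hR1.isPGroup
      have hS1R1 : S1 ≤ R1 := le_trans (le_trans hg.le hg') hR1le
      have hxi : xk j ∈ Sk i := hi (hS1R1 hxS1)
      have hbig : Nat.card S1 < Nat.card
          ↥(Sk j ⊓ Subgroup.normalizer ((thompsonSubgroupAOf S1 : Subgroup G) : Set G)) :=
        lt_of_lt_of_le (card_lt_of_lt hg) (Subgroup.card_le_of_le hg')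
      by_cases hc : xk j = xk i
      swap
      · have hb2 : Nat.card S1 < Nat.card ↥(Sk j ⊓ Sk i) :=
          lt_of_lt_of_le hbig (Subgroup.card_le_of_le (le_inf inf_le_left (le_trans hR1le hi)))
        obtain ⟨j', D', h1, h2, h3, h4, h5⟩ := step1 _ j i hxi hc rfl
        have hb := hcardG (Sk j' ⊓ Subgroup.normalizer (D' : Set G))
        exact ih _ (by omega) j' D' h1 h2 h3 h4 rfl
      have hR1S : R1 = Sk i ⊓ Subgroup.normalizer ((thompsonSubgroupAOf S1 : Subgroup G) : Set G) :=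
        hR1.eq_of_le (le_inf hi hR1.1) inf_le_right ((hSkp i).to_le inf_le_left)
      have hD1i : thompsonSubgroupAOf S1 ≤ Sk i := le_trans (le_trans (hJle S1) hS1R1) hi
      have hcen : ∀ n ∈ Subgroup.normalizer ((thompsonSubgroupAOf S1 : Subgroup G) : Set G),
          n * xk j = xk j * n := by
        intro n hn
        by_contra hcon
        have hb3 : Nat.card S1 < Nat.card
            ↥(Sk i ⊓ Subgroup.normalizer ((thompsonSubgroupAOf S1 : Subgroup G) : Set G)) := by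
          rw [← hR1S]; exact lt_of_lt_of_le hbig (Subgroup.card_le_of_le hR1le)
        have hb := hcardG (Sk i ⊓ Subgroup.normalizer ((thompsonSubgroupAOf S1 : Subgroup G) : Set G))
        exact ih _ (by omega) i (thompsonSubgroupAOf S1) hD1i (hc ▸ hxD1) (hR1S ▸ hR1)
          ⟨n, hn, hc ▸ hcon⟩ rfl
      have hcond : p ≠ 2 ∨ (∃ z ∈ S1, (∀ s ∈ S1, z * s = s * z) ∧ z ^ p = xk j) ∨
          ¬ Involves (Equiv.Perm (Fin 4)) G := by
        rcases hx7 j with h | ⟨z, hz, hzc, hzp⟩ | h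
        · exact Or.inl h
        · refine Or.inr (Or.inl ⟨z, ?_, fun s hs => hzc s (hS1j hs), hzp⟩)
          rw [hS1]
          refine Subgroup.mem_inf.2 ⟨hz, ?_⟩
          rw [Subgroup.mem_normalizer_iff]
          intro d
          constructor
          · intro hd
            have := hzc d (hDS hd)
            rw [this]; simpa using hd
          · intro hd
            have := hzc _ (hDS hd)
            have e : d = z * d * z⁻¹ := by
              calc d = z⁻¹ * ((z * d * z⁻¹) * z) := by group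
                _ = z⁻¹ * (z * (z * d * z⁻¹)) := by rw [this]
                _ = z * d * z⁻¹ := by group
            rw [e]; exact hd
        · exact Or.inr (Or.inr h)
      have := LT _ S1 D (xk j) hsyl hDH hDp hnorm hxD (fun n _ hn => hcen n hn) hcond
      exact hh0x (this h0 hh0)
  intro g hg
  by_contra hne
  have h1 : Sk 1 = (S : Subgroup G) := by
    rw [hSkdef]
    ext z
    rw [mem_map_conj_iff]
    simp
  have hfail1 : xk g ∈ Sk 1 := by rw [h1]; exact hg
  have hfail2 : xk g ≠ xk 1 := by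
    rw [hxkdef, hxkdef]
    simpa using hne
  obtain ⟨j, D, h1', h2, h3, h4, -⟩ := step1 _ g 1 hfail1 hfail2 rfl
  exact step2 _ j D h1' h2 h3 h4 rfl

end Cfsg.Agent.H71.WcGR
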