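import Mathlib
import Cfsg.Agent.H71.WcGRa

set_option autoImplicit false

/-!
# S2799-GR (helper71, for helper52): `wc_of_local`, exact statement.

The four facts on the Thompson subgroup `thompsonSubgroupAOf` used by the global reduction are
proved here under `H71` names.
-/

namespace Cfsg.Agent.H71.WcGR

open Cfsg Cfsg.Agent.Helper55

universe u

section J

variable {P Q : Type*} [Group P] [Group Q]

lemma maxAb_map (e : P ≃* Q) {A : Subgroup P} (hA : A ∈ maxAbelianSubgroups P) :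
    A.map e.toMonoidHom ∈ maxAbelianSubgroups Q := by
  obtain ⟨hAc, hAmax⟩ := hA
  refine ⟨⟨⟨?_⟩⟩, ?_⟩
  · rintro ⟨_, a, ha, rfl⟩ ⟨_, b, hb, rfl⟩
    apply Subtype.ext
    have h1 : (⟨a, ha⟩ : A) * ⟨b, hb⟩ = ⟨b, hb⟩ * ⟨a, ha⟩ := hAc.is_comm.comm _ _
    have h2 : a * b = b * a := congrArg Subtype.val h1
    show e.toMonoidHom a * e.toMonoidHom b = e.toMonoidHom b * e.toMonoidHom a
    rw [← map_mul, ← map_mul, h2]
  · intro B hB
    have hBc : IsMulCommutative (B.map e.symm.toMonoidHom) := by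
      refine ⟨⟨?_⟩⟩
      rintro ⟨_, a, ha, rfl⟩ ⟨_, b, hb, rfl⟩
      apply Subtype.ext
      have h1 : (⟨a, ha⟩ : B) * ⟨b, hb⟩ = ⟨b, hb⟩ * ⟨a, ha⟩ := hB.is_comm.comm _ _
      have h2 : a * b = b * a := congrArg Subtype.val h1
      show e.symm.toMonoidHom a * e.symm.toMonoidHom b = e.symm.toMonoidHom b * e.symm.toMonoidHom a
      rw [← map_mul, ← map_mul, h2]
    have h1 := hAmax _ hBc
    rw [Subgroup.card_map_of_injective (f := e.symm.toMonoidHom) e.symm.injective] at h1
    rw [Subgroup.card_map_of_injective (f := e.toMonoidHom) e.injective]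
    exact h1

lemma thompsonA_map_le (e : P ≃* Q) :
    (thompsonSubgroupA P).map e.toMonoidHom ≤ thompsonSubgroupA Q := by
  rw [Subgroup.map_le_iff_le_comap]
  apply sSup_le
  intro A hA a ha
  rw [Subgroup.mem_comap]
  exact (le_sSup (maxAb_map e hA) : A.map e.toMonoidHom ≤ thompsonSubgroupA Q)
    (Subgroup.mem_map_of_mem _ ha)

lemma thompsonA_map (e : P ≃* Q) :
    (thompsonSubgroupA P).map e.toMonoidHom = thompsonSubgroupA Q := by
  apply le_antisymm (thompsonA_map_le e)
  intro b hb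
  have h1 : e.symm.toMonoidHom b ∈ thompsonSubgroupA P :=
    thompsonA_map_le e.symm (Subgroup.mem_map_of_mem _ hb)
  refine ⟨e.symm.toMonoidHom b, h1, ?_⟩
  show e (e.symm b) = b
  simp

end J

variable {G : Type u} [Group G]

theorem h71_thompsonA_le (T : Subgroup G) : thompsonSubgroupAOf T ≤ T :=
  Subgroup.map_subtype_le _

theorem h71_thompsonA_conj (T : Subgroup G) (g : G) :
    thompsonSubgroupAOf (T.map (MulAut.conj g).toMonoidHom) =
      (thompsonSubgroupAOf T).map (MulAut.conj g).toMonoidHom := by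
  unfold thompsonSubgroupAOf
  rw [← thompsonA_map (T.equivMapOfInjective (MulAut.conj g).toMonoidHom (MulAut.conj g).injective),
    Subgroup.map_map, Subgroup.map_map]
  rfl

theorem h71_mem_thompsonA_of_central [Finite G] (T : Subgroup G) (y : G) (hy : y ∈ T)
    (hc : ∀ s ∈ T, y * s = s * y) : y ∈ thompsonSubgroupAOf T := by
  classical
  -- an abelian subgroup of `T` of largest order
  have : Nonempty {A : Subgroup T // IsMulCommutative A} :=
    ⟨⟨⊥, ⟨⟨fun a b => Subsingleton.elim _ _⟩⟩⟩⟩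
  obtain ⟨⟨A, hAc⟩, hAmax⟩ := Finite.exists_max (fun A : {A : Subgroup T // IsMulCommutative A} =>
    Nat.card (A : Subgroup T))
  have hAm : A ∈ maxAbelianSubgroups T := ⟨hAc, fun B hB => hAmax ⟨B, hB⟩⟩
  set y' : T := ⟨y, hy⟩ with hy'
  have hyc : ∀ s : T, y' * s = s * y' := fun s => Subtype.ext (hc s s.2)
  -- the closure of `A ∪ {y'}` is abelian
  set k : Set T := (A : Set T) ∪ {y'} with hk
  have hkc : ∀ a ∈ k, ∀ b ∈ k, a * b = b * a := by
    rintro a (ha | ha) b (hb | hb)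
    · have h1 : (⟨a, ha⟩ : A) * ⟨b, hb⟩ = ⟨b, hb⟩ * ⟨a, ha⟩ := hAc.is_comm.comm _ _
      exact congrArg Subtype.val h1
    · rw [Set.mem_singleton_iff] at hb; rw [hb]; exact (hyc a).symm
    · rw [Set.mem_singleton_iff] at ha; rw [ha]; exact hyc b
    · rw [Set.mem_singleton_iff] at ha hb; rw [ha, hb]
  have h1 : Subgroup.closure k ≤ Subgroup.centralizer k := by
    rw [Subgroup.closure_le]
    intro a ha
    exact Subgroup.mem_centralizer_iff.mpr (fun b hb => hkc b hb a ha)
  have h2 : Subgroup.closure k ≤ Subgroup.centralizer (Subgroup.closure k : Set T) := by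
    rw [Subgroup.closure_le]
    intro a ha
    exact Subgroup.mem_centralizer_iff.mpr
      (fun b hb => ((Subgroup.mem_centralizer_iff.mp (h1 hb)) a ha).symm)
  have hBc : IsMulCommutative (Subgroup.closure k) := by
    refine ⟨⟨?_⟩⟩
    rintro ⟨a, ha⟩ ⟨b, hb⟩
    apply Subtype.ext
    exact ((Subgroup.mem_centralizer_iff.mp (h2 ha)) b hb).symm
  have hAB : A ≤ Subgroup.closure k := by
    intro a ha
    exact Subgroup.subset_closure (Or.inl ha)
  have hAeq : A = Subgroup.closure k := Subgroup.eq_of_le_of_card_ge hAB (hAmax ⟨_, hBc⟩)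
  have hyA : y' ∈ A := by
    rw [hAeq]; exact Subgroup.subset_closure (Or.inr rfl)
  have hyJ : y' ∈ thompsonSubgroupA T := (le_sSup hAm : A ≤ thompsonSubgroupA T) hyA
  exact ⟨y', hyJ, rfl⟩

theorem h71_normalizer_le_normalizer_thompsonA (T : Subgroup G) :
    Subgroup.normalizer (T : Set G) ≤
      Subgroup.normalizer ((thompsonSubgroupAOf T : Subgroup G) : Set G) := by
  intro g hg
  have h1 : T.map (MulAut.conj g).toMonoidHom = T := map_conj_of_mem_normalizer hg
  have h2 := h71_thompsonA_conj T g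
  rw [h1] at h2
  rw [Subgroup.mem_normalizer_iff]
  intro w
  have e : g⁻¹ * (g * w * g⁻¹) * g = w := by group
  constructor
  · intro hw
    rw [h2, mem_map_conj_iff, e]; exact hw
  · intro hw
    rw [h2, mem_map_conj_iff, e] at hw; exact hw

/-- **S2799-GR**: weak closure of `x` in a Sylow `p`-subgroup from the relative local theorem. -/
theorem wc_of_local {G : Type u} [Group G] [Finite G] {p : ℕ} [Fact p.Prime]
    (LT : ∀ (H S D : Subgroup G) (x : G), Cfsg.Agent.Helper55.IsSylIn p H S → D ≤ H → IsPGroup p D →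
      (∀ h ∈ H, ∀ d ∈ D, h * d * h⁻¹ ∈ D) → x ∈ D →
      (∀ n ∈ H, n ∈ Subgroup.normalizer ((thompsonSubgroupAOf S : Subgroup G) : Set G) → n * x = x * n) →
      (p ≠ 2 ∨ (∃ z ∈ S, (∀ s ∈ S, z * s = s * z) ∧ z ^ p = x) ∨ ¬ Involves (Equiv.Perm (Fin 4)) G) →
      ∀ h ∈ H, h * x = x * h)
    (S : Sylow p G) (x : G) (hxS : x ∈ (S : Subgroup G))
    (hxZ : ∀ n ∈ Subgroup.normalizer ((thompsonSubgroupAOf (S : Subgroup G) : Subgroup G) : Set G), n * x = x * n)
    (h : p ≠ 2 ∨ (∃ z ∈ (S : Subgroup G), (∀ s ∈ (S : Subgroup G), z * s = s * z) ∧ z ^ p = x) ∨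
      ¬ Involves (Equiv.Perm (Fin 4)) G) :
    ∀ g : G, g * x * g⁻¹ ∈ (S : Subgroup G) → g * x * g⁻¹ = x :=
  wc_of_local_aux h71_thompsonA_le h71_thompsonA_conj
    (fun T y hy hc => h71_mem_thompsonA_of_central T y hy hc)
    h71_normalizer_le_normalizer_thompsonA LT S x hxS hxZ h

end Cfsg.Agent.H71.WcGR
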